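import Mathlib

/-! Piece [a] of helper25's plan for S5029: the commutator map `b ↦ a b a⁻¹ b⁻¹` is onto `C`. -/

namespace Cfsg.Agent.Helper6.S5029a

variable {G : Type*} [Group G]

theorem comm_image (A B C : Subgroup G) (hmem : ∀ a ∈ A, ∀ b ∈ B, a * b * a⁻¹ * b⁻¹ ∈ C)
    (hcen : ∀ c ∈ C, ∀ x ∈ A ⊔ B, c * x = x * c) (a : G) (ha : a ∈ A)
    (hgen : Subgroup.closure ((fun b : G => a * b * a⁻¹ * b⁻¹) '' (B : Set G)) = C) :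
    ∀ c ∈ C, ∃ b ∈ B, a * b * a⁻¹ * b⁻¹ = c := by
  intro c hc
  rw [← hgen] at hc
  have hmul : ∀ b ∈ B, ∀ b' ∈ B, a * (b * b') * a⁻¹ * (b * b')⁻¹ =
      (a * b * a⁻¹ * b⁻¹) * (a * b' * a⁻¹ * b'⁻¹) := by
    intro b hb b' hb'
    have h1 := hcen _ (hmem a ha b' hb') b⁻¹ (Subgroup.mem_sup_right (B.inv_mem hb))
    calc a * (b * b') * a⁻¹ * (b * b')⁻¹
        = a * b * a⁻¹ * ((a * b' * a⁻¹ * b'⁻¹) * b⁻¹) := by group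
      _ = a * b * a⁻¹ * (b⁻¹ * (a * b' * a⁻¹ * b'⁻¹)) := by rw [h1]
      _ = (a * b * a⁻¹ * b⁻¹) * (a * b' * a⁻¹ * b'⁻¹) := by group
  refine Subgroup.closure_induction (p := fun c _ => ∃ b ∈ B, a * b * a⁻¹ * b⁻¹ = c)
    ?_ ?_ ?_ ?_ hc
  · rintro x ⟨b, hb, rfl⟩
    exact ⟨b, hb, rfl⟩
  · exact ⟨1, B.one_mem, by group⟩
  · rintro x y _ _ ⟨b, hb, rfl⟩ ⟨b', hb', rfl⟩
    exact ⟨b * b', B.mul_mem hb hb', hmul b hb b' hb'⟩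
  · rintro x _ ⟨b, hb, rfl⟩
    refine ⟨b⁻¹, B.inv_mem hb, ?_⟩
    have h := hmul b hb b⁻¹ (B.inv_mem hb)
    have h1 : a * (b * b⁻¹) * a⁻¹ * (b * b⁻¹)⁻¹ = 1 := by group
    rw [h1] at h
    exact eq_inv_of_mul_eq_one_right h.symm

end Cfsg.Agent.Helper6.S5029a
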