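import Mathlib
import Cfsg.Prelude.Def_LieRecognition
import Cfsg.Agent.Helper6.RankOne

set_option autoImplicit false

namespace Cfsg.Agent.Helper6
namespace RankOne

open MulAction

variable {G Ω : Type*} [Group G] [MulAction G Ω] {a : Ω} {t : G} {Q : Subgroup G}

/-- an involution has at most one fixed point -/
theorem fixed_unique (hS : Cfsg.IsRankOneSetup G Ω a t Q) [Finite G] {u : G} (hu1 : u ≠ 1)
    (hu2 : u * u = 1) {c d : Ω} (hc : u • c = c) (hd : u • d = d) : c = d := by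
  by_contra hne
  have := hS.two_transitive
  have : IsPretransitive G Ω := isPretransitive_of_is_two_pretransitive
  obtain ⟨g, hg⟩ := exists_smul_eq G c a
  have hs : g * u * g⁻¹ ∈ stabilizer G a := by
    rw [mem_stabilizer_iff, mul_smul, mul_smul, ← hg, inv_smul_smul, hc]
  have hs2 := conj_sq_one hu2 g
  have hsQ := sq_one_mem_Q hS hs hs2
  have hgd : g • d ≠ a := by
    intro h; apply hne; rw [← hg] at h; exact (smul_left_cancel g h).symm
  have hfix : (g * u * g⁻¹) • g • d = g • d := by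
    rw [mul_smul, mul_smul, inv_smul_smul, hd]
  have h1 := semireg hS hsQ hgd hfix
  apply hu1
  have : u = g⁻¹ * (g * u * g⁻¹) * g := by group
  rw [this, h1]; group

/-- canonical form of `t s t` for an involution `s` of `G_a` -/
theorem inv_canon (hS : Cfsg.IsRankOneSetup G Ω a t Q) {s : G} (hs : s ∈ stabilizer G a)
    (hs1 : s ≠ 1) (hs2 : s * s = 1) :
    ∃ g ∈ Q, ∃ h ∈ stabilizer G a ⊓ stabilizer G (t • a),
      t * s * t = g * h * t * g⁻¹ ∧ t * h * t = h⁻¹ := by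
  have ti := t_inv hS
  have tt := hS.mul_self
  have hsQ := sq_one_mem_Q hS hs hs2
  have hn : t * s * t ∉ stabilizer G a := by
    intro hm
    rw [mem_stabilizer_iff] at hm
    apply hs1
    apply semireg hS hsQ (ta_ne hS)
    calc s • t • a = t • ((t * s * t) • a) := by
          rw [mul_smul (t * s) t a, mul_smul t s (t • a), ← mul_smul t t, tt, one_smul]
      _ = t • a := by rw [hm]
  obtain ⟨h₀, hh₀, y, hy, e⟩ := exists_canon hS hn
  obtain ⟨g, hg, h, hh, rfl⟩ := mem_QD hS hh₀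
  have si : s⁻¹ = s := inv_eq_self hs2
  have e0 : t * s * t = (t * s * t)⁻¹ := by
    rw [mul_inv_rev, mul_inv_rev, ti, si, mul_assoc]
  have e2 : (g * h * t * y)⁻¹ = y⁻¹ * (t * h⁻¹ * t) * t * g⁻¹ := by
    calc (g * h * t * y)⁻¹ = y⁻¹ * t⁻¹ * h⁻¹ * g⁻¹ := by group
      _ = y⁻¹ * t * h⁻¹ * (t * t) * g⁻¹ := by rw [ti, tt, mul_one]
      _ = y⁻¹ * (t * h⁻¹ * t) * t * g⁻¹ := by group
  have e3 : g * h * t * y = y⁻¹ * (t * h⁻¹ * t) * t * g⁻¹ := by
    rw [← e2, ← e, ← e0]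
  obtain ⟨r1, r2, r3⟩ := canon_unique' hS hg (Q.inv_mem hy) hh
    (t_conj_mem hS (Subgroup.inv_mem _ hh)) hy (Q.inv_mem hg) e3
  refine ⟨g, hg, h, hh, by rw [e, r3], ?_⟩
  calc t * h * t = t * (t * h⁻¹ * t) * t := by rw [← r2]
    _ = (t * t) * h⁻¹ * (t * t) := by group
    _ = h⁻¹ := by rw [tt, one_mul, mul_one]

theorem inv_inj (hS : Cfsg.IsRankOneSetup G Ω a t Q) [Finite G] {s s' g g' h : G}
    (hs : s ∈ stabilizer G a) (hs' : s' ∈ stabilizer G a) (hg : g ∈ Q) (hg' : g' ∈ Q)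
    (hh : h ∈ stabilizer G a ⊓ stabilizer G (t • a)) (hht : t * h * t = h⁻¹)
    (e : t * s * t = g * h * t * g⁻¹) (e' : t * s' * t = g' * h * t * g'⁻¹) : s = s' := by
  have tt := hS.mul_self
  have hu2 : (h * t) * (h * t) = 1 := by
    calc h * t * (h * t) = h * (t * h * t) := by group
      _ = 1 := by rw [hht, mul_inv_cancel]
  have hu1 : h * t ≠ 1 := by
    intro h1
    apply hS.not_mem
    have : t = h⁻¹ := eq_inv_of_mul_eq_one_right h1
    rw [this]; exact Subgroup.inv_mem _ (D_le hS hh)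
  have key : ∀ {s g : G}, s ∈ stabilizer G a → t * s * t = g * h * t * g⁻¹ →
      (h * t) • g⁻¹ • t • a = g⁻¹ • t • a := by
    intro s g hs e
    have : (g * h * t * g⁻¹) • t • a = t • a := by
      rw [← e, mul_smul, mul_smul, t_ta hS, mem_stabilizer_iff.mp hs]
    calc (h * t) • g⁻¹ • t • a = g⁻¹ • ((g * h * t * g⁻¹) • t • a) := by
          rw [← mul_smul (h * t) g⁻¹ (t • a), ← mul_smul g⁻¹ (g * h * t * g⁻¹) (t • a)]
          congr 1; group
      _ = g⁻¹ • t • a := by rw [this]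
  have := fixed_unique hS hu1 hu2 (key hs e) (key hs' e')
  have hgg : g⁻¹ = g'⁻¹ := Q_map_unique hS (ta_ne hS) (Q.inv_mem hg) (Q.inv_mem hg') this
  have hgg' : g = g' := inv_injective hgg
  subst hgg'
  have : t * s * t = t * s' * t := e.trans e'.symm
  exact mul_left_cancel (mul_right_cancel this)

theorem inv_surj (hS : Cfsg.IsRankOneSetup G Ω a t Q) [Finite G] {k : G}
    (hk : k ∈ stabilizer G a ⊓ stabilizer G (t • a)) (hkt : t * k * t = k⁻¹) :
    ∃ s ∈ stabilizer G a, s ≠ 1 ∧ s * s = 1 ∧ ∃ g ∈ Q, t * s * t = g * k * t * g⁻¹ := by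
  have tt := hS.mul_self
  have ti := t_inv hS
  have hu2 : (k * t) * (k * t) = 1 := by
    calc k * t * (k * t) = k * (t * k * t) := by group
      _ = 1 := by rw [hkt, mul_inv_cancel]
  have hu1 : k * t ≠ 1 := by
    intro h1
    apply hS.not_mem
    have : t = k⁻¹ := eq_inv_of_mul_eq_one_right h1
    rw [this]; exact Subgroup.inv_mem _ (D_le hS hk)
  obtain ⟨c, hc⟩ := exists_fixed_of_sq_one hS hu2
  have hca : c ≠ a := by
    rintro rfl
    rw [mul_smul, mem_stabilizer_iff.mp (Subgroup.mem_inf.mp hk).2] at hc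
    exact ta_ne hS hc
  obtain ⟨g, hg, hgc⟩ := exists_Q_map hS hca (ta_ne hS)
  have hw : (g * k * t * g⁻¹) • t • a = t • a := by
    rw [← hgc]
    rw [mul_smul, inv_smul_smul, mul_assoc, mul_smul, hc]
  refine ⟨t * (g * k * t * g⁻¹) * t, ?_, ?_, ?_, g, hg, ?_⟩
  · rw [mem_stabilizer_iff, mul_smul, mul_smul, hw, t_ta hS]
  · intro h1
    apply hu1
    have : k * t = g⁻¹ * (t * (t * (g * k * t * g⁻¹) * t) * t) * g := by
      calc k * t = g⁻¹ * (1 * (g * k * t * g⁻¹) * 1) * g := by group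
        _ = g⁻¹ * ((t * t) * (g * k * t * g⁻¹) * (t * t)) * g := by rw [tt]
        _ = g⁻¹ * (t * (t * (g * k * t * g⁻¹) * t) * t) * g := by group
    rw [this, h1, mul_one, tt, mul_one, inv_mul_cancel]
  · have : t * (g * k * t * g⁻¹) * t = (t * g) * (k * t) * (t * g)⁻¹ := by
      rw [mul_inv_rev, ti]; group
    rw [this]; exact conj_sq_one hu2 _
  · calc t * (t * (g * k * t * g⁻¹) * t) * t = (t * t) * (g * k * t * g⁻¹) * (t * t) := by group
      _ = g * k * t * g⁻¹ := by rw [tt, one_mul, mul_one]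

theorem exists_twist (hS : Cfsg.IsRankOneSetup G Ω a t Q) [Finite G] {h h' : G}
    (hh : h ∈ stabilizer G a ⊓ stabilizer G (t • a))
    (hh' : h' ∈ stabilizer G a ⊓ stabilizer G (t • a)) (hht : t * h * t = h⁻¹)
    (hht' : t * h' * t = h'⁻¹) :
    ∃ c ∈ stabilizer G a ⊓ stabilizer G (t • a), t * c * t = c⁻¹ ∧ c * h * c = h' := by
  have tt := hS.mul_self
  have ti := t_inv hS
  have hodd : Odd (orderOf (h' * h)) :=
    hS.odd_card.of_dvd_nat (Subgroup.orderOf_dvd_natCard _ (Subgroup.mul_mem _ hh' hh))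
  obtain ⟨m, hm⟩ := hodd
  have hpow : (h' * h) ^ (m + 1) * (h' * h) ^ (m + 1) = h' * h := by
    rw [← pow_add, show m + 1 + (m + 1) = orderOf (h' * h) + 1 by omega, pow_succ,
      pow_orderOf_eq_one, one_mul]
  refine ⟨(h' * h) ^ (m + 1) * h⁻¹,
    Subgroup.mul_mem _ (Subgroup.pow_mem _ (Subgroup.mul_mem _ hh' hh) _) (Subgroup.inv_mem _ hh),
    ?_, ?_⟩
  · have e1 : t * (h' * h) * t = h'⁻¹ * h⁻¹ := by
      calc t * (h' * h) * t = t * h' * 1 * h * t := by group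
        _ = t * h' * (t * t) * h * t := by rw [tt]
        _ = (t * h' * t) * (t * h * t) := by group
        _ = h'⁻¹ * h⁻¹ := by rw [hht, hht']
    have e2 : t * (h' * h) ^ (m + 1) * t = (h'⁻¹ * h⁻¹) ^ (m + 1) := by
      have := conj_pow (a := t) (b := h' * h) (i := m + 1)
      rw [ti, e1] at this
      exact this.symm
    have e3 : t * h⁻¹ * t = h := by
      have : (t * h * t)⁻¹ = t * h⁻¹ * t := by rw [mul_inv_rev, mul_inv_rev, ti, mul_assoc]
      rw [← this, hht, inv_inv]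
    have e4 : (h⁻¹ * h'⁻¹) ^ (m + 1) = h⁻¹ * (h'⁻¹ * h⁻¹) ^ (m + 1) * h := by
      have := conj_pow (a := h⁻¹) (b := h'⁻¹ * h⁻¹) (i := m + 1)
      rw [inv_inv] at this
      rw [← this]; congr 1; group
    calc t * ((h' * h) ^ (m + 1) * h⁻¹) * t = t * (h' * h) ^ (m + 1) * 1 * h⁻¹ * t := by group
      _ = t * (h' * h) ^ (m + 1) * (t * t) * h⁻¹ * t := by rw [tt]
      _ = (t * (h' * h) ^ (m + 1) * t) * (t * h⁻¹ * t) := by group
      _ = (h'⁻¹ * h⁻¹) ^ (m + 1) * h := by rw [e2, e3]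
      _ = h * (h⁻¹ * (h'⁻¹ * h⁻¹) ^ (m + 1) * h) := by group
      _ = h * (h⁻¹ * h'⁻¹) ^ (m + 1) := by rw [e4]
      _ = ((h' * h) ^ (m + 1) * h⁻¹)⁻¹ := by rw [mul_inv_rev, inv_inv, ← inv_pow, mul_inv_rev]
  · calc (h' * h) ^ (m + 1) * h⁻¹ * h * ((h' * h) ^ (m + 1) * h⁻¹)
        = ((h' * h) ^ (m + 1) * (h' * h) ^ (m + 1)) * h⁻¹ := by group
      _ = h' := by rw [hpow]; group

theorem card_inverted_eq (hS : Cfsg.IsRankOneSetup G Ω a t Q) [Finite G] :
    Nat.card (Cfsg.invertedBy (stabilizer G a ⊓ stabilizer G (t • a)) t) =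
      Nat.card (Cfsg.involutionsIn (stabilizer G a : Set G)) := by
  have ti := t_inv hS
  have hA : ∀ s : Cfsg.involutionsIn (stabilizer G a : Set G),
      ∃ h : Cfsg.invertedBy (stabilizer G a ⊓ stabilizer G (t • a)) t,
        ∃ g ∈ Q, t * (s : G) * t = g * (h : G) * t * g⁻¹ := by
    rintro ⟨s, hs, hs1, hs2⟩
    obtain ⟨g, hg, h, hh, e, hht⟩ := inv_canon hS hs hs1 hs2
    exact ⟨⟨h, hh, by rw [ti]; exact hht⟩, g, hg, e⟩
  choose φ hφ using hA
  have hbij : Function.Bijective φ := by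
    constructor
    · intro s s' hss
      obtain ⟨g, hg, e⟩ := hφ s
      obtain ⟨g', hg', e'⟩ := hφ s'
      rw [hss] at e
      have hh := (φ s').2
      exact Subtype.ext (inv_inj hS s.2.1 s'.2.1 hg hg' hh.1
        (by have := hh.2; rwa [ti] at this) e e')
    · rintro ⟨k, hk, hkt⟩
      rw [ti] at hkt
      obtain ⟨s, hs, hs1, hs2, g, hg, e⟩ := inv_surj hS hk hkt
      refine ⟨⟨s, hs, hs1, hs2⟩, ?_⟩
      obtain ⟨g', hg', e'⟩ := hφ ⟨s, hs, hs1, hs2⟩
      have hh := (φ ⟨s, hs, hs1, hs2⟩).2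
      obtain ⟨_, r2, _⟩ := canon_unique' hS hg' hg hh.1 hk (Q.inv_mem hg') (Q.inv_mem hg)
        (e'.symm.trans e)
      exact Subtype.ext r2
  exact (Nat.card_congr (Equiv.ofBijective φ hbij)).symm

theorem inv_trans (hS : Cfsg.IsRankOneSetup G Ω a t Q) [Finite G] {s s' : G}
    (hs : s ∈ Cfsg.involutionsIn (stabilizer G a : Set G))
    (hs' : s' ∈ Cfsg.involutionsIn (stabilizer G a : Set G)) :
    ∃ k ∈ Cfsg.invertedBy (stabilizer G a ⊓ stabilizer G (t • a)) t, k⁻¹ * s * k = s' := by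
  have ti := t_inv hS
  have tt := hS.mul_self
  obtain ⟨hsa, hs1, hs2⟩ := hs
  obtain ⟨hsa', hs1', hs2'⟩ := hs'
  obtain ⟨g, hg, h, hh, e, hht⟩ := inv_canon hS hsa hs1 hs2
  obtain ⟨g', hg', h', hh', e', hht'⟩ := inv_canon hS hsa' hs1' hs2'
  obtain ⟨c, hc, hct, hchc⟩ := exists_twist hS hh hh' hht hht'
  refine ⟨c, ⟨hc, by rw [ti]; exact hct⟩, ?_⟩
  have hca := D_le hS hc
  have hmem : c⁻¹ * s * c ∈ stabilizer G a :=
    Subgroup.mul_mem _ (Subgroup.mul_mem _ (Subgroup.inv_mem _ hca) hsa) hca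
  have e1 : t * (c⁻¹ * s * c) * t = (c * g * c⁻¹) * h' * t * (c * g * c⁻¹)⁻¹ := by
    have hct' : t * c⁻¹ * t = c := by
      have : (t * c * t)⁻¹ = t * c⁻¹ * t := by rw [mul_inv_rev, mul_inv_rev, ti, mul_assoc]
      rw [← this, hct, inv_inv]
    have hct2 : t * c⁻¹ = c * t := by
      calc t * c⁻¹ = (t * c⁻¹ * t) * t⁻¹ := by group
        _ = c * t := by rw [hct', ti]
    calc t * (c⁻¹ * s * c) * t = t * c⁻¹ * 1 * s * 1 * c * t := by group
      _ = t * c⁻¹ * (t * t) * s * (t * t) * c * t := by rw [tt]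
      _ = (t * c⁻¹ * t) * (t * s * t) * (t * c * t) := by group
      _ = c * (g * h * t * g⁻¹) * c⁻¹ := by rw [hct', e, hct]
      _ = (c * g * c⁻¹) * (c * h) * (t * c⁻¹) * (c * g * c⁻¹)⁻¹ := by group
      _ = (c * g * c⁻¹) * (c * h) * (c * t) * (c * g * c⁻¹)⁻¹ := by rw [hct2]
      _ = (c * g * c⁻¹) * (c * h * c) * t * (c * g * c⁻¹)⁻¹ := by group
      _ = _ := by rw [hchc]
  exact inv_inj hS hmem hsa' (D_conj hS hc hg) hg' hh' hht' e1 e'

/-- the unique fixed point statement behind S1123 -/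
theorem exists_unique_pair (hS : Cfsg.IsRankOneSetup G Ω a t Q) [Finite G] :
    ∃! p : G × G, p.1 ∈ Cfsg.involutionsIn (stabilizer G a : Set G) ∧ p.2 ∈ Q ∧
      t * p.1 * t = p.2⁻¹ * t * p.2 := by
  have ti := t_inv hS
  have tt := hS.mul_self
  obtain ⟨c₀, hc₀⟩ := exists_fixed_of_sq_one hS tt
  have hc₀a : c₀ ≠ a := by
    rintro rfl; exact ta_ne hS hc₀
  obtain ⟨r, hr, hrc⟩ := exists_Q_map_ta hS hc₀a
  have hconj : t * (r⁻¹ * t * r) * t = (t * r⁻¹) * t * (t * r⁻¹)⁻¹ := by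
    rw [mul_inv_rev, inv_inv, ti]; group
  have hts : t * (t * (r⁻¹ * t * r) * t) * t = r⁻¹ * t * r := by
    calc t * (t * (r⁻¹ * t * r) * t) * t = (t * t) * (r⁻¹ * t * r) * (t * t) := by group
      _ = r⁻¹ * t * r := by rw [tt, one_mul, mul_one]
  refine ⟨(t * (r⁻¹ * t * r) * t, r), ⟨⟨?_, ?_, ?_⟩, hr, hts⟩, ?_⟩
  · show t * (r⁻¹ * t * r) * t ∈ stabilizer G a
    rw [mem_stabilizer_iff, mul_smul, mul_smul, mul_smul, mul_smul, hrc, hc₀, ← hrc,
      inv_smul_smul, t_ta hS]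
  · intro h1
    have h1' : t * (r⁻¹ * t * r) * t = 1 := h1
    apply hS.ne_one
    have : t = (t * r⁻¹)⁻¹ * (t * (r⁻¹ * t * r) * t) * (t * r⁻¹) := by rw [hconj]; group
    rw [this, h1']; group
  · show t * (r⁻¹ * t * r) * t * (t * (r⁻¹ * t * r) * t) = 1
    rw [hconj]; exact conj_sq_one tt _
  · rintro ⟨s', r'⟩ ⟨⟨hs', hs1', hs2'⟩, hr', e⟩
    have hs'a : s' • a = a := mem_stabilizer_iff.mp hs'
    have hfix : t • r' • t • a = r' • t • a := by
      have h1 : (r'⁻¹ * t * r') • t • a = t • a := by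
        show (r'⁻¹ * t * r') • t • a = t • a
        have : (t * s' * t) • t • a = t • a := by
          rw [mul_smul, mul_smul, t_ta hS, hs'a]
        rw [← e]; exact this
      calc t • r' • t • a = r' • ((r'⁻¹ * t * r') • t • a) := by
            rw [mul_smul, mul_smul, smul_inv_smul]
        _ = r' • t • a := by rw [h1]
    have hcc := fixed_unique hS hS.ne_one tt hfix hc₀
    have hrr : r' = r := Q_map_unique hS (ta_ne hS) hr' hr (hcc.trans hrc.symm)
    subst hrr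
    have e2 : t * s' * t = t * (t * (r'⁻¹ * t * r') * t) * t := by
      show t * s' * t = t * (t * (r'⁻¹ * t * r') * t) * t
      rw [hts]; exact e
    have : s' = t * (r'⁻¹ * t * r') * t := mul_left_cancel (mul_right_cancel e2)
    rw [this]

end RankOne
end Cfsg.Agent.Helper6
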