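import Mathlib
import Cfsg.Prelude.Def_LieRecognition
import Cfsg.Agent.Helper6.RankOne2

set_option autoImplicit false

namespace Cfsg.Agent.Helper6
namespace RankOne

open MulAction

variable {G Ω : Type*} [Group G] [MulAction G Ω] {a : Ω} {t : G} {Q : Subgroup G}

/-- if `X ⊆ G_a` fixes `q, r ≠ a` then the element of `Q` taking `q` to `r` centralizes `X` -/
theorem exists_Q_centralizer_map (hS : Cfsg.IsRankOneSetup G Ω a t Q) {X : Set G}
    (hXa : ∀ x ∈ X, x • a = a) {q r : Ω} (hq : ∀ x ∈ X, x • q = q) (hr : ∀ x ∈ X, x • r = r)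
    (hqa : q ≠ a) (hra : r ≠ a) : ∃ u ∈ Q, u ∈ Subgroup.centralizer X ∧ u • q = r := by
  obtain ⟨u, hu, huq⟩ := exists_Q_map hS hqa hra
  refine ⟨u, hu, ?_, huq⟩
  rw [Subgroup.mem_centralizer_iff]
  intro x hx
  have hxu : x * u * x⁻¹ ∈ Q := hS.conj_mem x (mem_stabilizer_iff.mpr (hXa x hx)) u hu
  have hxq : x⁻¹ • q = q := by rw [inv_smul_eq_iff, hq x hx]
  have : (x * u * x⁻¹) • q = u • q := by
    rw [mul_smul, mul_smul, hxq, huq, hr x hx]
  have e := Q_map_unique hS hqa hxu hu this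
  calc x * u = (x * u * x⁻¹) * x := by group
    _ = u * x := by rw [e]

/-- the centralizer of `X` acts transitively on the fixed points of `X` other than a given one -/
theorem exists_centralizer_map (hS : Cfsg.IsRankOneSetup G Ω a t Q) {X : Set G} {p q r : Ω}
    (hp : ∀ x ∈ X, x • p = p) (hq : ∀ x ∈ X, x • q = q) (hr : ∀ x ∈ X, x • r = r)
    (hqp : q ≠ p) (hrp : r ≠ p) : ∃ v ∈ Subgroup.centralizer X, v • p = p ∧ v • q = r := by
  have := hS.two_transitive
  have : IsPretransitive G Ω := isPretransitive_of_is_two_pretransitive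
  obtain ⟨g, hg⟩ := exists_smul_eq G p a
  have hgi : g⁻¹ • a = p := by rw [inv_smul_eq_iff, hg]
  obtain ⟨u, hu, huc, huq⟩ := exists_Q_centralizer_map hS (X := {y | g⁻¹ * y * g ∈ X})
    (q := g • q) (r := g • r)
    (by
      intro y hy
      have := hp _ hy
      rw [mul_smul, mul_smul, hg] at this
      calc y • a = g • g⁻¹ • y • a := (smul_inv_smul g _).symm
        _ = g • p := by rw [this]
        _ = a := hg)
    (by
      intro y hy
      have := hq _ hy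
      rw [mul_smul, mul_smul] at this
      calc y • g • q = g • g⁻¹ • y • g • q := (smul_inv_smul g _).symm
        _ = g • q := by rw [this])
    (by
      intro y hy
      have := hr _ hy
      rw [mul_smul, mul_smul] at this
      calc y • g • r = g • g⁻¹ • y • g • r := (smul_inv_smul g _).symm
        _ = g • r := by rw [this])
    (by rw [← hg]; exact fun h => hqp (smul_left_cancel g h))
    (by rw [← hg]; exact fun h => hrp (smul_left_cancel g h))
  refine ⟨g⁻¹ * u * g, ?_, ?_, ?_⟩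
  · rw [Subgroup.mem_centralizer_iff]
    intro x hx
    have hy : g * x * g⁻¹ ∈ {y | g⁻¹ * y * g ∈ X} := by
      show g⁻¹ * (g * x * g⁻¹) * g ∈ X
      have : g⁻¹ * (g * x * g⁻¹) * g = x := by group
      rw [this]; exact hx
    have e := (Subgroup.mem_centralizer_iff.mp huc) _ hy
    calc x * (g⁻¹ * u * g) = g⁻¹ * (g * x * g⁻¹ * u) * g := by group
      _ = g⁻¹ * (u * (g * x * g⁻¹)) * g := by rw [e]
      _ = g⁻¹ * u * g * x := by group
  · rw [mul_smul, mul_smul, hg, mem_stabilizer_iff.mp (hS.le hu), hgi]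
  · rw [mul_smul, mul_smul, huq, inv_smul_smul]

theorem exists_third {Ω : Type*} {b c d : Ω} (x y : Ω) (hbc : b ≠ c) (hbd : b ≠ d) (hcd : c ≠ d) :
    ∃ r, (r = b ∨ r = c ∨ r = d) ∧ r ≠ x ∧ r ≠ y := by
  by_cases h1 : b ≠ x ∧ b ≠ y
  · exact ⟨b, Or.inl rfl, h1.1, h1.2⟩
  by_cases h2 : c ≠ x ∧ c ≠ y
  · exact ⟨c, Or.inr (Or.inl rfl), h2.1, h2.2⟩
  refine ⟨d, Or.inr (Or.inr rfl), ?_, ?_⟩
  · rintro rfl
    grind
  · rintro rfl
    grind

theorem smul_fixed_of_mem_centralizer {X : Set G} {g : G} (hg : g ∈ Subgroup.centralizer X)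
    {c : Ω} (hc : ∀ x ∈ X, x • c = c) : ∀ x ∈ X, x • g • c = g • c := by
  intro x hx
  rw [← mul_smul, (Subgroup.mem_centralizer_iff.mp hg) x hx, mul_smul, hc x hx]

/-- the centralizer of `X` is doubly transitive on the fixed points of `X` (at least three) -/
theorem centralizer_two_trans (hS : Cfsg.IsRankOneSetup G Ω a t Q) {X : Set G}
    (h3 : ∃ b c d : Ω, b ≠ c ∧ b ≠ d ∧ c ≠ d ∧ ∀ x ∈ X, x • b = b ∧ x • c = c ∧ x • d = d)
    {b₁ b₂ c₁ c₂ : Ω} (hb₁ : ∀ x ∈ X, x • b₁ = b₁) (hb₂ : ∀ x ∈ X, x • b₂ = b₂)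
    (hc₁ : ∀ x ∈ X, x • c₁ = c₁) (hc₂ : ∀ x ∈ X, x • c₂ = c₂) (hb : b₁ ≠ b₂) (hc : c₁ ≠ c₂) :
    ∃ g ∈ Subgroup.centralizer X, g • b₁ = c₁ ∧ g • b₂ = c₂ := by
  obtain ⟨b, c, d, hbc, hbd, hcd, hfix⟩ := h3
  have step1 : ∃ g₁ ∈ Subgroup.centralizer X, g₁ • b₁ = c₁ := by
    by_cases hbc1 : b₁ = c₁
    · exact ⟨1, Subgroup.one_mem _, by rw [one_smul, hbc1]⟩
    · obtain ⟨r, hr, hr1, hr2⟩ := exists_third b₁ c₁ hbc hbd hcd
      have hrfix : ∀ x ∈ X, x • r = r := by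
        intro x hx
        rcases hr with rfl | rfl | rfl
        · exact (hfix x hx).1
        · exact (hfix x hx).2.1
        · exact (hfix x hx).2.2
      obtain ⟨v, hv, _, hvb⟩ := exists_centralizer_map hS hrfix hb₁ hc₁ (Ne.symm hr1) (Ne.symm hr2)
      exact ⟨v, hv, hvb⟩
  obtain ⟨g₁, hg₁, hg₁b⟩ := step1
  have hne : g₁ • b₂ ≠ c₁ := by
    rw [← hg₁b]; exact fun h => hb (smul_left_cancel g₁ h).symm
  obtain ⟨v, hv, hvc, hvb⟩ := exists_centralizer_map hS hc₁
    (smul_fixed_of_mem_centralizer hg₁ hb₂) hc₂ hne (Ne.symm hc)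
  exact ⟨v * g₁, Subgroup.mul_mem _ hv hg₁, by rw [mul_smul, hg₁b, hvc], by rw [mul_smul, hvb]⟩

theorem D_fix (_hS : Cfsg.IsRankOneSetup G Ω a t Q) {X : Set G}
    (hX : X ⊆ ((stabilizer G a ⊓ stabilizer G (t • a) : Subgroup G) : Set G)) :
    (∀ x ∈ X, x • a = a) ∧ (∀ x ∈ X, x • t • a = t • a) :=
  ⟨fun x hx => mem_stabilizer_iff.mp (Subgroup.mem_inf.mp (hX hx)).1,
    fun x hx => mem_stabilizer_iff.mp (Subgroup.mem_inf.mp (hX hx)).2⟩

/-- an involution centralizing `X` and interchanging `a` and `t • a` -/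
theorem exists_centralizer_swap (hS : Cfsg.IsRankOneSetup G Ω a t Q) [Finite G] {X : Set G}
    (hX : X ⊆ ((stabilizer G a ⊓ stabilizer G (t • a) : Subgroup G) : Set G))
    (h3 : ∃ b c d : Ω, b ≠ c ∧ b ≠ d ∧ c ≠ d ∧ ∀ x ∈ X, x • b = b ∧ x • c = c ∧ x • d = d) :
    ∃ u ∈ Subgroup.centralizer X, u * u = 1 ∧ u • a = t • a := by
  obtain ⟨hXa, hXb⟩ := D_fix hS hX
  obtain ⟨g, hg, hga, hgb⟩ := centralizer_two_trans hS h3 hXa hXb hXb hXa (ta_ne hS).symm (ta_ne hS)
  obtain ⟨k, m, hm, hkm⟩ := Nat.exists_eq_two_pow_mul_odd (orderOf_pos g).ne'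
  have hgg : (g * g) • a = a := by rw [mul_smul, hga, hgb]
  have hggb : (g * g) • t • a = t • a := by rw [mul_smul, hgb, hga]
  have hpowa : ∀ j : ℕ, (g * g) ^ j • a = a := by
    intro j
    induction j with
    | zero => simp
    | succ j ih => rw [pow_succ, mul_smul, hgg, ih]
  have hpowb : ∀ j : ℕ, (g * g) ^ j • t • a = t • a := by
    intro j
    induction j with
    | zero => simp
    | succ j ih => rw [pow_succ, mul_smul, hggb, ih]
  obtain ⟨j, hj⟩ := hm
  have hgm : g ^ m = (g * g) ^ j * g := by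
    rw [hj, pow_succ, pow_mul, pow_two]
  have h1 : g ^ m • a = t • a := by rw [hgm, mul_smul, hga, hpowb]
  have h2 : g ^ m • t • a = a := by rw [hgm, mul_smul, hgb, hpowa]
  have hD : g ^ m * g ^ m ∈ stabilizer G a ⊓ stabilizer G (t • a) := by
    refine Subgroup.mem_inf.mpr ⟨?_, ?_⟩
    · rw [mem_stabilizer_iff, mul_smul, h1, h2]
    · rw [mem_stabilizer_iff, mul_smul, h2, h1]
  have hord : (g ^ m * g ^ m) ^ 2 ^ k = 1 := by
    have : (g ^ m * g ^ m) ^ 2 ^ k = (g ^ orderOf g) ^ 2 := by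
      rw [← pow_two, ← pow_mul, ← pow_mul, ← pow_mul, hkm]; congr 1; ring
    rw [this, pow_orderOf_eq_one, one_pow]
  have hd1 : orderOf (g ^ m * g ^ m) ∣ 2 ^ k := orderOf_dvd_of_pow_eq_one hord
  have hd2 : orderOf (g ^ m * g ^ m) ∣ Nat.card ↥(stabilizer G a ⊓ stabilizer G (t • a)) :=
    Subgroup.orderOf_dvd_natCard _ hD
  have hcop : Nat.Coprime (2 ^ k) (Nat.card ↥(stabilizer G a ⊓ stabilizer G (t • a))) :=
    Nat.Coprime.pow_left k (Nat.coprime_two_left.mpr hS.odd_card)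
  have hone : orderOf (g ^ m * g ^ m) = 1 :=
    Nat.dvd_one.mp (by rw [← hcop.gcd_eq_one]; exact Nat.dvd_gcd hd1 hd2)
  exact ⟨g ^ m, Subgroup.pow_mem _ hg _, orderOf_eq_one_iff.mp hone, h1⟩

/-- an involution of `Q` centralizing `X` -/
theorem exists_centralizer_Q_inv (hS : Cfsg.IsRankOneSetup G Ω a t Q) [Finite G] {X : Set G}
    (hX : X ⊆ ((stabilizer G a ⊓ stabilizer G (t • a) : Subgroup G) : Set G))
    (h3 : ∃ b c d : Ω, b ≠ c ∧ b ≠ d ∧ c ≠ d ∧ ∀ x ∈ X, x • b = b ∧ x • c = c ∧ x • d = d) :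
    ∃ s ∈ Subgroup.centralizer X ⊓ Q, s ≠ 1 ∧ s * s = 1 := by
  obtain ⟨hXa, hXb⟩ := D_fix hS hX
  obtain ⟨u, hu, hu2, hua⟩ := exists_centralizer_swap hS hX h3
  have hu1 : u ≠ 1 := by
    rintro rfl
    rw [one_smul] at hua
    exact ta_ne hS hua.symm
  obtain ⟨c, hc⟩ := exists_fixed_of_sq_one hS hu2
  have hcX : ∀ x ∈ X, x • c = c := by
    intro x hx
    have hux : u • x • c = x • c := by
      rw [← mul_smul, ← (Subgroup.mem_centralizer_iff.mp hu) x hx, mul_smul, hc]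
    exact fixed_unique hS hu1 hu2 hux hc
  have hca : c ≠ a := by
    rintro rfl
    rw [hua] at hc
    exact ta_ne hS hc
  obtain ⟨v, hv, hvc, _⟩ := centralizer_two_trans hS h3 hcX hXa hXa hcX hca (Ne.symm hca)
  have hs2 := conj_sq_one hu2 v
  have hsa : v * u * v⁻¹ ∈ stabilizer G a := by
    rw [mem_stabilizer_iff, mul_smul, mul_smul, ← hvc, inv_smul_smul, hc]
  refine ⟨v * u * v⁻¹, Subgroup.mem_inf.mpr ⟨Subgroup.mul_mem _ (Subgroup.mul_mem _ hv hu)
    (Subgroup.inv_mem _ hv), sq_one_mem_Q hS hsa hs2⟩, ?_, hs2⟩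
  intro h1
  apply hu1
  have : u = v⁻¹ * (v * u * v⁻¹) * v := by group
  rw [this, h1]; group

/-- for an involution `u` interchanging `a` and `t • a` there is `k ∈ D` with `k⁻¹ t k = u` -/
theorem swap_conj (hS : Cfsg.IsRankOneSetup G Ω a t Q) [Finite G] {u : G} (hu2 : u * u = 1)
    (hua : u • a = t • a) :
    t * u ∈ stabilizer G a ⊓ stabilizer G (t • a) ∧ t * (t * u) * t = (t * u)⁻¹ ∧
    ∃ k ∈ stabilizer G a ⊓ stabilizer G (t • a), k * u = t * k := by
  have tt := hS.mul_self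
  have ti := t_inv hS
  have hub : u • t • a = a := by rw [← hua, ← mul_smul, hu2, one_smul]
  have hd : t * u ∈ stabilizer G a ⊓ stabilizer G (t • a) := by
    refine Subgroup.mem_inf.mpr ⟨?_, ?_⟩
    · rw [mem_stabilizer_iff, mul_smul, hua, t_ta hS]
    · rw [mem_stabilizer_iff, mul_smul, hub]
  have hdt : t * (t * u) * t = (t * u)⁻¹ := by
    rw [mul_inv_rev, ti, inv_eq_self hu2, ← mul_assoc, tt, one_mul]
  refine ⟨hd, hdt, ?_⟩
  have hodd : Odd (orderOf (t * u)) := hS.odd_card.of_dvd_nat (Subgroup.orderOf_dvd_natCard _ hd)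
  obtain ⟨m, hm⟩ := hodd
  have hpow : (t * u) ^ (m + 1) * (t * u) ^ (m + 1) = t * u := by
    rw [← pow_add, show m + 1 + (m + 1) = orderOf (t * u) + 1 by omega, pow_succ,
      pow_orderOf_eq_one, one_mul]
  have hkt : t * (t * u) ^ (m + 1) * t = ((t * u) ^ (m + 1))⁻¹ := by
    have := conj_pow (a := t) (b := t * u) (i := m + 1)
    rw [ti, hdt, inv_pow] at this
    exact this.symm
  refine ⟨(t * u) ^ (m + 1), Subgroup.pow_mem _ hd _, ?_⟩
  have e1 : u = t * ((t * u) ^ (m + 1) * (t * u) ^ (m + 1)) := by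
    rw [hpow, ← mul_assoc, tt, one_mul]
  calc (t * u) ^ (m + 1) * u = (t * u) ^ (m + 1) * (t * ((t * u) ^ (m + 1) * (t * u) ^ (m + 1))) := by
        rw [← e1]
    _ = (t * u) ^ (m + 1) * (t * (t * u) ^ (m + 1) * t) * (t * (t * u) ^ (m + 1)) := by
        have : t * ((t * u) ^ (m + 1) * (t * u) ^ (m + 1)) =
            (t * (t * u) ^ (m + 1) * t) * (t * (t * u) ^ (m + 1)) := by
          calc t * ((t * u) ^ (m + 1) * (t * u) ^ (m + 1))
              = t * (t * u) ^ (m + 1) * 1 * (t * u) ^ (m + 1) := by group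
            _ = t * (t * u) ^ (m + 1) * (t * t) * (t * u) ^ (m + 1) := by rw [tt]
            _ = _ := by group
        rw [this]; simp only [mul_assoc]
    _ = t * (t * u) ^ (m + 1) := by rw [hkt]; group

/-- an element of odd order conjugate to its inverse by an element of odd order is trivial -/
theorem eq_one_of_conj_inv_of_odd {G : Type*} [Group G] {d x : G} (hd : Odd (orderOf d))
    (hx : Odd (orderOf x)) (h : d * x * d⁻¹ = x⁻¹) : x = 1 := by
  obtain ⟨m, hm⟩ := hd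
  have hcomm : Commute (d * d) x := by
    have : d * d * x * (d * d)⁻¹ = x := by
      calc d * d * x * (d * d)⁻¹ = d * (d * x * d⁻¹) * d⁻¹ := by group
        _ = d * x⁻¹ * d⁻¹ := by rw [h]
        _ = (d * x * d⁻¹)⁻¹ := by group
        _ = x := by rw [h, inv_inv]
    show d * d * x = x * (d * d)
    calc d * d * x = (d * d * x * (d * d)⁻¹) * (d * d) := by group
      _ = x * (d * d) := by rw [this]
  have hpow : (d * d) ^ m * d = 1 := by
    rw [← pow_two, ← pow_mul, ← pow_succ, ← hm, pow_orderOf_eq_one]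
  have hdinv : d = ((d * d) ^ m)⁻¹ := eq_inv_of_mul_eq_one_right hpow
  have hcm : Commute (((d * d) ^ m)⁻¹) x := (hcomm.pow_left m).inv_left
  rw [← hdinv] at hcm
  have hxx : x⁻¹ = x := by
    rw [← h]
    calc d * x * d⁻¹ = (x * d) * d⁻¹ := by rw [hcm.eq]
      _ = x := by group
  have hx2 : x * x = 1 := by
    calc x * x = x⁻¹ * x := by rw [hxx]
      _ = 1 := inv_mul_cancel x
  have h2 : orderOf x ∣ 2 := orderOf_dvd_of_pow_eq_one (by rw [pow_two, hx2])
  obtain ⟨j, hj⟩ := hx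
  rcases (Nat.dvd_prime Nat.prime_two).mp h2 with h1 | h1
  · exact orderOf_eq_one_iff.mp h1
  · omega

/-- the canonical form of `t (c⁻¹ x c) t` from that of `t x t` -/
theorem conj_canon (hS : Cfsg.IsRankOneSetup G Ω a t Q) {x g h f : G} (c : G)
    (heq : t * x * t = g * h * t * f) :
    t * (c⁻¹ * x * c) * t = ((t * c * t)⁻¹ * g * (t * c * t)) * ((t * c * t)⁻¹ * h * c) * t *
      ((t * c * t)⁻¹ * f * (t * c * t)) := by
  have ti := t_inv hS
  have tt := hS.mul_self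
  have hAe : c * t = t * (t * c * t) := by rw [← mul_assoc, ← mul_assoc, tt, one_mul]
  have hi : (t * c * t)⁻¹ = t * c⁻¹ * t := by rw [mul_inv_rev, mul_inv_rev, ti, mul_assoc]
  calc t * (c⁻¹ * x * c) * t = t * c⁻¹ * 1 * x * 1 * c * t := by group
    _ = t * c⁻¹ * (t * t) * x * (t * t) * c * t := by rw [tt]
    _ = (t * c⁻¹ * t) * (t * x * t) * (t * c * t) := by group
    _ = (t * c * t)⁻¹ * (g * h * t * f) * (t * c * t) := by rw [heq, hi]
    _ = (t * c * t)⁻¹ * g * h * (t * (t * c * t)) * (t * c * t)⁻¹ * f * (t * c * t) := by group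
    _ = (t * c * t)⁻¹ * g * h * (c * t) * (t * c * t)⁻¹ * f * (t * c * t) := by rw [← hAe]
    _ = _ := by group

end RankOne
end Cfsg.Agent.Helper6
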