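import Mathlib
import Cfsg.Agent.Helper24.CharDecomp

/-!
# The exponent of the Schur multiplier: `exp(M(Q)) ^ 2 ∣ |Q|`

For a finite central extension with kernel `A` inside the commutator subgroup, every irreducible
character lying over a linear character `λ` of `A` has degree divisible by the order of `λ`
(determinants), and the squares of these degrees sum to the index of `A`.
-/

set_option autoImplicit false

namespace Cfsg.Agent.Helper6.SchurExp

open Cfsg Cfsg.Agent.Helper24 Representation Module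

universe u v

variable {Γ : Type u} [Group Γ]

theorem scal_inj {n : ℕ} (hn : 0 < n) {c c' : ℂ}
    (h : c • (LinearMap.id : (Fin n → ℂ) →ₗ[ℂ] (Fin n → ℂ)) = c' • LinearMap.id) : c = c' := by
  have h1 := congrArg (fun T : (Fin n → ℂ) →ₗ[ℂ] (Fin n → ℂ) => T (fun _ => 1) ⟨0, hn⟩) h
  simpa using h1

/-- the central character of an irreducible character -/
theorem irr_cent (χ : IrrCharacter Γ) :
    ∃ (n : ℕ) (ω : Γ → ℂ), 0 < n ∧ (χ : Γ → ℂ) 1 = n ∧ ω 1 = 1 ∧
      (∀ z z' : Γ, z ∈ Subgroup.center Γ → z' ∈ Subgroup.center Γ → ω (z * z') = ω z * ω z') ∧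
      (∀ z : Γ, z ∈ Subgroup.center Γ → (χ : Γ → ℂ) z = n * ω z) ∧
      (∀ z : Γ, z ∈ Subgroup.center Γ → z ∈ commutator Γ → ω z ^ n = 1) := by
  obtain ⟨n, τ, hτ, hξ⟩ := χ.2
  haveI := hτ
  have hfr : finrank ℂ (Fin n → ℂ) = n := Module.finrank_fin_fun ℂ
  have hn : 0 < n := by
    have h := finrank_pos_of_irreducible τ
    rwa [hfr] at h
  obtain ⟨ω, hωdef⟩ : ∃ ω : Γ → ℂ, ∀ z, ω z =
      LinearMap.trace ℂ (Fin n → ℂ) (τ z) / (finrank ℂ (Fin n → ℂ) : ℂ) :=
    ⟨_, fun _ => rfl⟩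
  have hid : ∀ z, z ∈ Subgroup.center Γ → τ z = ω z • LinearMap.id := by
    intro z hz
    rw [hωdef]
    refine eq_smul_of_comm_of_irreducible τ (τ z) (fun g => ?_)
    show τ z * τ g = τ g * τ z
    rw [← map_mul, ← map_mul, Subgroup.mem_center_iff.mp hz g]
  have hmul : ∀ z z' : Γ, z ∈ Subgroup.center Γ → z' ∈ Subgroup.center Γ →
      ω (z * z') = ω z * ω z' := by
    intro z z' hz hz'
    apply scal_inj hn
    rw [← hid _ (Subgroup.mul_mem _ hz hz'), map_mul, hid z hz, hid z' hz']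
    exact LinearMap.ext fun x => by simp [Module.End.mul_apply, smul_smul, mul_comm]
  have hone : ω 1 = 1 := by
    apply scal_inj hn
    rw [← hid 1 (Subgroup.one_mem _), map_one, one_smul]
    rfl
  refine ⟨n, ω, hn, ?_, hone, hmul, ?_, ?_⟩
  · rw [← hξ]; exact char_one_fin τ
  · intro z hz
    rw [← hξ]
    show LinearMap.trace ℂ (Fin n → ℂ) (τ z) = n * ω z
    rw [hid z hz, map_smul, smul_eq_mul, LinearMap.trace_id, hfr]; ring
  · intro z hz hzc
    have hker : z ∈ ((LinearMap.det : ((Fin n → ℂ) →ₗ[ℂ] (Fin n → ℂ)) →* ℂ).comp τ).toHomUnits.ker :=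
      Abelianization.commutator_subset_ker _ hzc
    have hdet : LinearMap.det (τ z) = 1 := by
      have h1 := congrArg Units.val (MonoidHom.mem_ker.mp hker)
      simpa using h1
    rw [hid z hz, LinearMap.det_smul, hfr, LinearMap.det_id, mul_one] at hdet
    exact hdet

variable {A : Type v} [CommGroup A]

/-- the irreducible characters over a fixed linear character of the central subgroup -/
theorem sum_over [Finite Γ] [Finite A] (ι : A →* Γ) (hι : Function.Injective ι)
    (hc : ∀ a, ι a ∈ Subgroup.center Γ) (hd : ∀ a, ι a ∈ commutator Γ) (lam : A →* ℂˣ) :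
    ∃ (n : IrrCharacter Γ → ℕ) (P : IrrCharacter Γ → Prop) (_ : DecidablePred P),
      (∑ χ : IrrCharacter Γ, if P χ then n χ ^ 2 else 0) * Nat.card A = Nat.card Γ ∧
      ∀ χ, P χ → ∀ a : A, ((lam a : ℂˣ) : ℂ) ^ n χ = 1 := by
  classical
  letI : Fintype Γ := Fintype.ofFinite Γ
  letI : Fintype A := Fintype.ofFinite A
  choose n ω hn h1 hone hmul hval hdet using (irr_cent (Γ := Γ))
  refine ⟨n, fun χ => ∀ a : A, ω χ (ι a) = ((lam a : ℂˣ) : ℂ), inferInstance, ?_, ?_⟩
  swap
  · intro χ hP a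
    rw [← hP a]
    exact hdet χ _ (hc a) (hd a)
  obtain ⟨μ, hμ⟩ : ∃ μ : IrrCharacter Γ → (A →* ℂ),
      ∀ χ a, μ χ a = ((lam a : ℂˣ) : ℂ)⁻¹ * ω χ (ι a) :=
    ⟨fun χ =>
      { toFun := fun a => ((lam a : ℂˣ) : ℂ)⁻¹ * ω χ (ι a)
        map_one' := by simp [hone]
        map_mul' := fun a a' => by
          simp only [map_mul, Units.val_mul, mul_inv]
          rw [hmul χ _ _ (hc a) (hc a')]
          ring }, fun _ _ => rfl⟩
  have hsumz : ∀ χ, ∑ a : A, μ χ a =
      if (∀ a : A, ω χ (ι a) = ((lam a : ℂˣ) : ℂ)) then (Nat.card A : ℂ) else 0 := by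
    intro χ
    split_ifs with hP
    · have h1' : ∀ a : A, μ χ a = 1 := by
        intro a
        rw [hμ, hP a]
        exact inv_mul_cancel₀ (Units.ne_zero _)
      simp [h1', Nat.card_eq_fintype_card]
    · apply sum_hom_units_eq_zero
      intro h
      apply hP
      intro a
      have h2 : μ χ a = 1 := by rw [h]; rfl
      rw [hμ] at h2
      have h3 : ω χ (ι a) = ((lam a : ℂˣ) : ℂ) * (((lam a : ℂˣ) : ℂ)⁻¹ * ω χ (ι a)) := by
        rw [← mul_assoc, mul_inv_cancel₀ (Units.ne_zero _), one_mul]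
      rw [h3, h2, mul_one]
  have hdouble : ∑ χ : IrrCharacter Γ, (n χ : ℂ) ^ 2 * ∑ a : A, μ χ a = (Nat.card Γ : ℂ) := by
    have e1 : ∀ χ : IrrCharacter Γ, (n χ : ℂ) ^ 2 * ∑ a : A, μ χ a =
        ∑ a : A, ((lam a : ℂˣ) : ℂ)⁻¹ * ((χ : Γ → ℂ) 1 * (χ : Γ → ℂ) (ι a)) := by
      intro χ
      rw [Finset.mul_sum]
      refine Finset.sum_congr rfl fun a _ => ?_
      rw [hμ, h1 χ, hval χ _ (hc a)]
      ring
    rw [Finset.sum_congr rfl fun χ _ => e1 χ, Finset.sum_comm]
    have e2 : ∀ a : A, ∑ χ : IrrCharacter Γ,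
        ((lam a : ℂˣ) : ℂ)⁻¹ * ((χ : Γ → ℂ) 1 * (χ : Γ → ℂ) (ι a)) =
        if a = 1 then (Nat.card Γ : ℂ) else 0 := by
      intro a
      rw [← Finset.mul_sum, sum_irr_one_mul]
      by_cases ha : a = 1
      · subst ha
        simp
      · rw [if_neg ha, if_neg (show ¬ ι a = 1 from fun h => ha ((map_eq_one_iff ι hι).mp h)),
          mul_zero]
    rw [Finset.sum_congr rfl fun a _ => e2 a]
    simp
  have key : ((∑ χ : IrrCharacter Γ,
      if (∀ a : A, ω χ (ι a) = ((lam a : ℂˣ) : ℂ)) then n χ ^ 2 else 0 : ℕ) : ℂ) *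
        (Nat.card A : ℂ) = (Nat.card Γ : ℂ) := by
    rw [← hdouble, Nat.cast_sum, Finset.sum_mul]
    refine Finset.sum_congr rfl fun χ _ => ?_
    rw [hsumz]
    split_ifs <;> simp
  exact_mod_cast key

/-- **Schur**: the square of the exponent of a central subgroup inside the commutator subgroup
divides its index -/
theorem exp_sq_dvd [Finite Γ] [Finite A] (ι : A →* Γ) (hι : Function.Injective ι)
    (hc : ∀ a, ι a ∈ Subgroup.center Γ) (hd : ∀ a, ι a ∈ commutator Γ) (N : ℕ)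
    (hN : N * Nat.card A = Nat.card Γ) : Monoid.exponent A ^ 2 ∣ N := by
  classical
  have hA0 : 0 < Nat.card A := Nat.card_pos
  have hN0 : N ≠ 0 := by
    rintro rfl
    rw [zero_mul] at hN
    exact (Nat.card_pos (α := Γ)).ne' hN.symm
  have he0 : Monoid.exponent A ≠ 0 := Monoid.exponent_ne_zero_of_finite
  have hpp : ∀ p k : ℕ, p.Prime → 1 ≤ k → p ^ k ∣ Monoid.exponent A → (p ^ k) ^ 2 ∣ N := by
    intro p k hp hk hdvd
    obtain ⟨g₀, hg₀⟩ := Monoid.exists_orderOf_eq_exponent (G := A)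
      (Monoid.ExponentExists.of_finite)
    obtain ⟨e', he'⟩ := hdvd
    have he'0 : e' ≠ 0 := by
      rintro rfl
      rw [mul_zero] at he'
      exact he0 he'
    have ho : orderOf (g₀ ^ e') = p ^ k := by
      rw [orderOf_pow_of_dvd he'0 (by rw [hg₀, he']; exact Dvd.intro_left _ rfl), hg₀, he']
      exact Nat.mul_div_cancel _ (Nat.pos_of_ne_zero he'0)
    obtain ⟨z₀, hz₀⟩ : ∃ z₀ : A, z₀ = g₀ ^ e' := ⟨_, rfl⟩
    rw [← hz₀] at ho
    have hz1 : z₀ ^ p ^ (k - 1) ≠ 1 := by
      intro h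
      have h2 := orderOf_dvd_of_pow_eq_one h
      rw [ho] at h2
      have h3 := Nat.le_of_dvd (pow_pos hp.pos _) h2
      have h4 : p ^ (k - 1) < p ^ k := Nat.pow_lt_pow_right hp.one_lt (by omega)
      omega
    haveI : NeZero (Monoid.exponent A) := ⟨he0⟩
    obtain ⟨lam, hlam⟩ := CommGroup.exists_apply_ne_one_of_hasEnoughRootsOfUnity A ℂ hz1
    obtain ⟨n, P, _, hsum, hpow⟩ := sum_over ι hι hc hd lam
    have hord : orderOf (lam z₀) = p ^ k := by
      have h1 : orderOf (lam z₀) ∣ p ^ k := by rw [← ho]; exact orderOf_map_dvd lam z₀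
      obtain ⟨b, hb, hb'⟩ := (Nat.dvd_prime_pow hp).mp h1
      by_contra hne
      have hbk : b ≤ k - 1 := by
        by_contra hcon
        apply hne
        rw [hb']
        congr 1
        omega
      apply hlam
      rw [map_pow]
      have h5 : orderOf (lam z₀) ∣ p ^ (k - 1) := by rw [hb']; exact pow_dvd_pow p hbk
      exact orderOf_dvd_iff_pow_eq_one.mp h5
    have hdvdsum : (p ^ k) ^ 2 ∣ ∑ χ : IrrCharacter Γ, if P χ then n χ ^ 2 else 0 := by
      apply Finset.dvd_sum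
      intro χ _
      split_ifs with hP
      · apply pow_dvd_pow_of_dvd
        rw [← hord]
        apply orderOf_dvd_of_pow_eq_one
        apply Units.ext
        rw [Units.val_pow_eq_pow_val, Units.val_one]
        exact hpow χ hP z₀
      · exact dvd_zero _
    have hNeq : N = ∑ χ : IrrCharacter Γ, if P χ then n χ ^ 2 else 0 := by
      apply Nat.eq_of_mul_eq_mul_right hA0
      rw [hN, hsum]
    rw [hNeq]; exact hdvdsum
  refine (Nat.factorization_prime_le_iff_dvd (pow_ne_zero 2 he0) hN0).mp fun p hp => ?_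
  rw [Nat.factorization_pow, Finsupp.smul_apply, smul_eq_mul]
  by_cases hk : (Monoid.exponent A).factorization p = 0
  · rw [hk]; exact Nat.zero_le _
  · have h := hpp p _ hp (Nat.one_le_iff_ne_zero.mpr hk) (Nat.ordProj_dvd _ p)
    rw [← pow_mul] at h
    have h2 := (hp.pow_dvd_iff_le_factorization hN0).mp h
    omega

end Cfsg.Agent.Helper6.SchurExp
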