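import Mathlib
import Cfsg.Agent.Helper26.Zass

set_option autoImplicit false

namespace Cfsg.Agent.Helper6.Sharp3

open Cfsg.Agent.Helper26

/-- the standing hypotheses: three distinct points, odd degree, 3-transitive, sharp -/
structure Hyp (G : Type*) [Group G] (Ω : Type*) [MulAction G Ω] (o z e : Ω) : Prop where
  oz : o ≠ z
  oe : o ≠ e
  ze : z ≠ e
  odd : Odd (Nat.card Ω)
  t3 : ∀ a b c a' b' c' : Ω, a ≠ b → a ≠ c → b ≠ c → a' ≠ b' → a' ≠ c' → b' ≠ c' →
    ∃ g : G, g • a = a' ∧ g • b = b' ∧ g • c = c'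
  s3 : ∀ g : G, ∀ a b c : Ω, a ≠ b → b ≠ c → a ≠ c → g • a = a → g • b = b → g • c = c → g = 1

section
variable {G : Type*} [Group G] {Ω : Type*} [MulAction G Ω] {o z e : Ω}

theorem sq_smul {t : G} (ht : t * t = 1) (x : Ω) : t • t • x = x := by
  rw [← mul_smul, ht, one_smul]

theorem inv_of_sq {t : G} (ht : t * t = 1) : t⁻¹ = t := inv_eq_of_mul_eq_one_left ht

theorem smul_canc {g : G} {x y : Ω} (h : g • x = g • y) : x = y := MulAction.injective g h

variable [Finite Ω]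

theorem Hyp.fix1 (hyp : Hyp G Ω o z e) {t : G} (ht : t * t = 1) (ht1 : t ≠ 1) {x y : Ω}
    (hx : t • x = x) (hy : t • y = y) : x = y := by
  obtain ⟨w, -, hw⟩ := Zass.fix_unique hyp.s3 hyp.odd t ht ht1
  rw [hw x hx, hw y hy]

theorem Hyp.fixex (hyp : Hyp G Ω o z e) {t : G} (ht : t * t = 1) (ht1 : t ≠ 1) :
    ∃ x : Ω, t • x = x := by
  obtain ⟨w, hw, -⟩ := Zass.fix_unique hyp.s3 hyp.odd t ht ht1
  exact ⟨w, hw⟩

/-- an involution fixing `o` fixes nothing else -/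
theorem Hyp.K_fpf (hyp : Hyp G Ω o z e) {g : G} (hg : g • o = o ∧ g * g = 1) (hg1 : g ≠ 1)
    {x : Ω} (hx : g • x = x) : x = o :=
  hyp.fix1 hg.2 hg1 hx hg.1

theorem Hyp.K_ex (hyp : Hyp G Ω o z e) (x y : Ω) (hx : x ≠ o) (hy : y ≠ o) :
    ∃ g : G, (g • o = o ∧ g * g = 1) ∧ g • x = y := by
  by_cases hxy : x = y
  · exact ⟨1, ⟨one_smul _ _, mul_one 1⟩, by rw [one_smul, hxy]⟩
  · obtain ⟨g, h1, h2, h3⟩ := hyp.t3 o x y o y x (Ne.symm hx) (Ne.symm hy) hxy (Ne.symm hy)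
      (Ne.symm hx) (Ne.symm hxy)
    refine ⟨g, ⟨h1, ?_⟩, h2⟩
    apply hyp.s3 (g * g) o x y (Ne.symm hx) hxy (Ne.symm hy)
    · rw [mul_smul, h1, h1]
    · rw [mul_smul, h2, h3]
    · rw [mul_smul, h3, h2]

theorem Hyp.K_uniq (hyp : Hyp G Ω o z e) {g g' : G} (hg : g • o = o ∧ g * g = 1)
    (hg' : g' • o = o ∧ g' * g' = 1) {x : Ω} (hx : x ≠ o) (h : g • x = g' • x) : g = g' := by
  by_cases hgx : g • x = x
  · have h1 : g = 1 := by
      by_contra hne
      exact hx (hyp.K_fpf hg hne hgx)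
    have h2 : g' = 1 := by
      by_contra hne
      exact hx (hyp.K_fpf hg' hne (h ▸ hgx))
    rw [h1, h2]
  · have hyo : g • x ≠ o := by
      intro h0
      apply hx
      exact smul_canc (g := g) (by rw [h0, hg.1])
    have e1 : g • g • x = x := sq_smul hg.2 x
    have e2 : g' • g • x = x := by rw [h]; exact sq_smul hg'.2 x
    have key : g'⁻¹ * g = 1 := by
      apply hyp.s3 (g'⁻¹ * g) o x (g • x) (Ne.symm hx) (Ne.symm hgx) (Ne.symm hyo)
      · rw [mul_smul, hg.1, inv_smul_eq_iff, hg'.1]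
      · rw [mul_smul, inv_smul_eq_iff, h]
      · rw [mul_smul, e1, inv_smul_eq_iff, e2]
    exact (inv_mul_eq_one.mp key).symm

variable [Finite G]

/-- an element swapping `o` and `z` is an involution -/
theorem Hyp.swap_sq (hyp : Hyp G Ω o z e) {u : G} (h1 : u • o = z) (h2 : u • z = o) :
    u * u = 1 := by
  by_contra hne
  have hev : Even (orderOf u) := by
    by_contra hodd
    rw [Nat.not_even_iff_odd] at hodd
    have := Zass.swap_pow h1 h2 hodd
    rw [pow_orderOf_eq_one, one_smul] at this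
    exact hyp.oz this
  obtain ⟨k, hk⟩ := hev
  have hpos : 0 < orderOf u := orderOf_pos u
  have hkpos : 0 < k := by omega
  have hii : u ^ k * u ^ k = 1 := by rw [← pow_add, ← hk, pow_orderOf_eq_one]
  have hi1 : u ^ k ≠ 1 := by
    intro h
    have hd := orderOf_dvd_of_pow_eq_one h
    have := Nat.le_of_dvd hkpos hd
    omega
  obtain ⟨c, hc⟩ := hyp.fixex hii hi1
  have hcomm : u ^ k * u = u * u ^ k := by rw [← pow_succ, ← pow_succ']
  have huc : u • c = c := by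
    apply hyp.fix1 hii hi1 _ hc
    rw [← mul_smul, hcomm, mul_smul, hc]
  have hco : c ≠ o := by
    intro h
    rw [h, h1] at huc
    exact hyp.oz huc.symm
  have hcz : c ≠ z := by
    intro h
    rw [h, h2] at huc
    exact hyp.oz huc
  apply hne
  apply hyp.s3 (u * u) o z c hyp.oz (Ne.symm hcz) (Ne.symm hco)
  · rw [mul_smul, h1, h2]
  · rw [mul_smul, h2, h1]
  · rw [mul_smul, huc, huc]

/-- an element of the two-point stabiliser is inverted by the swapping involution -/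
theorem Hyp.H_inv (hyp : Hyp G Ω o z e) {s : G} (hs1 : s • o = z) (hs2 : s • z = o) {h : G}
    (ho : h • o = o) (hz : h • z = z) : s * h * s = h⁻¹ := by
  have hhs : h * s * (h * s) = 1 := by
    apply hyp.swap_sq
    · rw [mul_smul, hs1, hz]
    · rw [mul_smul, hs2, ho]
  have : h * (s * h * s) = 1 := by
    rw [← hhs]
    group
  exact (inv_eq_of_mul_eq_one_right this).symm

theorem Hyp.H_comm (hyp : Hyp G Ω o z e) {s : G} (hs1 : s • o = z) (hs2 : s • z = o) {h h' : G}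
    (ho : h • o = o) (hz : h • z = z) (ho' : h' • o = o) (hz' : h' • z = z) :
    h * h' = h' * h := by
  have hss : s * s = 1 := hyp.swap_sq hs1 hs2
  have e1 : s * (h * h') * s = (h * h')⁻¹ :=
    hyp.H_inv hs1 hs2 (by rw [mul_smul, ho', ho]) (by rw [mul_smul, hz', hz])
  have e2 : s * (h * h') * s = h⁻¹ * h'⁻¹ := by
    rw [← hyp.H_inv hs1 hs2 ho hz, ← hyp.H_inv hs1 hs2 ho' hz']
    have : s * h * s * (s * h' * s) = s * h * (s * s) * h' * s := by group
    rw [this, hss]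
    group
  have key : h⁻¹ * h'⁻¹ = h'⁻¹ * h⁻¹ := by rw [← e2, e1, mul_inv_rev]
  calc h * h' = (h'⁻¹ * h⁻¹)⁻¹ := by group
    _ = (h⁻¹ * h'⁻¹)⁻¹ := by rw [key]
    _ = h' * h := by group

/-- the counting lemma: an element fixing only `o` is an involution -/
theorem Hyp.fpf_sq (hyp : Hyp G Ω o z e) {t : G} (hto : t • o = o)
    (hfpf : ∀ x, x ≠ o → t • x ≠ x) : t * t = 1 := by
  classical
  obtain ⟨K, hK⟩ : ∃ K : Set G, ∀ g, g ∈ K ↔ (g • o = o ∧ g * g = 1) := ⟨{g | _}, fun g => Iff.rfl⟩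
  obtain ⟨H, hH⟩ : ∃ H : Set G, ∀ g, g ∈ H ↔ (g • o = o ∧ g • z = z) := ⟨{g | _}, fun g => Iff.rfl⟩
  obtain ⟨S1, hS1⟩ : ∃ S1 : Set G, ∀ g, g ∈ S1 ↔ g • o = o := ⟨{g | _}, fun g => Iff.rfl⟩
  obtain ⟨N, hN⟩ : ∃ N : Set G, ∀ g, g ∈ N ↔ (g • o = o ∧ ∀ x, x ≠ o → g • x ≠ x) :=
    ⟨{g | _}, fun g => Iff.rfl⟩
  obtain ⟨B, hB⟩ : ∃ B : Set G, ∀ g, g ∈ B ↔ (g • o = o ∧ g ≠ 1 ∧ ∃ x, x ≠ o ∧ g • x = x) :=
    ⟨{g | _}, fun g => Iff.rfl⟩
  have h1K : (1 : G) ∈ K := (hK 1).mpr ⟨one_smul _ _, mul_one 1⟩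
  have h1H : (1 : G) ∈ H := (hH 1).mpr ⟨one_smul _ _, one_smul _ _⟩
  have hsub1 : S1 ⊆ (fun p : G × G => p.1 * p.2) '' (K ×ˢ H) := by
    intro g hg
    rw [hS1] at hg
    have hgz : g • z ≠ o := by
      intro h0
      apply hyp.oz
      exact smul_canc (g := g) (by rw [h0, hg])
    obtain ⟨k, hk, hkz⟩ := hyp.K_ex z (g • z) (Ne.symm hyp.oz) hgz
    refine ⟨(k, k⁻¹ * g), ⟨(hK k).mpr hk, (hH _).mpr ⟨?_, ?_⟩⟩, ?_⟩
    · rw [mul_smul, hg, inv_smul_eq_iff, hk.1]
    · rw [mul_smul, inv_smul_eq_iff, hkz]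
    · show k * (k⁻¹ * g) = g
      rw [mul_inv_cancel_left]
  have c1 : S1.ncard ≤ K.ncard * H.ncard := by
    calc S1.ncard ≤ ((fun p : G × G => p.1 * p.2) '' (K ×ˢ H)).ncard :=
          Set.ncard_le_ncard hsub1 (Set.toFinite _)
      _ ≤ (K ×ˢ H).ncard := Set.ncard_image_le (Set.toFinite _)
      _ = K.ncard * H.ncard := Set.ncard_prod
  have hsub2 : (fun p : G × G => p.1 * p.2 * p.1⁻¹) '' (K ×ˢ (H \ {1})) ⊆ B := by
    rintro _ ⟨⟨k, h⟩, ⟨hk0, hh0, hh10⟩, rfl⟩
    have hk : k • o = o ∧ k * k = 1 := (hK k).mp hk0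
    have hh : h • o = o ∧ h • z = z := (hH h).mp hh0
    have hh1 : h ≠ 1 := hh10
    rw [hB]
    refine ⟨?_, ?_, k • z, ?_, ?_⟩
    · show (k * h * k⁻¹) • o = o
      rw [mul_smul, mul_smul, inv_smul_eq_iff.mpr hk.1.symm, hh.1, hk.1]
    · intro h1
      have h1' : k * h * k⁻¹ = 1 := h1
      apply hh1
      have : h = k⁻¹ * (k * h * k⁻¹) * k := by group
      rw [this, h1']
      group
    · intro h0
      apply hyp.oz
      exact smul_canc (g := k) (by rw [h0, hk.1])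
    · show (k * h * k⁻¹) • k • z = k • z
      rw [mul_smul, mul_smul, inv_smul_smul, hh.2]
  have hinj : Set.InjOn (fun p : G × G => p.1 * p.2 * p.1⁻¹) (K ×ˢ (H \ {1})) := by
    rintro ⟨k, h⟩ ⟨hk0, hh0, hh10⟩ ⟨k', h'⟩ ⟨hk0', hh0', hh10'⟩ heq
    have hk : k • o = o ∧ k * k = 1 := (hK k).mp hk0
    have hh : h • o = o ∧ h • z = z := (hH h).mp hh0
    have hh1 : h ≠ 1 := hh10
    have hk' : k' • o = o ∧ k' * k' = 1 := (hK k').mp hk0'
    have hh' : h' • o = o ∧ h' • z = z := (hH h').mp hh0'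
    have heq' : k * h * k⁻¹ = k' * h' * k'⁻¹ := heq
    have hkz : k • z ≠ o := by
      intro h0
      apply hyp.oz
      exact smul_canc (g := k) (by rw [h0, hk.1])
    have hkz' : k' • z ≠ o := by
      intro h0
      apply hyp.oz
      exact smul_canc (g := k') (by rw [h0, hk'.1])
    have f1 : (k * h * k⁻¹) • o = o := by
      rw [mul_smul, mul_smul, inv_smul_eq_iff.mpr hk.1.symm, hh.1, hk.1]
    have f2 : (k * h * k⁻¹) • k • z = k • z := by
      rw [mul_smul, mul_smul, inv_smul_smul, hh.2]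
    have f3 : (k * h * k⁻¹) • k' • z = k' • z := by
      rw [heq', mul_smul, mul_smul, inv_smul_smul, hh'.2]
    have hkk : k = k' := by
      apply hyp.K_uniq hk hk' (Ne.symm hyp.oz)
      by_contra hne
      have h1 : k * h * k⁻¹ = 1 :=
        hyp.s3 _ o (k • z) (k' • z) (Ne.symm hkz) hne (Ne.symm hkz') f1 f2 f3
      apply hh1
      have : h = k⁻¹ * (k * h * k⁻¹) * k := by group
      rw [this, h1]
      group
    subst hkk
    have : h = h' := mul_left_cancel (mul_right_cancel heq')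
    rw [this]
  have c2 : K.ncard * (H.ncard - 1) ≤ B.ncard := by
    calc K.ncard * (H.ncard - 1) = K.ncard * (H \ {1}).ncard := by
          rw [Set.ncard_sdiff_singleton_of_mem h1H]
      _ = (K ×ˢ (H \ {1})).ncard := Set.ncard_prod.symm
      _ = ((fun p : G × G => p.1 * p.2 * p.1⁻¹) '' (K ×ˢ (H \ {1}))).ncard :=
          (Set.InjOn.ncard_image hinj).symm
      _ ≤ B.ncard := Set.ncard_le_ncard hsub2 (Set.toFinite _)
  have hsub3 : N ∪ {1} ∪ B ⊆ S1 := by
    rintro g ((hg | hg) | hg)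
    · exact (hS1 g).mpr ((hN g).mp hg).1
    · rw [Set.mem_singleton_iff] at hg
      rw [hg]
      exact (hS1 1).mpr (one_smul _ _)
    · exact (hS1 g).mpr ((hB g).mp hg).1
  have d1 : Disjoint N {1} := by
    rw [Set.disjoint_singleton_right]
    intro h1N
    exact ((hN 1).mp h1N).2 z (Ne.symm hyp.oz) (one_smul _ _)
  have d2 : Disjoint (N ∪ {1}) B := by
    rw [Set.disjoint_left]
    rintro g (hg | hg) hgB
    · obtain ⟨-, -, x, hx, hgx⟩ := (hB g).mp hgB
      exact ((hN g).mp hg).2 x hx hgx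
    · rw [Set.mem_singleton_iff] at hg
      exact ((hB g).mp hgB).2.1 hg
  have c3 : N.ncard + 1 + B.ncard ≤ S1.ncard := by
    calc N.ncard + 1 + B.ncard = (N ∪ {1} ∪ B).ncard := by
          rw [Set.ncard_union_eq d2 (Set.toFinite _) (Set.toFinite _),
            Set.ncard_union_eq d1 (Set.toFinite _) (Set.toFinite _), Set.ncard_singleton]
      _ ≤ S1.ncard := Set.ncard_le_ncard hsub3 (Set.toFinite _)
  have hsub4 : K \ {1} ⊆ N := by
    rintro g ⟨hg, hg1⟩
    rw [hK] at hg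
    rw [hN]
    exact ⟨hg.1, fun x hx hgx => hx (hyp.K_fpf hg hg1 hgx)⟩
  have c4 : N.ncard ≤ (K \ {1}).ncard := by
    rw [Set.ncard_sdiff_singleton_of_mem h1K]
    have hH1 : 1 ≤ H.ncard := (Set.ncard_pos (Set.toFinite _)).mpr ⟨1, h1H⟩
    obtain ⟨b, hb⟩ : ∃ b, H.ncard = b + 1 := ⟨H.ncard - 1, by omega⟩
    rw [hb] at c1 c2
    rw [Nat.add_sub_cancel] at c2
    rw [Nat.mul_succ] at c1
    omega
  have h5 : K \ {1} = N := Set.eq_of_subset_of_ncard_le hsub4 c4 (Set.toFinite _)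
  have htN : t ∈ N := (hN t).mpr ⟨hto, hfpf⟩
  rw [← h5] at htN
  exact ((hK t).mp htN.1).2

theorem Hyp.K_mul (hyp : Hyp G Ω o z e) {g g' : G} (hg : g • o = o ∧ g * g = 1)
    (hg' : g' • o = o ∧ g' * g' = 1) : (g * g') • o = o ∧ (g * g') * (g * g') = 1 := by
  have ho : (g * g') • o = o := by rw [mul_smul, hg'.1, hg.1]
  refine ⟨ho, ?_⟩
  by_cases hgg : g = g'
  · rw [hgg, hg'.2, mul_one]
  · apply hyp.fpf_sq ho
    intro x hx hfix
    apply hgg
    apply hyp.K_uniq hg hg' hx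
    have : g • (g * g') • x = g • x := by rw [hfix]
    rw [mul_smul, sq_smul hg.2] at this
    exact this.symm

theorem Hyp.K_comm (hyp : Hyp G Ω o z e) {g g' : G} (hg : g • o = o ∧ g * g = 1)
    (hg' : g' • o = o ∧ g' * g' = 1) : g * g' = g' * g := by
  have h := (hyp.K_mul hg hg').2
  calc g * g' = (g * g')⁻¹ := (inv_of_sq h).symm
    _ = g'⁻¹ * g⁻¹ := mul_inv_rev _ _
    _ = g' * g := by rw [inv_of_sq hg.2, inv_of_sq hg'.2]

theorem Hyp.K_conj (hyp : Hyp G Ω o z e) {k : G} (hk : k • o = o ∧ k * k = 1) {h : G}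
    (hh : h • o = o) : (h * k * h⁻¹) • o = o ∧ (h * k * h⁻¹) * (h * k * h⁻¹) = 1 := by
  constructor
  · rw [mul_smul, mul_smul, inv_smul_eq_iff.mpr hh.symm, hk.1, hh]
  · have : h * k * h⁻¹ * (h * k * h⁻¹) = h * (k * k) * h⁻¹ := by group
    rw [this, hk.2]
    group

/-- the group of involutions fixing `o` -/
def Ksub (hyp : Hyp G Ω o z e) : Subgroup G where
  carrier := {g | g • o = o ∧ g * g = 1}
  mul_mem' := fun ha hb => hyp.K_mul ha hb
  one_mem' := ⟨one_smul _ _, mul_one 1⟩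
  inv_mem' := fun {g} hg => by
    show g⁻¹ • o = o ∧ g⁻¹ * g⁻¹ = 1
    rw [inv_of_sq hg.2]
    exact hg

theorem mem_Ksub (hyp : Hyp G Ω o z e) (g : G) : g ∈ Ksub hyp ↔ (g • o = o ∧ g * g = 1) :=
  Iff.rfl

noncomputable instance Ksub.commGroup (hyp : Hyp G Ω o z e) : CommGroup ↥(Ksub hyp) :=
  { (inferInstance : Group ↥(Ksub hyp)) with
    mul_comm := fun a b => Subtype.ext (hyp.K_comm a.2 b.2) }

/-- conjugation by an element fixing `o`, on `K` -/
def conjK (hyp : Hyp G Ω o z e) (h : G) (hh : h • o = o) : ↥(Ksub hyp) →* ↥(Ksub hyp) where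
  toFun k := ⟨h * k.1 * h⁻¹, hyp.K_conj k.2 hh⟩
  map_one' := by
    apply Subtype.ext
    show h * ((1 : ↥(Ksub hyp)) : G) * h⁻¹ = ((1 : ↥(Ksub hyp)) : G)
    rw [Subgroup.coe_one]
    group
  map_mul' a b := by
    apply Subtype.ext
    show h * ((a * b : ↥(Ksub hyp)) : G) * h⁻¹ = (h * (a : G) * h⁻¹) * (h * (b : G) * h⁻¹)
    rw [Subgroup.coe_mul]
    group

/-- the same as an additive endomorphism -/
noncomputable def cEnd (hyp : Hyp G Ω o z e) (h : G) (hh : h • o = o) :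
    AddMonoid.End (Additive ↥(Ksub hyp)) :=
  MonoidHom.toAdditive (conjK hyp h hh)

/-- evaluation of an endomorphism, as an element of `G` -/
def evK (hyp : Hyp G Ω o z e) (f : AddMonoid.End (Additive ↥(Ksub hyp))) (k : ↥(Ksub hyp)) : G :=
  ((Additive.toMul (f (Additive.ofMul k)) : ↥(Ksub hyp)) : G)

theorem evK_mem (hyp : Hyp G Ω o z e) (f : AddMonoid.End (Additive ↥(Ksub hyp)))
    (k : ↥(Ksub hyp)) : evK hyp f k • o = o ∧ evK hyp f k * evK hyp f k = 1 :=
  (Additive.toMul (f (Additive.ofMul k)) : ↥(Ksub hyp)).2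

theorem evK_add (hyp : Hyp G Ω o z e) (f g : AddMonoid.End (Additive ↥(Ksub hyp)))
    (k : ↥(Ksub hyp)) : evK hyp (f + g) k = evK hyp f k * evK hyp g k := rfl

theorem evK_zero (hyp : Hyp G Ω o z e) (k : ↥(Ksub hyp)) : evK hyp 0 k = 1 := rfl

theorem evK_one (hyp : Hyp G Ω o z e) (k : ↥(Ksub hyp)) : evK hyp 1 k = k := rfl

theorem evK_cEnd (hyp : Hyp G Ω o z e) (h : G) (hh : h • o = o) (k : ↥(Ksub hyp)) :
    evK hyp (cEnd hyp h hh) k = h * (k : G) * h⁻¹ := rfl

theorem evK_mul_cEnd (hyp : Hyp G Ω o z e) (h : G) (hh : h • o = o) (h' : G) (hh' : h' • o = o)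
    (k : ↥(Ksub hyp)) :
    evK hyp (cEnd hyp h hh * cEnd hyp h' hh') k = h * (h' * (k : G) * h'⁻¹) * h⁻¹ := rfl

theorem end_ext (hyp : Hyp G Ω o z e) {f g : AddMonoid.End (Additive ↥(Ksub hyp))}
    (h : ∀ k : ↥(Ksub hyp), evK hyp f k = evK hyp g k) : f = g := by
  apply AddMonoidHom.ext
  intro a
  exact Additive.toMul.injective (Subtype.ext (h (Additive.toMul a)))

theorem evK_inj (hyp : Hyp G Ω o z e) {f g : AddMonoid.End (Additive ↥(Ksub hyp))}
    {k : ↥(Ksub hyp)} (h : evK hyp f k = evK hyp g k) :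
    f (Additive.ofMul k) = g (Additive.ofMul k) :=
  Additive.toMul.injective (Subtype.ext h)

theorem cEnd_congr (hyp : Hyp G Ω o z e) {h h' : G} {hh : h • o = o} {hh' : h' • o = o}
    (e : h = h') : cEnd hyp h hh = cEnd hyp h' hh' := by
  subst e
  rfl

theorem cEnd_one (hyp : Hyp G Ω o z e) : cEnd hyp 1 (one_smul _ _) = 1 := by
  apply end_ext
  intro k
  rw [evK_cEnd, evK_one]
  group

theorem cEnd_mul (hyp : Hyp G Ω o z e) (h : G) (hh : h • o = o) (h' : G) (hh' : h' • o = o) :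
    cEnd hyp h hh * cEnd hyp h' hh' = cEnd hyp (h * h') (by rw [mul_smul, hh', hh]) := by
  apply end_ext
  intro k
  rw [evK_mul_cEnd, evK_cEnd]
  group

end

/-- a field from a commutative family of endomorphisms acting regularly on the nonzero elements -/
theorem field_of_regular {A : Type*} [AddCommGroup A] (h2 : ∀ a : A, a + a = 0)
    (T : Set (AddMonoid.End A)) (e : A)
    (t1 : (1 : AddMonoid.End A) ∈ T) (t2 : ∀ x ∈ T, ∀ y ∈ T, x * y ∈ T)
    (t3 : ∀ x ∈ T, ∀ y ∈ T, x * y = y * x)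
    (t4 : ∀ x ∈ T, ∃ y ∈ T, x * y = 1) (t5 : ∀ a : A, a ≠ 0 → ∃ x ∈ T, x e = a)
    (t6 : ∀ x ∈ T, ∀ y ∈ T, x e = y e → x = y) (t7 : ∀ x ∈ T, x e ≠ 0) :
    ∃ R : Subring (AddMonoid.End A), IsField R ∧
      (∀ r : AddMonoid.End A, r ∈ R ↔ r = 0 ∨ r ∈ T) := by
  have hneg : ∀ a : A, -a = a := fun a => neg_eq_of_add_eq_zero_left (h2 a)
  have hdouble : ∀ x : AddMonoid.End A, x + x = 0 := by
    intro x
    apply AddMonoidHom.ext
    intro a
    exact h2 (x a)
  have hnegE : ∀ x : AddMonoid.End A, -x = x := fun x => neg_eq_of_add_eq_zero_left (hdouble x)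
  have hT0 : ∀ x ∈ T, x ≠ 0 := by
    intro x hx h0
    apply t7 x hx
    rw [h0]
    rfl
  have hadd : ∀ x ∈ T, ∀ y ∈ T, x + y = 0 ∨ x + y ∈ T := by
    intro x hx y hy
    by_cases hxy : x = y
    · left
      rw [hxy]
      exact hdouble y
    · right
      have ha0 : x e + y e ≠ 0 := by
        intro h0
        apply hxy
        apply t6 x hx y hy
        have : x e = -(y e) := eq_neg_of_add_eq_zero_left h0
        rw [this, hneg]
      obtain ⟨w, hw, hwe⟩ := t5 _ ha0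
      have : x + y = w := by
        apply AddMonoidHom.ext
        intro a
        by_cases ha : a = 0
        · rw [ha]
          exact (AddMonoidHom.map_zero _).trans (AddMonoidHom.map_zero _).symm
        · obtain ⟨u, hu, hue⟩ := t5 a ha
          rw [← hue]
          show x (u e) + y (u e) = w (u e)
          have e1 : x (u e) = u (x e) :=
            congrArg (fun f : AddMonoid.End A => f e) (t3 x hx u hu)
          have e2 : y (u e) = u (y e) :=
            congrArg (fun f : AddMonoid.End A => f e) (t3 y hy u hu)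
          have e3 : w (u e) = u (w e) :=
            congrArg (fun f : AddMonoid.End A => f e) (t3 w hw u hu)
          rw [e1, e2, e3, hwe, map_add]
      rw [this]
      exact hw
  refine ⟨{ carrier := {r | r = 0 ∨ r ∈ T}
            mul_mem' := ?_
            one_mem' := Or.inr t1
            add_mem' := ?_
            zero_mem' := Or.inl rfl
            neg_mem' := ?_ }, ?_, fun r => Iff.rfl⟩
  · rintro a b (rfl | ha) (rfl | hb)
    · left; rw [mul_zero]
    · left; rw [zero_mul]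
    · left; rw [mul_zero]
    · right; exact t2 a ha b hb
  · rintro a b (rfl | ha) (rfl | hb)
    · left; rw [add_zero]
    · right; rw [zero_add]; exact hb
    · right; rw [add_zero]; exact ha
    · exact hadd a ha b hb
  · intro a ha
    rw [hnegE]
    exact ha
  · refine ⟨⟨0, 1, ?_⟩, ?_, ?_⟩
    · intro h
      have : (0 : AddMonoid.End A) = 1 := congrArg Subtype.val h
      exact hT0 1 t1 this.symm
    · rintro ⟨a, ha⟩ ⟨b, hb⟩
      apply Subtype.ext
      show a * b = b * a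
      rcases ha with rfl | ha
      · rw [zero_mul, mul_zero]
      · rcases hb with rfl | hb
        · rw [zero_mul, mul_zero]
        · exact t3 a ha b hb
    · intro a hane
      obtain ⟨a, ha⟩ := a
      rcases ha with rfl | ha
      · exact absurd rfl hane
      · obtain ⟨y, hy, hay⟩ := t4 a ha
        exact ⟨⟨y, Or.inr hy⟩, Subtype.ext hay⟩

end Cfsg.Agent.Helper6.Sharp3
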