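import Mathlib
import Cfsg.Agent.Helper12.SL2Gen
import Cfsg.Agent.S0267

set_option autoImplicit false

namespace Cfsg.Agent.Helper6.Sharp3

open Cfsg.Agent.Helper12

theorem sl_smul_apply {R : Type*} [Field R] (γ : Matrix.SpecialLinearGroup (Fin 2) R)
    (v : Fin 2 → R) (i : Fin 2) :
    (γ • v) i = (γ : Matrix (Fin 2) (Fin 2) R) i 0 * v 0 +
      (γ : Matrix (Fin 2) (Fin 2) R) i 1 * v 1 := by
  show (Matrix.mulVec (γ : Matrix (Fin 2) (Fin 2) R) v) i = _
  simp [Matrix.mulVec, dotProduct, Fin.sum_univ_two]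

/-- the ring isomorphism induced on `SL₂` -/
noncomputable def slEquiv {R S : Type*} [CommRing R] [CommRing S] (f : R ≃+* S) :
    Matrix.SpecialLinearGroup (Fin 2) R ≃* Matrix.SpecialLinearGroup (Fin 2) S :=
  { toFun := Matrix.SpecialLinearGroup.map (f : R →+* S)
    invFun := Matrix.SpecialLinearGroup.map (f.symm : S →+* R)
    left_inv := by
      intro x
      apply Subtype.ext
      ext i j
      show f.symm (f ((x : Matrix (Fin 2) (Fin 2) R) i j)) = (x : Matrix (Fin 2) (Fin 2) R) i j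
      exact f.symm_apply_apply _
    right_inv := by
      intro x
      apply Subtype.ext
      ext i j
      show f (f.symm ((x : Matrix (Fin 2) (Fin 2) S) i j)) = (x : Matrix (Fin 2) (Fin 2) S) i j
      exact f.apply_symm_apply _
    map_mul' := fun x y => map_mul _ x y }

/-- the final identification: a group acting sharply on `{o} ∪ pt(R)` with translations and the
inversion is `SL₂(R)` (characteristic two). -/
theorem final {G : Type*} [Group G] {Ω : Type*} [MulAction G Ω]
    {R : Type*} [Field R] [Fintype R] [CharP R 2]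
    (h3s : ∀ g : G, ∀ a b c : Ω, a ≠ b → b ≠ c → a ≠ c → g • a = a → g • b = b → g • c = c →
      g = 1)
    (o : Ω) (pt : R → Ω) (hpt_inj : Function.Injective pt) (hpt_o : ∀ r, pt r ≠ o)
    (hpt_surj : ∀ x : Ω, x ≠ o → ∃ r, pt r = x)
    (tr : R → G) (htr_o : ∀ b, tr b • o = o) (htr : ∀ b x, tr b • pt x = pt (x + b))
    (s : G) (hs_o : s • o = pt 0) (hs_0 : s • pt 0 = o)
    (hs : ∀ x, x ≠ 0 → s • pt x = pt x⁻¹) :
    Nonempty (G ≃* Matrix.SpecialLinearGroup (Fin 2) R) := by
  classical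
  have h2 : (2 : R) = 0 := by exact_mod_cast CharP.cast_eq_zero R 2
  obtain ⟨β, hβ⟩ : ∃ β : Projectivization R (Fin 2 → R) → Ω,
      ∀ (v : Fin 2 → R) (hv : v ≠ 0),
        β (Projectivization.mk R v hv) = if v 1 = 0 then o else pt (v 0 / v 1) := by
    have hf : ∀ (a b : {v : Fin 2 → R // v ≠ 0}) (t : R), (a : Fin 2 → R) = t • (b : Fin 2 → R) →
        (if a.1 1 = 0 then o else pt (a.1 0 / a.1 1)) =
          (if b.1 1 = 0 then o else pt (b.1 0 / b.1 1)) := by
      rintro ⟨a, ha⟩ ⟨b, hb⟩ t hab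
      have hab' : a = t • b := hab
      have ht : t ≠ 0 := by
        rintro rfl
        apply ha
        rw [hab', zero_smul]
      have h0 : a 0 = t * b 0 := by rw [hab']; rfl
      have h1 : a 1 = t * b 1 := by rw [hab']; rfl
      show (if a 1 = 0 then o else pt (a 0 / a 1)) = (if b 1 = 0 then o else pt (b 0 / b 1))
      by_cases hb1 : b 1 = 0
      · rw [if_pos hb1, if_pos (by rw [h1, hb1, mul_zero])]
      · rw [if_neg hb1, if_neg (by rw [h1]; exact mul_ne_zero ht hb1), h0, h1,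
          mul_div_mul_left _ _ ht]
    exact ⟨Projectivization.lift
      (fun a : {v : Fin 2 → R // v ≠ 0} => if a.1 1 = 0 then o else pt (a.1 0 / a.1 1)) hf,
      fun v hv => rfl⟩
  have hβxy : ∀ (x y : R) (h : (![x, y] : Fin 2 → R) ≠ 0),
      β (Projectivization.mk R ![x, y] h) = if y = 0 then o else pt (x / y) := by
    intro x y h
    rw [hβ]
    simp
  have ne10 : (![1, 0] : Fin 2 → R) ≠ 0 := Cfsg.Agent.Helper1.ProjLine.e0_ne
  have ne01 : (![0, 1] : Fin 2 → R) ≠ 0 := Cfsg.Agent.Helper1.ProjLine.e1_ne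
  have ne11 : (![1, 1] : Fin 2 → R) ≠ 0 := Cfsg.Agent.Helper1.ProjLine.e2_ne
  have hE0 : β (Cfsg.Agent.Helper1.ProjLine.E0 R) = o := by
    show β (Projectivization.mk R ![1, 0] _) = o
    rw [hβxy, if_pos rfl]
  have hE1 : β (Cfsg.Agent.Helper1.ProjLine.E1 R) = pt 0 := by
    show β (Projectivization.mk R ![0, 1] _) = pt 0
    rw [hβxy, if_neg one_ne_zero, zero_div]
  have hE2 : β (Cfsg.Agent.Helper1.ProjLine.E2 R) = pt 1 := by
    show β (Projectivization.mk R ![1, 1] _) = pt 1
    rw [hβxy, if_neg one_ne_zero, div_one]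
  have hβr : ∀ r : R, ∃ p, β p = pt r := by
    intro r
    have hne : (![r, 1] : Fin 2 → R) ≠ 0 := by
      intro h
      have := congrFun h 1
      simp at this
    exact ⟨Projectivization.mk R ![r, 1] hne, by rw [hβxy, if_neg one_ne_zero, div_one]⟩
  have hβsurj : ∀ x : Ω, ∃ p, β p = x := by
    intro x
    by_cases hx : x = o
    · exact ⟨_, hx ▸ hE0⟩
    · obtain ⟨r, hr⟩ := hpt_surj x hx
      obtain ⟨p, hp⟩ := hβr r
      exact ⟨p, hp.trans hr⟩
  have h01 : pt 0 ≠ pt 1 := fun h => zero_ne_one (hpt_inj h)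
  have huniq : ∀ g g' : G, (∀ p, g • β p = g' • β p) → g = g' := by
    intro g g' h
    have key : g'⁻¹ * g = 1 := by
      apply h3s (g'⁻¹ * g) o (pt 0) (pt 1) (hpt_o 0).symm h01 (hpt_o 1).symm
      · rw [mul_smul, ← hE0, h, inv_smul_smul]
      · rw [mul_smul, ← hE1, h, inv_smul_smul]
      · rw [mul_smul, ← hE2, h, inv_smul_smul]
    exact (inv_mul_eq_one.mp key).symm
  obtain ⟨S, hSmem⟩ : ∃ S : Subgroup (Matrix.SpecialLinearGroup (Fin 2) R),
      ∀ γ, γ ∈ S ↔ ∃ g : G, ∀ p, β (γ • p) = g • β p := by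
    refine ⟨{ carrier := {γ | ∃ g : G, ∀ p, β (γ • p) = g • β p}
              one_mem' := ⟨1, fun p => by rw [one_smul, one_smul]⟩
              mul_mem' := ?_
              inv_mem' := ?_ }, fun γ => Iff.rfl⟩
    · rintro γ γ' ⟨g, hg⟩ ⟨g', hg'⟩
      exact ⟨g * g', fun p => by rw [mul_smul, hg, hg', mul_smul]⟩
    · rintro γ ⟨g, hg⟩
      refine ⟨g⁻¹, fun p => ?_⟩
      have := hg (γ⁻¹ • p)
      rw [smul_inv_smul] at this
      rw [this, inv_smul_smul]
  have hU0 : ∀ (b : R) (v : Fin 2 → R), (sl2U b • v) 0 = v 0 + b * v 1 := by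
    intro b v
    rw [sl_smul_apply, sl2U_val]
    simp
  have hU1 : ∀ (b : R) (v : Fin 2 → R), (sl2U b • v) 1 = v 1 := by
    intro b v
    rw [sl_smul_apply, sl2U_val]
    simp
  have hUS : ∀ b : R, sl2U b ∈ S := by
    intro b
    rw [hSmem]
    refine ⟨tr b, fun p => ?_⟩
    induction p using Projectivization.ind with
    | h v hv =>
      rw [Projectivization.smul_mk, hβ, hβ, hU0, hU1]
      by_cases hv1 : v 1 = 0
      · rw [if_pos hv1, if_pos hv1, htr_o]
      · rw [if_neg hv1, if_neg hv1, htr, add_div, mul_div_assoc, div_self hv1, mul_one]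
  have hwdet : (0 : R) * 0 - 1 * 1 = 1 := by linear_combination (-1 : R) * h2
  obtain ⟨wM, hwM⟩ : ∃ wM : Matrix.SpecialLinearGroup (Fin 2) R, wM = sl2mk 0 1 1 0 hwdet :=
    ⟨_, rfl⟩
  have hW0 : ∀ v : Fin 2 → R, (wM • v) 0 = v 1 := by
    intro v
    rw [sl_smul_apply, hwM, sl2mk_val]
    simp
  have hW1 : ∀ v : Fin 2 → R, (wM • v) 1 = v 0 := by
    intro v
    rw [sl_smul_apply, hwM, sl2mk_val]
    simp
  have hWS : wM ∈ S := by
    rw [hSmem]
    refine ⟨s, fun p => ?_⟩
    induction p using Projectivization.ind with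
    | h v hv =>
      rw [Projectivization.smul_mk, hβ, hβ, hW0, hW1]
      by_cases hv1 : v 1 = 0
      · have hv0 : v 0 ≠ 0 := by
          intro h0
          apply hv
          funext i
          fin_cases i
          · exact h0
          · exact hv1
        rw [if_pos hv1, if_neg hv0, hv1, zero_div, hs_o]
      · by_cases hv0 : v 0 = 0
        · rw [if_pos hv0, if_neg hv1, hv0, zero_div, hs_0]
        · rw [if_neg hv0, if_neg hv1, hs _ (div_ne_zero hv0 hv1), inv_div]
  have hStop : S = ⊤ := by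
    apply sl2_generate wM _ S hUS
    · intro y
      exact S.mul_mem (S.mul_mem hWS (hUS y)) (S.inv_mem hWS)
    · rw [hwM, sl2mk_val]
      simp
  have hall : ∀ γ : Matrix.SpecialLinearGroup (Fin 2) R, ∃ g : G, ∀ p, β (γ • p) = g • β p :=
    fun γ => (hSmem γ).mp (hStop ▸ Subgroup.mem_top γ)
  choose φ hφ using hall
  have hmul : ∀ γ γ', φ (γ * γ') = φ γ * φ γ' := by
    intro γ γ'
    apply huniq
    intro p
    calc φ (γ * γ') • β p = β ((γ * γ') • p) := (hφ _ _).symm
      _ = β (γ • γ' • p) := by rw [mul_smul]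
      _ = φ γ • β (γ' • p) := hφ _ _
      _ = φ γ • φ γ' • β p := by rw [hφ]
      _ = (φ γ * φ γ') • β p := (mul_smul _ _ _).symm
  have hinj : ∀ γ, φ γ = 1 → γ = 1 := by
    intro γ hγ
    have hfix : ∀ p, β (γ • p) = β p := by
      intro p
      rw [hφ, hγ, one_smul]
    obtain ⟨a, b, c, d, hγm, hdet⟩ := sl2_eta γ
    have hv0 : ∀ (x y : R), (γ • (![x, y] : Fin 2 → R)) 0 = a * x + b * y := by
      intro x y
      rw [sl_smul_apply, hγm]
      simp
    have hv1 : ∀ (x y : R), (γ • (![x, y] : Fin 2 → R)) 1 = c * x + d * y := by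
      intro x y
      rw [sl_smul_apply, hγm]
      simp
    have hc : c = 0 := by
      by_contra hc
      have e1 := hfix (Projectivization.mk R ![1, 0] ne10)
      rw [Projectivization.smul_mk, hβ, hβxy, hv0, hv1] at e1
      simp only [mul_one, mul_zero, add_zero] at e1
      rw [if_neg hc, if_true] at e1
      exact hpt_o _ e1
    have e2 := hfix (Projectivization.mk R ![0, 1] ne01)
    rw [Projectivization.smul_mk, hβ, hβxy, hv0, hv1] at e2
    simp only [mul_one, mul_zero, zero_add] at e2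
    rw [if_neg one_ne_zero, zero_div] at e2
    have hd : d ≠ 0 := by
      intro hd
      rw [if_pos hd] at e2
      exact hpt_o _ e2.symm
    rw [if_neg hd] at e2
    have hb : b = 0 := by
      have := hpt_inj e2
      rcases div_eq_zero_iff.mp this with h | h
      · exact h
      · exact absurd h hd
    have e3 := hfix (Projectivization.mk R ![1, 1] ne11)
    rw [Projectivization.smul_mk, hβ, hβxy, hv0, hv1] at e3
    simp only [mul_one, hc, hb, zero_add, add_zero] at e3
    rw [if_neg one_ne_zero, if_neg hd, div_one] at e3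
    have had : a = d := by
      have := hpt_inj e3
      rw [div_eq_one_iff_eq hd] at this
      exact this
    have haa : a * a = 1 := by
      rw [hb, zero_mul, sub_zero, ← had] at hdet
      exact hdet
    have ha1 : a = 1 := by
      have hsq : (a - 1) ^ 2 = 0 := by linear_combination haa + (1 - a) * h2
      have := pow_eq_zero_iff (two_ne_zero) |>.mp hsq
      exact sub_eq_zero.mp this
    apply Subtype.ext
    rw [hγm, Matrix.SpecialLinearGroup.coe_one, Matrix.one_fin_two, hb, hc, ← had, ha1]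
  have hsurj : ∀ g : G, ∃ γ, φ γ = g := by
    intro g
    obtain ⟨q0, hq0⟩ := hβsurj (g • o)
    obtain ⟨q1, hq1⟩ := hβsurj (g • pt 0)
    obtain ⟨q2, hq2⟩ := hβsurj (g • pt 1)
    have hq01 : q0 ≠ q1 := by
      intro h
      have : g • o = g • pt 0 := by rw [← hq0, ← hq1, h]
      exact (hpt_o 0).symm (MulAction.injective g this)
    have hq02 : q0 ≠ q2 := by
      intro h
      have : g • o = g • pt 1 := by rw [← hq0, ← hq2, h]
      exact (hpt_o 1).symm (MulAction.injective g this)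
    have hq12 : q1 ≠ q2 := by
      intro h
      have : g • pt 0 = g • pt 1 := by rw [← hq1, ← hq2, h]
      exact h01 (MulAction.injective g this)
    obtain ⟨γ, h0, h1, h2'⟩ := Cfsg.Agent.S0267.key (ringChar.eq R 2) q0 q1 q2 hq01 hq02 hq12
    refine ⟨γ, ?_⟩
    have a0 : φ γ • o = g • o := by
      calc φ γ • o = φ γ • β (Cfsg.Agent.Helper1.ProjLine.E0 R) := by rw [hE0]
        _ = β (γ • Cfsg.Agent.Helper1.ProjLine.E0 R) := (hφ γ _).symm
        _ = g • o := by rw [h0, hq0]
    have a1 : φ γ • pt 0 = g • pt 0 := by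
      calc φ γ • pt 0 = φ γ • β (Cfsg.Agent.Helper1.ProjLine.E1 R) := by rw [hE1]
        _ = β (γ • Cfsg.Agent.Helper1.ProjLine.E1 R) := (hφ γ _).symm
        _ = g • pt 0 := by rw [h1, hq1]
    have a2 : φ γ • pt 1 = g • pt 1 := by
      calc φ γ • pt 1 = φ γ • β (Cfsg.Agent.Helper1.ProjLine.E2 R) := by rw [hE2]
        _ = β (γ • Cfsg.Agent.Helper1.ProjLine.E2 R) := (hφ γ _).symm
        _ = g • pt 1 := by rw [h2', hq2]
    have key : g⁻¹ * φ γ = 1 := by
      apply h3s (g⁻¹ * φ γ) o (pt 0) (pt 1) (hpt_o 0).symm h01 (hpt_o 1).symm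
      · rw [mul_smul, a0, inv_smul_smul]
      · rw [mul_smul, a1, inv_smul_smul]
      · rw [mul_smul, a2, inv_smul_smul]
    exact (inv_mul_eq_one.mp key).symm
  let Φ : Matrix.SpecialLinearGroup (Fin 2) R →* G := MonoidHom.mk' φ hmul
  have hΦinj : Function.Injective Φ := by
    rw [injective_iff_map_eq_one]
    intro γ hγ
    exact hinj γ hγ
  exact ⟨(MulEquiv.ofBijective Φ ⟨hΦinj, hsurj⟩).symm⟩

/-- transfer to a field in `Type` -/
theorem final_type {G : Type*} [Group G] {R : Type*} [Field R] [Fintype R] [CharP R 2]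
    (hiso : Nonempty (G ≃* Matrix.SpecialLinearGroup (Fin 2) R)) :
    ∃ a : ℕ, 1 ≤ a ∧ Fintype.card R = 2 ^ a ∧ ∃ (F : Type) (_ : Field F) (_ : Fintype F),
      Fintype.card F = 2 ^ a ∧ Nonempty (G ≃* Matrix.SpecialLinearGroup (Fin 2) F) := by
  classical
  obtain ⟨n, -, hn⟩ := FiniteField.card R 2
  haveI : Fact (Nat.Prime 2) := ⟨Nat.prime_two⟩
  have hn0 : (n : ℕ) ≠ 0 := n.ne_zero
  haveI : Finite (GaloisField 2 (n : ℕ)) := by
    apply Nat.finite_of_card_ne_zero
    rw [GaloisField.card 2 (n : ℕ) hn0]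
    positivity
  letI : Fintype (GaloisField 2 (n : ℕ)) := Fintype.ofFinite _
  have hc : Fintype.card (GaloisField 2 (n : ℕ)) = 2 ^ (n : ℕ) := by
    rw [← Nat.card_eq_fintype_card, GaloisField.card 2 (n : ℕ) hn0]
  obtain ⟨e⟩ := hiso
  have f : R ≃+* GaloisField 2 (n : ℕ) := FiniteField.ringEquivOfCardEq (by rw [hn, hc])
  exact ⟨n, n.pos, hn, GaloisField 2 (n : ℕ), inferInstance, inferInstance, hc,
    ⟨e.trans (slEquiv f)⟩⟩

end Cfsg.Agent.Helper6.Sharp3
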