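import Mathlib
import Cfsg.Agent.Helper6.Sharp3a
import Cfsg.Agent.Helper6.Sharp3b

set_option autoImplicit false

namespace Cfsg.Agent.Helper6.Sharp3

/-- a sharply 3-transitive group of odd degree is `SL₂(F)`, `F` a field with `2^a` elements and
the degree is `2^a + 1` -/
theorem main_abs {G : Type*} [Group G] [Finite G] {Ω : Type*} [MulAction G Ω] [Finite Ω]
    {o z e : Ω} (hyp : Hyp G Ω o z e) :
    ∃ a : ℕ, 1 ≤ a ∧ Nat.card Ω = 2 ^ a + 1 ∧ ∃ (F : Type) (_ : Field F) (_ : Fintype F),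
      Fintype.card F = 2 ^ a ∧ Nonempty (G ≃* Matrix.SpecialLinearGroup (Fin 2) F) := by
  classical
  obtain ⟨s, hs1, hs2, hs3⟩ :=
    hyp.t3 o z e z o e hyp.oz hyp.oe hyp.ze (Ne.symm hyp.oz) hyp.ze hyp.oe
  obtain ⟨eG, heG, heGz⟩ := hyp.K_ex z e (Ne.symm hyp.oz) (Ne.symm hyp.oe)
  obtain ⟨eK, heK⟩ : ∃ eK : ↥(Ksub hyp), (eK : G) = eG := ⟨⟨eG, heG⟩, rfl⟩
  have heKz : (eK : G) • z = e := by rw [heK]; exact heGz
  have heK1 : (eK : G) ≠ 1 := by
    intro h
    rw [h, one_smul] at heKz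
    exact hyp.ze heKz
  obtain ⟨T, hT⟩ : ∃ T : Set (AddMonoid.End (Additive ↥(Ksub hyp))),
      ∀ c, c ∈ T ↔ ∃ h : G, ∃ hh : h • o = o, h • z = z ∧ c = cEnd hyp h hh :=
    ⟨{c | ∃ h : G, ∃ hh : h • o = o, h • z = z ∧ c = cEnd hyp h hh}, fun c => Iff.rfl⟩
  have hA2 : ∀ a : Additive ↥(Ksub hyp), a + a = 0 := by
    intro a
    apply Additive.toMul.injective
    apply Subtype.ext
    exact (Additive.toMul a : ↥(Ksub hyp)).2.2
  have pt_cEnd : ∀ (h : G) (hh : h • o = o), h • z = z →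
      evK hyp (cEnd hyp h hh) eK • z = h • e := by
    intro h hh hz
    rw [evK_cEnd, mul_smul, mul_smul, inv_smul_eq_iff.mpr hz.symm, heKz]
  have t1 : (1 : AddMonoid.End (Additive ↥(Ksub hyp))) ∈ T :=
    (hT 1).mpr ⟨1, one_smul _ _, one_smul _ _, (cEnd_one hyp).symm⟩
  have t2 : ∀ x ∈ T, ∀ y ∈ T, x * y ∈ T := by
    intro x hx y hy
    obtain ⟨h, hh, hz, rfl⟩ := (hT x).mp hx
    obtain ⟨h', hh', hz', rfl⟩ := (hT y).mp hy
    exact (hT _).mpr ⟨h * h', by rw [mul_smul, hh', hh], by rw [mul_smul, hz', hz],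
      cEnd_mul hyp h hh h' hh'⟩
  have t3 : ∀ x ∈ T, ∀ y ∈ T, x * y = y * x := by
    intro x hx y hy
    obtain ⟨h, hh, hz, rfl⟩ := (hT x).mp hx
    obtain ⟨h', hh', hz', rfl⟩ := (hT y).mp hy
    rw [cEnd_mul, cEnd_mul]
    exact cEnd_congr hyp (hyp.H_comm hs1 hs2 hh hz hh' hz')
  have t4 : ∀ x ∈ T, ∃ y ∈ T, x * y = 1 := by
    intro x hx
    obtain ⟨h, hh, hz, rfl⟩ := (hT x).mp hx
    have hh' : h⁻¹ • o = o := inv_smul_eq_iff.mpr hh.symm
    have hz' : h⁻¹ • z = z := inv_smul_eq_iff.mpr hz.symm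
    refine ⟨cEnd hyp h⁻¹ hh', (hT _).mpr ⟨h⁻¹, hh', hz', rfl⟩, ?_⟩
    rw [cEnd_mul, ← cEnd_one hyp]
    exact cEnd_congr hyp (mul_inv_cancel h)
  have t5 : ∀ a : Additive ↥(Ksub hyp), a ≠ 0 → ∃ x ∈ T, x (Additive.ofMul eK) = a := by
    intro a ha
    obtain ⟨k, hk⟩ : ∃ k : ↥(Ksub hyp), Additive.ofMul k = a := ⟨Additive.toMul a, rfl⟩
    have hk1 : (k : G) ≠ 1 := by
      intro h1
      apply ha
      rw [← hk]
      apply Additive.toMul.injective
      exact Subtype.ext h1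
    have hkzo : (k : G) • z ≠ o := by
      intro h0
      apply hyp.oz
      exact smul_canc (g := (k : G)) (by rw [h0, k.2.1])
    have hkzz : (k : G) • z ≠ z := fun h0 => hyp.oz (hyp.K_fpf k.2 hk1 h0).symm
    obtain ⟨h, hh, hz, he⟩ := hyp.t3 o z e o z ((k : G) • z) hyp.oz hyp.oe hyp.ze hyp.oz
      (Ne.symm hkzo) (Ne.symm hkzz)
    refine ⟨cEnd hyp h hh, (hT _).mpr ⟨h, hh, hz, rfl⟩, ?_⟩
    rw [← hk]
    apply Additive.toMul.injective
    apply Subtype.ext
    show h * (eK : G) * h⁻¹ = (k : G)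
    exact hyp.K_uniq (hyp.K_conj eK.2 hh) k.2 (Ne.symm hyp.oz)
      (by rw [mul_smul, mul_smul, inv_smul_eq_iff.mpr hz.symm, heKz, he])
  have t6 : ∀ x ∈ T, ∀ y ∈ T, x (Additive.ofMul eK) = y (Additive.ofMul eK) → x = y := by
    intro x hx y hy hxy
    obtain ⟨h, hh, hz, rfl⟩ := (hT x).mp hx
    obtain ⟨h', hh', hz', rfl⟩ := (hT y).mp hy
    have hG : h * (eK : G) * h⁻¹ = h' * (eK : G) * h'⁻¹ :=
      congrArg (fun a : Additive ↥(Ksub hyp) => ((Additive.toMul a : ↥(Ksub hyp)) : G)) hxy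
    have he : h • e = h' • e := by
      rw [← pt_cEnd h hh hz, ← pt_cEnd h' hh' hz', evK_cEnd, evK_cEnd, hG]
    apply cEnd_congr
    have key : h'⁻¹ * h = 1 := by
      apply hyp.s3 (h'⁻¹ * h) o z e hyp.oz hyp.ze hyp.oe
      · rw [mul_smul, hh, inv_smul_eq_iff, hh']
      · rw [mul_smul, hz, inv_smul_eq_iff, hz']
      · rw [mul_smul, inv_smul_eq_iff, he]
    exact (inv_mul_eq_one.mp key).symm
  have t7 : ∀ x ∈ T, x (Additive.ofMul eK) ≠ 0 := by
    intro x hx h0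
    obtain ⟨h, hh, hz, rfl⟩ := (hT x).mp hx
    have hG : h * (eK : G) * h⁻¹ = 1 :=
      congrArg (fun a : Additive ↥(Ksub hyp) => ((Additive.toMul a : ↥(Ksub hyp)) : G)) h0
    apply heK1
    have : (eK : G) = h⁻¹ * (h * (eK : G) * h⁻¹) * h := by group
    rw [this, hG]
    group
  obtain ⟨R, hRf, hRmem⟩ := field_of_regular hA2 T (Additive.ofMul eK) t1 t2 t3 t4 t5 t6 t7
  letI : Field ↥R := hRf.toField
  have ev_inj : ∀ r r' : ↥R, evK hyp r.1 eK = evK hyp r'.1 eK → r = r' := by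
    intro r r' h
    have h' : r.1 (Additive.ofMul eK) = r'.1 (Additive.ofMul eK) := evK_inj hyp h
    apply Subtype.ext
    rcases (hRmem r.1).mp r.2 with h0 | hr
    · rcases (hRmem r'.1).mp r'.2 with h0' | hr'
      · rw [h0, h0']
      · exfalso
        apply t7 _ hr'
        rw [← h', h0]
        rfl
    · rcases (hRmem r'.1).mp r'.2 with h0' | hr'
      · exfalso
        apply t7 _ hr
        rw [h', h0']
        rfl
      · exact t6 _ hr _ hr' h'
  have ev_surj : ∀ k : ↥(Ksub hyp), ∃ r : ↥R, evK hyp r.1 eK = (k : G) := by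
    intro k
    by_cases hk : Additive.ofMul k = (0 : Additive ↥(Ksub hyp))
    · refine ⟨0, ?_⟩
      have : (k : G) = 1 :=
        congrArg (fun a : Additive ↥(Ksub hyp) => ((Additive.toMul a : ↥(Ksub hyp)) : G)) hk
      rw [this]
      rfl
    · obtain ⟨x, hx, hxe⟩ := t5 _ hk
      refine ⟨⟨x, (hRmem x).mpr (Or.inr hx)⟩, ?_⟩
      exact congrArg (fun a : Additive ↥(Ksub hyp) => ((Additive.toMul a : ↥(Ksub hyp)) : G)) hxe
  haveI : Finite ↥R :=
    Finite.of_injective (fun r : ↥R => evK hyp r.1 eK) (fun r r' h => ev_inj r r' h)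
  letI : Fintype ↥R := Fintype.ofFinite _
  haveI : CharP ↥R 2 := by
    apply CharTwo.of_one_ne_zero_of_two_eq_zero one_ne_zero
    have h11 : (1 : ↥R) + 1 = 0 := by
      apply Subtype.ext
      show (1 : AddMonoid.End (Additive ↥(Ksub hyp))) + 1 = 0
      apply end_ext
      intro k
      rw [evK_add, evK_one, evK_zero]
      exact k.2.2
    rw [← one_add_one_eq_two]
    exact h11
  obtain ⟨tr, htr⟩ : ∃ tr : ↥R → G, ∀ r, tr r = evK hyp r.1 eK :=
    ⟨fun r => evK hyp r.1 eK, fun r => rfl⟩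
  have htrK : ∀ r, tr r • o = o ∧ tr r * tr r = 1 := by
    intro r
    rw [htr]
    exact evK_mem hyp _ _
  have htr_add : ∀ r r' : ↥R, tr (r + r') = tr r * tr r' := by
    intro r r'
    rw [htr, htr, htr]
    rfl
  have htr_zero : tr 0 = 1 := by
    rw [htr]
    rfl
  obtain ⟨pt, hpt⟩ : ∃ pt : ↥R → Ω, ∀ r, pt r = tr r • z := ⟨fun r => tr r • z, fun r => rfl⟩
  have hpt_inj : Function.Injective pt := by
    intro r r' h
    rw [hpt, hpt] at h
    have := hyp.K_uniq (htrK r) (htrK r') (Ne.symm hyp.oz) h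
    rw [htr, htr] at this
    exact ev_inj r r' this
  have hpt_o : ∀ r, pt r ≠ o := by
    intro r h0
    rw [hpt] at h0
    apply hyp.oz
    exact smul_canc (g := tr r) (by rw [h0, (htrK r).1])
  have hpt_surj : ∀ x : Ω, x ≠ o → ∃ r, pt r = x := by
    intro x hx
    obtain ⟨g, hg, hgz⟩ := hyp.K_ex z x (Ne.symm hyp.oz) hx
    obtain ⟨r, hr⟩ := ev_surj ⟨g, hg⟩
    refine ⟨r, ?_⟩
    rw [hpt, htr, hr]
    exact hgz
  have htr' : ∀ b x, tr b • pt x = pt (x + b) := by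
    intro b x
    rw [hpt, hpt, add_comm x b, htr_add, mul_smul]
  have hs_o : s • o = pt 0 := by rw [hpt, htr_zero, one_smul, hs1]
  have hs_0 : s • pt 0 = o := by rw [hpt, htr_zero, one_smul, hs2]
  have hs' : ∀ x : ↥R, x ≠ 0 → s • pt x = pt x⁻¹ := by
    intro x hx
    rcases (hRmem x.1).mp x.2 with h0 | hxT
    · exact absurd (Subtype.ext h0) hx
    · obtain ⟨h, hh, hz, hxc⟩ := (hT _).mp hxT
      have hh' : h⁻¹ • o = o := inv_smul_eq_iff.mpr hh.symm
      have hz' : h⁻¹ • z = z := inv_smul_eq_iff.mpr hz.symm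
      have hyT : cEnd hyp h⁻¹ hh' ∈ T := (hT _).mpr ⟨h⁻¹, hh', hz', rfl⟩
      have hxy : x * (⟨cEnd hyp h⁻¹ hh', (hRmem _).mpr (Or.inr hyT)⟩ : ↥R) = 1 := by
        apply Subtype.ext
        show x.1 * cEnd hyp h⁻¹ hh' = 1
        rw [hxc, cEnd_mul, ← cEnd_one hyp]
        exact cEnd_congr hyp (mul_inv_cancel h)
      have hinv : x⁻¹ = (⟨cEnd hyp h⁻¹ hh', (hRmem _).mpr (Or.inr hyT)⟩ : ↥R) :=
        inv_eq_of_mul_eq_one_right hxy
      have e1 : pt x = h • e := by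
        rw [hpt, htr, hxc]
        exact pt_cEnd h hh hz
      have e2 : pt x⁻¹ = h⁻¹ • e := by
        rw [hinv, hpt, htr]
        exact pt_cEnd h⁻¹ hh' hz'
      rw [e1, e2]
      calc s • h • e = s • h • s • e := by rw [hs3]
        _ = (s * h * s) • e := by rw [mul_smul, mul_smul]
        _ = h⁻¹ • e := by rw [hyp.H_inv hs1 hs2 hh hz]
  have hfin := final hyp.s3 o pt hpt_inj hpt_o hpt_surj tr (fun b => (htrK b).1) htr' s hs_o hs_0
    hs'
  obtain ⟨a, ha, hcard, F, iF, iF', hFc, hFiso⟩ := final_type hfin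
  refine ⟨a, ha, ?_, F, iF, iF', hFc, hFiso⟩
  have hbij : Function.Bijective (fun x : Option ↥R => x.elim o pt) := by
    constructor
    · rintro (_ | r) (_ | r') h
      · rfl
      · exact absurd h.symm (hpt_o r')
      · exact absurd h (hpt_o r)
      · exact congrArg some (hpt_inj h)
    · intro x
      by_cases hx : x = o
      · exact ⟨none, hx.symm⟩
      · obtain ⟨r, hr⟩ := hpt_surj x hx
        exact ⟨some r, hr⟩
  rw [← Nat.card_congr (Equiv.ofBijective _ hbij), Nat.card_eq_fintype_card, Fintype.card_option,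
    hcard]

/-- the permutation group form -/
theorem of_perm {α : Type*} [Fintype α] [DecidableEq α] (G : Subgroup (Equiv.Perm α))
    (hm : 3 ≤ Fintype.card α) (hodd : Odd (Fintype.card α))
    (h3 : MulAction.IsMultiplyPretransitive G α 3)
    (hsharp : ∀ g : G, ∀ a b c : α, a ≠ b → b ≠ c → a ≠ c → g • a = a → g • b = b → g • c = c →
      g = 1) :
    ∃ a : ℕ, 1 ≤ a ∧ Fintype.card α = 2 ^ a + 1 ∧ ∃ (F : Type) (_ : Field F) (_ : Fintype F),
      Fintype.card F = 2 ^ a ∧ Nonempty (G ≃* Matrix.SpecialLinearGroup (Fin 2) F) := by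
  obtain ⟨o, z, e, hoz, hoe, hze⟩ := Fintype.two_lt_card_iff.mp hm
  have hyp : Hyp G α o z e :=
    ⟨hoz, hoe, hze, by rw [Nat.card_eq_fintype_card]; exact hodd,
      fun a b c a' b' c' h1 h2 h3' h4 h5 h6 =>
        Cfsg.Agent.Helper1.ProjLine.exists_of_pretrans h3 a b c a' b' c' h1 h2 h3' h4 h5 h6,
      hsharp⟩
  have := main_abs hyp
  rwa [Nat.card_eq_fintype_card] at this

/-- in characteristic two, `SL₂(F) ≃ PGL₂(F)` for a finite field -/
theorem sl2_equiv_pgl2 {F : Type*} [Field F] [Fintype F] (hF : ringChar F = 2) :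
    Nonempty (Matrix.SpecialLinearGroup (Fin 2) F ≃* Matrix.ProjGenLinGroup (Fin 2) F) := by
  haveI : CharP F 2 := ringChar.of_eq hF
  have h2 : (2 : F) = 0 := by exact_mod_cast CharP.cast_eq_zero F 2
  have hinj : Function.Injective
      (Matrix.SpecialLinearGroup.toPGL : Matrix.SpecialLinearGroup (Fin 2) F →* _) := by
    rw [← MonoidHom.ker_eq_bot_iff, Matrix.SpecialLinearGroup.toPGL_ker, eq_bot_iff]
    intro A hA
    rw [Matrix.SpecialLinearGroup.mem_center_iff] at hA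
    obtain ⟨r, hr, hA⟩ := hA
    rw [Fintype.card_fin] at hr
    have hr1 : r = 1 := by
      have hsq : (r - 1) ^ 2 = 0 := by linear_combination hr + (1 - r) * h2
      exact sub_eq_zero.mp ((pow_eq_zero_iff two_ne_zero).mp hsq)
    rw [Subgroup.mem_bot]
    apply Subtype.ext
    rw [← hA, hr1, map_one, Matrix.SpecialLinearGroup.coe_one]
  have hsurj : Function.Surjective
      (Matrix.SpecialLinearGroup.toPGL : Matrix.SpecialLinearGroup (Fin 2) F →* _) := by
    intro g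
    have hroots : ∀ r : Fˣ, ∃ k : Fˣ, k ^ Fintype.card (Fin 2) = r := by
      intro r
      obtain ⟨k, hk⟩ := FiniteField.isSquare_of_char_two hF (r : F)
      have hk0 : k ≠ 0 := by
        rintro rfl
        rw [mul_zero] at hk
        exact r.ne_zero hk
      refine ⟨Units.mk0 k hk0, ?_⟩
      apply Units.ext
      rw [Fintype.card_fin, Units.val_pow_eq_pow_val, Units.val_mk0, hk, pow_two]
    obtain ⟨x, hx⟩ := Matrix.ProjectiveSpecialLinearGroup.toPGL_surj_of_roots hroots g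
    obtain ⟨X, rfl⟩ := QuotientGroup.mk_surjective x
    exact ⟨X, hx⟩
  exact ⟨MulEquiv.ofBijective _ ⟨hinj, hsurj⟩⟩

end Cfsg.Agent.Helper6.Sharp3
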