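import Mathlib
import Cfsg.Agent.Lead.Derange

set_option autoImplicit false

namespace Cfsg.Agent.Helper6.Sharp3o

/-- the standing hypotheses: three distinct points, even degree, 3-transitive, sharp -/
structure HypO (G : Type*) [Group G] (Ω : Type*) [MulAction G Ω] (o z e : Ω) : Prop where
  oz : o ≠ z
  oe : o ≠ e
  ze : z ≠ e
  even : Even (Nat.card Ω)
  t3 : ∀ a b c a' b' c' : Ω, a ≠ b → a ≠ c → b ≠ c → a' ≠ b' → a' ≠ c' → b' ≠ c' →
    ∃ g : G, g • a = a' ∧ g • b = b' ∧ g • c = c'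
  s3 : ∀ g : G, ∀ a b c : Ω, a ≠ b → b ≠ c → a ≠ c → g • a = a → g • b = b → g • c = c → g = 1

/-- fixed-point-free off `o` -/
def Fpf (G : Type*) [Group G] {Ω : Type*} [MulAction G Ω] (o : Ω) (g : G) : Prop :=
  g • o = o ∧ ∀ x : Ω, x ≠ o → g • x ≠ x

section
variable {G : Type*} [Group G] {Ω : Type*} [MulAction G Ω] {o z e : Ω}

theorem sq_smul {t : G} (ht : t * t = 1) (x : Ω) : t • t • x = x := by
  rw [← mul_smul, ht, one_smul]

theorem inv_of_sq {t : G} (ht : t * t = 1) : t⁻¹ = t := inv_eq_of_mul_eq_one_left ht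

theorem smul_canc {g : G} {x y : Ω} (h : g • x = g • y) : x = y := MulAction.injective g h

theorem fpf_inv {k : G} (hk : Fpf G o k) : Fpf G o k⁻¹ := by
  refine ⟨inv_smul_eq_iff.mpr hk.1.symm, ?_⟩
  intro x hx h
  exact hk.2 x hx (inv_smul_eq_iff.mp h).symm

theorem fpf_conj {k : G} (hk : Fpf G o k) {h : G} (hh : h • o = o) : Fpf G o (h * k * h⁻¹) := by
  have hh' : h⁻¹ • o = o := inv_smul_eq_iff.mpr hh.symm
  refine ⟨by rw [mul_smul, mul_smul, hh', hk.1, hh], ?_⟩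
  intro x hx hfix
  have hx' : h⁻¹ • x ≠ o := by
    intro h0
    apply hx
    rw [inv_smul_eq_iff] at h0
    rw [h0, hh]
  apply hk.2 (h⁻¹ • x) hx'
  rw [mul_smul, mul_smul] at hfix
  rw [eq_inv_smul_iff]
  exact hfix

/-- a set inverted by an involution and closed under products is commutative -/
theorem comm_of_inv {t a b : G} (ht : t * t = 1) (ha : t * a * t = a⁻¹) (hb : t * b * t = b⁻¹)
    (hab : t * (a * b) * t = (a * b)⁻¹) : a * b = b * a := by
  have e4 : t * (a * b) * t = a⁻¹ * b⁻¹ := by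
    calc t * (a * b) * t = t * a * (t * t) * b * t := by rw [ht, mul_one]; group
      _ = (t * a * t) * (t * b * t) := by group
      _ = a⁻¹ * b⁻¹ := by rw [ha, hb]
  have e5 : (a * b)⁻¹ = a⁻¹ * b⁻¹ := hab.symm.trans e4
  calc a * b = ((a * b)⁻¹)⁻¹ := (inv_inv _).symm
    _ = (a⁻¹ * b⁻¹)⁻¹ := by rw [e5]
    _ = b * a := by rw [mul_inv_rev, inv_inv, inv_inv]

theorem HypO.fix2 (hyp : HypO G Ω o z e) {t : G} (ht1 : t ≠ 1) (hto : t • o = o) {x y : Ω}
    (hx : x ≠ o) (hy : y ≠ o) (htx : t • x = x) (hty : t • y = y) : x = y := by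
  by_contra hxy
  exact ht1 (hyp.s3 t o x y (Ne.symm hx) hxy (Ne.symm hy) hto htx hty)

theorem HypO.inv_mul_fpf (hyp : HypO G Ω o z e) {t t' : G} (ht : t * t = 1) (ht1 : t ≠ 1)
    (hto : t • o = o) (ht' : t' * t' = 1) (ht1' : t' ≠ 1) (hto' : t' • o = o) {c d : Ω}
    (hc : c ≠ o) (hd : d ≠ o) (htc : t • c = c) (htd : t' • d = d) (hcd : c ≠ d) :
    Fpf G o (t * t') := by
  refine ⟨by rw [mul_smul, hto', hto], ?_⟩
  intro x hx hfix
  rw [mul_smul] at hfix
  have h1 : t' • x = t • x := by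
    rw [← sq_smul ht (t' • x), hfix]
  by_cases hy : t • x = x
  · have e1 : x = c := hyp.fix2 ht1 hto hx hc hy htc
    have e2 : x = d := hyp.fix2 ht1' hto' hx hd (h1.trans hy) htd
    exact hcd (e1.symm.trans e2)
  · have hyo : t • x ≠ o := by
      intro h0
      apply hx
      exact smul_canc (g := t) (by rw [h0, hto])
    have h2 : t * t' = 1 := by
      apply hyp.s3 (t * t') o x (t • x) (Ne.symm hx) (Ne.symm hy) (Ne.symm hyo)
      · rw [mul_smul, hto', hto]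
      · rw [mul_smul]; exact hfix
      · rw [mul_smul, ← h1, sq_smul ht']
        exact h1.symm
    have h3 : t' = t := by
      have : t' = t⁻¹ := (inv_eq_of_mul_eq_one_right h2).symm
      rw [this, inv_of_sq ht]
    rw [h3] at htd
    exact hcd (hyp.fix2 ht1 hto hc hd htc htd)

theorem HypO.exists_inv (hyp : HypO G Ω o z e) : ∃ t : G, t * t = 1 ∧ t ≠ 1 ∧ t • o = o := by
  obtain ⟨t, h1, h2, h3⟩ := hyp.t3 o z e o e z hyp.oz hyp.oe hyp.ze hyp.oe hyp.oz (Ne.symm hyp.ze)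
  refine ⟨t, ?_, ?_, h1⟩
  · apply hyp.s3 (t * t) o z e hyp.oz hyp.ze hyp.oe
    · rw [mul_smul, h1, h1]
    · rw [mul_smul, h2, h3]
    · rw [mul_smul, h3, h2]
  · intro h
    rw [h, one_smul] at h2
    exact hyp.ze h2

variable [Finite Ω]

/-- an involution fixing `o` fixes exactly one more point -/
theorem HypO.inv_fix (hyp : HypO G Ω o z e) {t : G} (ht : t * t = 1) (ht1 : t ≠ 1)
    (hto : t • o = o) : ∃ c : Ω, c ≠ o ∧ t • c = c := by
  have hP : IsPGroup 2 (Subgroup.zpowers t) := by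
    apply IsPGroup.of_card (n := 1)
    rw [Nat.card_zpowers, pow_one]
    exact orderOf_eq_prime (by rw [pow_two]; exact ht) ht1
  have hmem : ∀ x : Ω, x ∈ MulAction.fixedPoints (Subgroup.zpowers t) Ω ↔ t • x = x := by
    intro x
    constructor
    · intro hx
      exact hx ⟨t, Subgroup.mem_zpowers t⟩
    · intro hx g
      obtain ⟨g, hg⟩ := g
      obtain ⟨n, rfl⟩ := Subgroup.mem_zpowers_iff.mp hg
      have h1 : t ∈ MulAction.stabilizer G x := hx
      have h2 : t ^ n ∈ MulAction.stabilizer G x := zpow_mem h1 n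
      exact h2
  have hc := hP.card_modEq_card_fixedPoints Ω
  have heven' : Even (Nat.card (MulAction.fixedPoints (Subgroup.zpowers t) Ω)) := by
    have hc' : Nat.card Ω % 2 = Nat.card (MulAction.fixedPoints (Subgroup.zpowers t) Ω) % 2 := hc
    have := hyp.even
    rw [Nat.even_iff] at this ⊢
    omega
  by_contra hcon
  have hcon' : ∀ c : Ω, c ≠ o → t • c ≠ c := fun c hc h => hcon ⟨c, hc, h⟩
  have hF : MulAction.fixedPoints (Subgroup.zpowers t) Ω = {o} := by
    apply Set.Subset.antisymm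
    · intro x hx
      by_contra hxo
      exact hcon' x hxo ((hmem x).mp hx)
    · intro x hx
      rw [Set.mem_singleton_iff.mp hx]
      exact (hmem o).mpr hto
  rw [hF, Nat.card_coe_set_eq, Set.ncard_singleton] at heven'
  exact absurd heven' (by decide)

theorem HypO.fpf_not_inv (hyp : HypO G Ω o z e) {t : G} (ht : t * t = 1) (ht1 : t ≠ 1)
    (hk : Fpf G o t) : False := by
  obtain ⟨c, hco, htc⟩ := hyp.inv_fix ht ht1 hk.1
  exact hk.2 c hco htc

/-- the family `u_x t` of fixed-point-free elements -/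
theorem HypO.fam (hyp : HypO G Ω o z e) {t : G} (ht : t * t = 1) (ht1 : t ≠ 1)
    (hto : t • o = o) {c : Ω} (hco : c ≠ o) (htc : t • c = c) (x : Ω) (hx : x ≠ o) (hxc : x ≠ c) :
    ∃ u : G, (u • o = o ∧ u * u = 1 ∧ u • c = x) ∧ Fpf G o (u * t) := by
  obtain ⟨u, h1, h2, h3⟩ := hyp.t3 o c x o x c (Ne.symm hco) (Ne.symm hx) (Ne.symm hxc)
    (Ne.symm hx) (Ne.symm hco) hxc
  have huu : u * u = 1 := by
    apply hyp.s3 (u * u) o c x (Ne.symm hco) (Ne.symm hxc) (Ne.symm hx)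
    · rw [mul_smul, h1, h1]
    · rw [mul_smul, h2, h3]
    · rw [mul_smul, h3, h2]
  have hu1 : u ≠ 1 := by
    intro h
    rw [h, one_smul] at h2
    exact hxc h2.symm
  obtain ⟨c', hc'o, huc'⟩ := hyp.inv_fix huu hu1 h1
  have hcc' : c' ≠ c := by
    intro h
    rw [h, h2] at huc'
    exact hxc huc'
  exact ⟨u, ⟨h1, huu, h2⟩, hyp.inv_mul_fpf huu hu1 h1 ht ht1 hto hc'o hco huc' htc hcc'⟩

variable [Finite G]

theorem HypO.count (hyp : HypO G Ω o z e) :
    Nat.card {k : ↥(MulAction.stabilizer G o) //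
        ∀ x : ↥(SubMulAction.ofStabilizer G o), k • x ≠ x} + 1 =
      Nat.card ↥(SubMulAction.ofStabilizer G o) := by
  have hXo : ∀ x : ↥(SubMulAction.ofStabilizer G o), (x : Ω) ≠ o := fun x => x.2
  haveI : MulAction.IsPretransitive ↥(MulAction.stabilizer G o)
      ↥(SubMulAction.ofStabilizer G o) := by
    refine ⟨fun x y => ?_⟩
    by_cases hxy : (x : Ω) = y
    · exact ⟨1, by rw [one_smul]; exact Subtype.ext hxy⟩
    · obtain ⟨g, h1, h2, -⟩ := hyp.t3 o x y o y x (Ne.symm (hXo x)) (Ne.symm (hXo y)) hxy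
        (Ne.symm (hXo y)) (Ne.symm (hXo x)) (Ne.symm hxy)
      exact ⟨⟨g, h1⟩, Subtype.ext h2⟩
  haveI : Nonempty ↥(SubMulAction.ofStabilizer G o) := ⟨⟨z, Ne.symm hyp.oz⟩⟩
  apply Cfsg.Agent.Lead.Derange.count_der
  intro k hk a b hab ha hb
  apply hk
  apply Subtype.ext
  have ha' : (k : G) • (a : Ω) = a := congrArg Subtype.val ha
  have hb' : (k : G) • (b : Ω) = b := congrArg Subtype.val hb
  exact hyp.s3 (k : G) o a b (Ne.symm (hXo a)) (fun h => hab (Subtype.ext h)) (Ne.symm (hXo b))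
    k.2 ha' hb'

/-- every fixed-point-free element is `u t` for an involution `u` -/
theorem HypO.enum (hyp : HypO G Ω o z e) {t : G} (ht : t * t = 1) (ht1 : t ≠ 1)
    (hto : t • o = o) {k : G} (hk : Fpf G o k) : ∃ u : G, u • o = o ∧ u * u = 1 ∧ k = u * t := by
  classical
  obtain ⟨c, hco, htc⟩ := hyp.inv_fix ht ht1 hto
  have hfam := hyp.fam ht ht1 hto hco htc
  choose u hu hfpf using hfam
  have hXo : ∀ x : ↥(SubMulAction.ofStabilizer G o), (x : Ω) ≠ o := fun x => x.2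
  have hder : ∀ (g : G) (hg : Fpf G o g) (x : ↥(SubMulAction.ofStabilizer G o)),
      (⟨g, hg.1⟩ : ↥(MulAction.stabilizer G o)) • x ≠ x := by
    intro g hg x hx
    exact hg.2 x (hXo x) (congrArg Subtype.val hx)
  obtain ⟨Φ, hΦ1, hΦ2⟩ : ∃ Φ : ↥(SubMulAction.ofStabilizer G o) →
      Option {k : ↥(MulAction.stabilizer G o) //
        ∀ x : ↥(SubMulAction.ofStabilizer G o), k • x ≠ x},
      (∀ x : ↥(SubMulAction.ofStabilizer G o), (x : Ω) = c → Φ x = none) ∧
      (∀ (x : ↥(SubMulAction.ofStabilizer G o)) (h : (x : Ω) ≠ c),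
        Φ x = some ⟨⟨u x (hXo x) h * t, (hfpf x (hXo x) h).1⟩, hder _ (hfpf x (hXo x) h)⟩) := by
    refine ⟨fun x => if h : (x : Ω) = c then none
      else some ⟨⟨u x (hXo x) h * t, (hfpf x (hXo x) h).1⟩, hder _ (hfpf x (hXo x) h)⟩, ?_, ?_⟩
    · intro x h
      exact dif_pos h
    · intro x h
      exact dif_neg h
  have hΦ : Function.Injective Φ := by
    intro x y hxy
    by_cases h1 : (x : Ω) = c
    · by_cases h2 : (y : Ω) = c
      · exact Subtype.ext (h1.trans h2.symm)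
      · rw [hΦ1 x h1, hΦ2 y h2] at hxy
        exact absurd hxy (by simp)
    · by_cases h2 : (y : Ω) = c
      · rw [hΦ2 x h1, hΦ1 y h2] at hxy
        exact absurd hxy (by simp)
      · rw [hΦ2 x h1, hΦ2 y h2] at hxy
        have e0 := Option.some.inj hxy
        have e1 : u x (hXo x) h1 * t = u y (hXo y) h2 * t :=
          congrArg (fun d : {k : ↥(MulAction.stabilizer G o) //
            ∀ x : ↥(SubMulAction.ofStabilizer G o), k • x ≠ x} =>
              ((d : ↥(MulAction.stabilizer G o)) : G)) e0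
        have e2 : u x (hXo x) h1 = u y (hXo y) h2 := mul_right_cancel e1
        apply Subtype.ext
        rw [← (hu x (hXo x) h1).2.2, ← (hu y (hXo y) h2).2.2, e2]
  have hbij : Function.Bijective Φ := by
    apply Function.Injective.bijective_of_nat_card_le hΦ
    exact le_of_eq (by rw [Finite.card_option, hyp.count])
  obtain ⟨x, hx⟩ := hbij.2 (some ⟨⟨k, hk.1⟩, hder k hk⟩)
  by_cases h : (x : Ω) = c
  · rw [hΦ1 x h] at hx
    exact absurd hx (by simp)
  · rw [hΦ2 x h] at hx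
    have e1 : u x (hXo x) h * t = k :=
      congrArg (fun d : {k : ↥(MulAction.stabilizer G o) //
        ∀ x : ↥(SubMulAction.ofStabilizer G o), k • x ≠ x} =>
          ((d : ↥(MulAction.stabilizer G o)) : G)) (Option.some.inj hx)
    exact ⟨u x (hXo x) h, (hu x (hXo x) h).1, (hu x (hXo x) h).2.1, e1.symm⟩

theorem HypO.inv_inverts (hyp : HypO G Ω o z e) {t : G} (ht : t * t = 1) (ht1 : t ≠ 1)
    (hto : t • o = o) {k : G} (hk : Fpf G o k) : t * k * t = k⁻¹ := by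
  obtain ⟨u, huo, huu, rfl⟩ := hyp.enum ht ht1 hto hk
  rw [mul_inv_rev, inv_of_sq ht, inv_of_sq huu]
  calc t * (u * t) * t = t * u * (t * t) := by group
    _ = t * u := by rw [ht, mul_one]

theorem HypO.exists_fpf (hyp : HypO G Ω o z e) : ∃ k : G, Fpf G o k := by
  obtain ⟨t, ht, ht1, hto⟩ := hyp.exists_inv
  obtain ⟨c, hco, htc⟩ := hyp.inv_fix ht ht1 hto
  by_cases hzc : z = c
  · have hec : e ≠ c := fun h => hyp.ze (hzc.trans h.symm)
    obtain ⟨u, -, hu⟩ := hyp.fam ht ht1 hto hco htc e (Ne.symm hyp.oe) hec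
    exact ⟨_, hu⟩
  · obtain ⟨u, -, hu⟩ := hyp.fam ht ht1 hto hco htc z (Ne.symm hyp.oz) hzc
    exact ⟨_, hu⟩

/-- the involution fixing `o` and `c` is unique -/
theorem HypO.inv_unique (hyp : HypO G Ω o z e) {t t' : G} (ht : t * t = 1) (ht1 : t ≠ 1)
    (hto : t • o = o) (ht' : t' * t' = 1) (ht1' : t' ≠ 1) (hto' : t' • o = o) {c : Ω}
    (hc : c ≠ o) (htc : t • c = c) (htc' : t' • c = c) : t = t' := by
  obtain ⟨k, hk⟩ := hyp.exists_fpf
  have e1 := hyp.inv_inverts ht ht1 hto hk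
  have e2 := hyp.inv_inverts ht' ht1' hto' hk
  have h1 : t' * k = k⁻¹ * t' := by
    rw [← e2]
    calc t' * k = t' * k * (t' * t') := by rw [ht', mul_one]
      _ = t' * k * t' * t' := by group
  have h2 : t * k⁻¹ = k * t := by
    rw [← e1]
    calc t * (t * k * t) = (t * t) * k * t := by group
      _ = k * t := by rw [ht, one_mul]
  have hcomm : t * t' * k = k * (t * t') := by
    calc t * t' * k = t * (t' * k) := mul_assoc _ _ _
      _ = t * (k⁻¹ * t') := by rw [h1]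
      _ = t * k⁻¹ * t' := (mul_assoc _ _ _).symm
      _ = k * t * t' := by rw [h2]
      _ = k * (t * t') := mul_assoc _ _ _
  have hkc : k • c ≠ c := hk.2 c hc
  have hkco : k • c ≠ o := fun h0 => hc (smul_canc (g := k) (by rw [h0, hk.1]))
  have h3 : t * t' = 1 := by
    apply hyp.s3 (t * t') o c (k • c) (Ne.symm hc) (Ne.symm hkc) (Ne.symm hkco)
    · rw [mul_smul, hto', hto]
    · rw [mul_smul, htc', htc]
    · rw [← mul_smul, hcomm, mul_smul, mul_smul, htc', htc]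
  calc t = t'⁻¹ := eq_inv_of_mul_eq_one_left h3
    _ = t' := inv_of_sq ht'

theorem HypO.fpf_mul (hyp : HypO G Ω o z e) {k k' : G} (hk : Fpf G o k) (hk' : Fpf G o k') :
    k * k' = 1 ∨ Fpf G o (k * k') := by
  obtain ⟨t, ht, ht1, hto⟩ := hyp.exists_inv
  obtain ⟨u, huo, huu, rfl⟩ := hyp.enum ht ht1 hto hk
  obtain ⟨u', huo', huu', hk''⟩ := hyp.enum ht ht1 hto (fpf_inv hk')
  have hk'eq : k' = t * u' := by
    have : k' = (u' * t)⁻¹ := by rw [← hk'', inv_inv]
    rw [this, mul_inv_rev, inv_of_sq ht, inv_of_sq huu']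
  subst hk'eq
  have hu1 : u ≠ 1 := by
    rintro rfl
    rw [one_mul] at hk
    exact hyp.fpf_not_inv ht ht1 hk
  have hu1' : u' ≠ 1 := by
    rintro rfl
    rw [mul_one] at hk'
    exact hyp.fpf_not_inv ht ht1 hk'
  have hprod : u * t * (t * u') = u * u' := by
    calc u * t * (t * u') = u * (t * t) * u' := by group
      _ = u * u' := by rw [ht, mul_one]
  rw [hprod]
  obtain ⟨c, hco, huc⟩ := hyp.inv_fix huu hu1 huo
  obtain ⟨c', hco', huc'⟩ := hyp.inv_fix huu' hu1' huo'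
  by_cases hcc : c = c'
  · left
    have : u = u' := hyp.inv_unique huu hu1 huo huu' hu1' huo' hco huc (by rw [hcc]; exact huc')
    rw [this]; exact huu'
  · right
    exact hyp.inv_mul_fpf huu hu1 huo huu' hu1' huo' hco hco' huc huc' hcc

/-- the translation group -/
def Kg (hyp : HypO G Ω o z e) : Subgroup G where
  carrier := {g | g = 1 ∨ Fpf G o g}
  mul_mem' := by
    rintro a b (rfl | ha) (rfl | hb)
    · left; rw [mul_one]
    · right; rw [one_mul]; exact hb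
    · right; rw [mul_one]; exact ha
    · exact hyp.fpf_mul ha hb
  one_mem' := Or.inl rfl
  inv_mem' := by
    rintro a (rfl | ha)
    · left; rw [inv_one]
    · right; exact fpf_inv ha

theorem mem_Kg (hyp : HypO G Ω o z e) (g : G) : g ∈ Kg hyp ↔ (g = 1 ∨ Fpf G o g) := Iff.rfl

theorem HypO.K_o (hyp : HypO G Ω o z e) {k : G} (hk : k ∈ Kg hyp) : k • o = o := by
  rcases (mem_Kg hyp k).mp hk with rfl | h
  · exact one_smul _ _
  · exact h.1

theorem HypO.K_fpf (hyp : HypO G Ω o z e) {k : G} (hk : k ∈ Kg hyp) (hk1 : k ≠ 1) {x : Ω}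
    (hx : x ≠ o) : k • x ≠ x := by
  rcases (mem_Kg hyp k).mp hk with rfl | h
  · exact absurd rfl hk1
  · exact h.2 x hx

theorem HypO.K_uniq (hyp : HypO G Ω o z e) {k k' : G} (hk : k ∈ Kg hyp) (hk' : k' ∈ Kg hyp)
    {x : Ω} (hx : x ≠ o) (h : k • x = k' • x) : k = k' := by
  by_contra hne
  have hmem : k'⁻¹ * k ∈ Kg hyp := (Kg hyp).mul_mem ((Kg hyp).inv_mem hk') hk
  have hne1 : k'⁻¹ * k ≠ 1 := fun h1 => hne (inv_mul_eq_one.mp h1).symm
  apply hyp.K_fpf hmem hne1 hx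
  rw [mul_smul, h, inv_smul_smul]

theorem HypO.K_conj (hyp : HypO G Ω o z e) {k : G} (hk : k ∈ Kg hyp) {h : G} (hh : h • o = o) :
    h * k * h⁻¹ ∈ Kg hyp := by
  rcases (mem_Kg hyp k).mp hk with rfl | hf
  · left; group
  · right; exact fpf_conj hf hh

theorem HypO.K_comm (hyp : HypO G Ω o z e) {k k' : G} (hk : k ∈ Kg hyp) (hk' : k' ∈ Kg hyp) :
    k * k' = k' * k := by
  obtain ⟨t, ht, ht1, hto⟩ := hyp.exists_inv
  have hinv : ∀ g ∈ Kg hyp, t * g * t = g⁻¹ := by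
    intro g hg
    rcases (mem_Kg hyp g).mp hg with rfl | hg
    · rw [mul_one, ht, inv_one]
    · exact hyp.inv_inverts ht ht1 hto hg
  exact comm_of_inv ht (hinv k hk) (hinv k' hk') (hinv _ ((Kg hyp).mul_mem hk hk'))

/-- `K` is transitive off `o` -/
theorem HypO.K_ex (hyp : HypO G Ω o z e) (x y : Ω) (hx : x ≠ o) (hy : y ≠ o) :
    ∃ k ∈ Kg hyp, k • x = y := by
  obtain ⟨t, ht, ht1, hto⟩ := hyp.exists_inv
  obtain ⟨c, hco, htc⟩ := hyp.inv_fix ht ht1 hto
  have key : ∀ w : Ω, w ≠ o → ∃ k ∈ Kg hyp, k • c = w := by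
    intro w hw
    by_cases hwc : w = c
    · exact ⟨1, (Kg hyp).one_mem, by rw [one_smul, hwc]⟩
    · obtain ⟨u, ⟨-, -, huc⟩, hu⟩ := hyp.fam ht ht1 hto hco htc w hw hwc
      exact ⟨u * t, Or.inr hu, by rw [mul_smul, htc, huc]⟩
  obtain ⟨k1, hk1, e1⟩ := key x hx
  obtain ⟨k2, hk2, e2⟩ := key y hy
  refine ⟨k2 * k1⁻¹, (Kg hyp).mul_mem hk2 ((Kg hyp).inv_mem hk1), ?_⟩
  rw [mul_smul, ← e1, inv_smul_smul, e2]

/-- the two-point stabiliser is transitive on the nonidentity elements of `K` -/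
theorem HypO.H_trans (hyp : HypO G Ω o z e) {k k' : G} (hk : k ∈ Kg hyp) (hk' : k' ∈ Kg hyp)
    (hk1 : k ≠ 1) (hk1' : k' ≠ 1) : ∃ h : G, h • o = o ∧ h • z = z ∧ h * k * h⁻¹ = k' := by
  have hzo : z ≠ o := Ne.symm hyp.oz
  have h1 : k • z ≠ z := hyp.K_fpf hk hk1 hzo
  have h2 : k' • z ≠ z := hyp.K_fpf hk' hk1' hzo
  have h3 : k • z ≠ o := fun h0 => hzo (smul_canc (g := k) (by rw [h0, hyp.K_o hk]))
  have h4 : k' • z ≠ o := fun h0 => hzo (smul_canc (g := k') (by rw [h0, hyp.K_o hk']))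
  obtain ⟨h, hh, hz, he⟩ := hyp.t3 o z (k • z) o z (k' • z) hyp.oz (Ne.symm h3) (Ne.symm h1)
    hyp.oz (Ne.symm h4) (Ne.symm h2)
  refine ⟨h, hh, hz, ?_⟩
  apply hyp.K_uniq (hyp.K_conj hk hh) hk' hzo
  rw [mul_smul, mul_smul, inv_smul_eq_iff.mpr hz.symm, he]

/-- the two-point stabiliser acts freely on the nonidentity elements of `K` -/
theorem HypO.H_free (hyp : HypO G Ω o z e) {k : G} (hk : k ∈ Kg hyp) (hk1 : k ≠ 1) {h : G}
    (hh : h • o = o) (hz : h • z = z) (hc : h * k * h⁻¹ = k) : h = 1 := by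
  have hzo : z ≠ o := Ne.symm hyp.oz
  have h1 : k • z ≠ z := hyp.K_fpf hk hk1 hzo
  have h3 : k • z ≠ o := fun h0 => hzo (smul_canc (g := k) (by rw [h0, hyp.K_o hk]))
  apply hyp.s3 h o z (k • z) hyp.oz (Ne.symm h1) (Ne.symm h3) hh hz
  have : h * k = k * h := by
    calc h * k = h * k * h⁻¹ * h := by group
      _ = k * h := by rw [hc]
  rw [← mul_smul, this, mul_smul, hz]

noncomputable instance Kg.commGroup (hyp : HypO G Ω o z e) : CommGroup ↥(Kg hyp) :=
  { (inferInstance : Group ↥(Kg hyp)) with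
    mul_comm := fun a b => Subtype.ext (hyp.K_comm a.2 b.2) }

/-- conjugation by an element fixing `o`, on `K` -/
def conjK (hyp : HypO G Ω o z e) (h : G) (hh : h • o = o) : ↥(Kg hyp) →* ↥(Kg hyp) where
  toFun k := ⟨h * k.1 * h⁻¹, hyp.K_conj k.2 hh⟩
  map_one' := by
    apply Subtype.ext
    show h * ((1 : ↥(Kg hyp)) : G) * h⁻¹ = ((1 : ↥(Kg hyp)) : G)
    rw [Subgroup.coe_one]
    group
  map_mul' a b := by
    apply Subtype.ext
    show h * ((a * b : ↥(Kg hyp)) : G) * h⁻¹ = (h * (a : G) * h⁻¹) * (h * (b : G) * h⁻¹)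
    rw [Subgroup.coe_mul]
    group

/-- the same as an additive endomorphism -/
noncomputable def cEnd (hyp : HypO G Ω o z e) (h : G) (hh : h • o = o) :
    AddMonoid.End (Additive ↥(Kg hyp)) :=
  MonoidHom.toAdditive (conjK hyp h hh)

/-- evaluation of an endomorphism, as an element of `G` -/
def evK (hyp : HypO G Ω o z e) (f : AddMonoid.End (Additive ↥(Kg hyp))) (k : ↥(Kg hyp)) : G :=
  ((Additive.toMul (f (Additive.ofMul k)) : ↥(Kg hyp)) : G)

theorem evK_mem (hyp : HypO G Ω o z e) (f : AddMonoid.End (Additive ↥(Kg hyp)))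
    (k : ↥(Kg hyp)) : evK hyp f k ∈ Kg hyp :=
  (Additive.toMul (f (Additive.ofMul k)) : ↥(Kg hyp)).2

theorem evK_add (hyp : HypO G Ω o z e) (f g : AddMonoid.End (Additive ↥(Kg hyp)))
    (k : ↥(Kg hyp)) : evK hyp (f + g) k = evK hyp f k * evK hyp g k := rfl

theorem evK_zero (hyp : HypO G Ω o z e) (k : ↥(Kg hyp)) : evK hyp 0 k = 1 := rfl

theorem evK_one (hyp : HypO G Ω o z e) (k : ↥(Kg hyp)) : evK hyp 1 k = k := rfl

theorem evK_cEnd (hyp : HypO G Ω o z e) (h : G) (hh : h • o = o) (k : ↥(Kg hyp)) :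
    evK hyp (cEnd hyp h hh) k = h * (k : G) * h⁻¹ := rfl

theorem evK_cEnd_mul (hyp : HypO G Ω o z e) (h : G) (hh : h • o = o)
    (f : AddMonoid.End (Additive ↥(Kg hyp))) (k : ↥(Kg hyp)) :
    evK hyp (cEnd hyp h hh * f) k = h * evK hyp f k * h⁻¹ := rfl

theorem end_ext (hyp : HypO G Ω o z e) {f g : AddMonoid.End (Additive ↥(Kg hyp))}
    (h : ∀ k : ↥(Kg hyp), evK hyp f k = evK hyp g k) : f = g := by
  apply AddMonoidHom.ext
  intro a
  exact Additive.toMul.injective (Subtype.ext (h (Additive.toMul a)))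

theorem evK_inj (hyp : HypO G Ω o z e) {f g : AddMonoid.End (Additive ↥(Kg hyp))}
    {k : ↥(Kg hyp)} (h : evK hyp f k = evK hyp g k) :
    f (Additive.ofMul k) = g (Additive.ofMul k) :=
  Additive.toMul.injective (Subtype.ext h)

theorem cEnd_congr (hyp : HypO G Ω o z e) {h h' : G} {hh : h • o = o} {hh' : h' • o = o}
    (e : h = h') : cEnd hyp h hh = cEnd hyp h' hh' := by
  subst e
  rfl

theorem cEnd_one (hyp : HypO G Ω o z e) : cEnd hyp 1 (one_smul _ _) = 1 := by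
  apply end_ext
  intro k
  rw [evK_cEnd, evK_one]
  group

theorem cEnd_mul (hyp : HypO G Ω o z e) (h : G) (hh : h • o = o) (h' : G) (hh' : h' • o = o) :
    cEnd hyp h hh * cEnd hyp h' hh' = cEnd hyp (h * h') (by rw [mul_smul, hh', hh]) := by
  apply end_ext
  intro k
  rw [evK_cEnd_mul, evK_cEnd, evK_cEnd]
  group

end

end Cfsg.Agent.Helper6.Sharp3o
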