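import Mathlib
import Cfsg.Agent.Lead.Schur1

set_option autoImplicit false

namespace Cfsg.Agent.Helper6.Sharp3o

/-- a field from a family of endomorphisms acting regularly on the nonzero elements, with a
commutative irreducible normal subfamily of index two (odd exponent) -/
theorem field_of_half {A : Type*} [AddCommGroup A] [Finite A] (p f : ℕ) (hp : p.Prime)
    (hf : Odd f) (hA : Nat.card A = p ^ f)
    (T T₀ : Set (AddMonoid.End A)) (e : A) (he : e ≠ 0)
    (t1 : (1 : AddMonoid.End A) ∈ T)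
    (t4 : ∀ x ∈ T, ∃ y ∈ T, x * y = 1 ∧ y * x = 1)
    (t5 : ∀ a : A, a ≠ 0 → ∃ x ∈ T, x e = a)
    (t7 : ∀ x ∈ T, x e ≠ 0)
    (hc : ∀ x ∈ T₀, ∀ y ∈ T₀, x * y = y * x)
    (hirr : ∀ W : AddSubgroup A, (∃ a ∈ W, a ≠ 0) → (∀ x ∈ T₀, ∀ w ∈ W, x w ∈ W) → W = ⊤)
    (hnorm : ∀ g ∈ T, ∀ x ∈ T₀, ∃ y ∈ T₀, g * x = y * g)
    (hsq : ∀ g ∈ T, g * g ∈ T₀) :
    ∃ R : Subring (AddMonoid.End A), IsField R ∧
      (∀ r : AddMonoid.End A, r ∈ R ↔ r = 0 ∨ r ∈ T) := by
  classical
  obtain ⟨R, hRdef⟩ : ∃ R : Subring (AddMonoid.End A), R = Subring.closure T₀ := ⟨_, rfl⟩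
  have hT₀R : ∀ x ∈ T₀, x ∈ R := fun x hx => by rw [hRdef]; exact Subring.subset_closure hx
  have hRc : ∀ x ∈ R, ∀ y ∈ R, x * y = y * x := by
    intro x hx y hy
    rw [hRdef] at hx hy
    have := (Subring.closureCommRingOfComm hc).mul_comm ⟨x, hx⟩ ⟨y, hy⟩
    exact congrArg Subtype.val this
  -- evaluation is surjective
  have hsurj : ∀ a : A, ∃ r ∈ R, r e = a := by
    obtain ⟨W, hWmem⟩ : ∃ W : AddSubgroup A, ∀ a, a ∈ W ↔ ∃ r ∈ R, r e = a :=
      ⟨{ carrier := {a | ∃ r ∈ R, r e = a}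
         add_mem' := by
           rintro a b ⟨r, hr, rfl⟩ ⟨r', hr', rfl⟩
           exact ⟨r + r', R.add_mem hr hr', rfl⟩
         zero_mem' := ⟨0, R.zero_mem, rfl⟩
         neg_mem' := by
           rintro a ⟨r, hr, rfl⟩
           exact ⟨-r, R.neg_mem hr, rfl⟩ }, fun a => Iff.rfl⟩
    have hW : W = ⊤ := by
      apply hirr W ⟨e, (hWmem e).mpr ⟨1, R.one_mem, rfl⟩, he⟩
      intro x hx w hw
      obtain ⟨r, hr, rfl⟩ := (hWmem w).mp hw
      exact (hWmem _).mpr ⟨x * r, R.mul_mem (hT₀R x hx) hr, rfl⟩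
    intro a
    have : a ∈ W := by rw [hW]; exact AddSubgroup.mem_top a
    exact (hWmem a).mp this
  -- evaluation is injective
  have hinj0 : ∀ r ∈ R, r e = 0 → r = 0 := by
    intro r hr h
    apply AddMonoidHom.ext
    intro a
    obtain ⟨r', hr', rfl⟩ := hsurj a
    have h1 : r (r' e) = r' (r e) := congrArg (fun g : AddMonoid.End A => g e) (hRc r hr r' hr')
    show r (r' e) = 0
    rw [h1, h, map_zero]
  have hinj : ∀ r ∈ R, ∀ r' ∈ R, r e = r' e → r = r' := by
    intro r hr r' hr' h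
    have h1 : (r - r') e = 0 := by
      show r e - r' e = 0
      rw [h, sub_self]
    exact sub_eq_zero.mp (hinj0 (r - r') (R.sub_mem hr hr') h1)
  -- no zero divisors
  have hdom : ∀ x ∈ R, ∀ y ∈ R, x * y = 0 → x = 0 ∨ y = 0 := by
    intro x hx y hy hxy
    by_cases hy0 : y = 0
    · exact Or.inr hy0
    · left
      have hye : y e ≠ 0 := fun h => hy0 (hinj0 y hy h)
      obtain ⟨W, hWmem⟩ : ∃ W : AddSubgroup A, ∀ a, a ∈ W ↔ x a = 0 :=
        ⟨{ carrier := {a | x a = 0}
           add_mem' := fun {a b} (ha : x a = 0) (hb : x b = 0) =>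
             show x (a + b) = 0 by rw [map_add, ha, hb, add_zero]
           zero_mem' := map_zero x
           neg_mem' := fun {a} (ha : x a = 0) =>
             show x (-a) = 0 by rw [map_neg, ha, neg_zero] }, fun a => Iff.rfl⟩
      have hW : W = ⊤ := by
        apply hirr W ⟨y e, (hWmem _).mpr (congrArg (fun g : AddMonoid.End A => g e) hxy), hye⟩
        intro t ht w hw
        rw [hWmem] at hw ⊢
        have h1 : x (t w) = t (x w) :=
          congrArg (fun g : AddMonoid.End A => g w) (hRc x hx t (hT₀R t ht))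
        rw [h1, hw, map_zero]
      apply AddMonoidHom.ext
      intro a
      have : a ∈ W := by rw [hW]; exact AddSubgroup.mem_top a
      exact (hWmem a).mp this
  -- elements of T normalise R
  have hnormR : ∀ g ∈ T, ∀ r ∈ R, ∃ r' ∈ R, g * r = r' * g := by
    intro g hg r hr
    rw [hRdef] at hr
    induction hr using Subring.closure_induction with
    | mem x hx =>
      obtain ⟨y, hy, hxy⟩ := hnorm g hg x hx
      exact ⟨y, hT₀R y hy, hxy⟩
    | zero => exact ⟨0, R.zero_mem, by rw [mul_zero, zero_mul]⟩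
    | one => exact ⟨1, R.one_mem, by rw [mul_one, one_mul]⟩
    | add x y _ _ hx hy =>
      obtain ⟨x', hx', ex⟩ := hx
      obtain ⟨y', hy', ey⟩ := hy
      exact ⟨x' + y', R.add_mem hx' hy', by rw [mul_add, add_mul, ex, ey]⟩
    | neg x _ hx =>
      obtain ⟨x', hx', ex⟩ := hx
      exact ⟨-x', R.neg_mem hx', by rw [mul_neg, neg_mul, ex]⟩
    | mul x y _ _ hx hy =>
      obtain ⟨x', hx', ex⟩ := hx
      obtain ⟨y', hy', ey⟩ := hy
      exact ⟨x' * y', R.mul_mem hx' hy', by rw [← mul_assoc, ex, mul_assoc, ey, mul_assoc]⟩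
  haveI : Nontrivial ↥R := ⟨⟨0, 1, fun h => he (by
    have h1 : (0 : AddMonoid.End A) = 1 := congrArg Subtype.val h
    have h2 : (0 : AddMonoid.End A) e = (1 : AddMonoid.End A) e :=
      congrArg (fun g : AddMonoid.End A => g e) h1
    exact h2.symm)⟩⟩
  haveI : NoZeroDivisors ↥R := ⟨fun {a b} hab => by
    rcases hdom a.1 a.2 b.1 b.2 (congrArg Subtype.val hab) with h | h
    · exact Or.inl (Subtype.ext h)
    · exact Or.inr (Subtype.ext h)⟩
  haveI : IsDomain ↥R := NoZeroDivisors.to_isDomain _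
  haveI : Finite ↥R := Finite.of_injective (fun r : ↥R => r.1 e)
    (fun r r' h => Subtype.ext (hinj r.1 r.2 r'.1 r'.2 h))
  have hcardR : Nat.card ↥R = p ^ f := by
    rw [← hA]
    apply Nat.card_eq_of_bijective (fun r : ↥R => r.1 e)
    exact ⟨fun r r' h => Subtype.ext (hinj r.1 r.2 r'.1 r'.2 h), fun a => by
      obtain ⟨r, hr, hra⟩ := hsurj a
      exact ⟨⟨r, hr⟩, hra⟩⟩
  -- T is contained in R
  have hTR : ∀ g ∈ T, g ∈ R := by
    intro g hg
    obtain ⟨gi, hgi, hggi, hgig⟩ := t4 g hg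
    have hconj : ∀ r ∈ R, g * r * gi ∈ R := by
      intro r hr
      obtain ⟨r', hr', e1⟩ := hnormR g hg r hr
      rw [e1, mul_assoc, hggi, mul_one]
      exact hr'
    have hsqc : ∀ r ∈ R, g * (g * r * gi) * gi = r := by
      intro r hr
      have h1 : g * g * r = r * (g * g) := hRc _ (hT₀R _ (hsq g hg)) r hr
      calc g * (g * r * gi) * gi = (g * g * r) * gi * gi := by simp only [mul_assoc]
        _ = r * (g * g) * gi * gi := by rw [h1]
        _ = r * (g * (g * gi) * gi) := by simp only [mul_assoc]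
        _ = r := by rw [hggi, mul_one, hggi, mul_one]
    obtain ⟨θ, hθ⟩ : ∃ θ : ↥R ≃+* ↥R, ∀ r : ↥R, (θ r).1 = g * r.1 * gi :=
      ⟨{ toFun := fun r => ⟨g * r.1 * gi, hconj r.1 r.2⟩
         invFun := fun r => ⟨g * r.1 * gi, hconj r.1 r.2⟩
         left_inv := fun r => Subtype.ext (hsqc r.1 r.2)
         right_inv := fun r => Subtype.ext (hsqc r.1 r.2)
         map_mul' := fun r r' => Subtype.ext (by
           show g * (r.1 * r'.1) * gi = (g * r.1 * gi) * (g * r'.1 * gi)
           calc g * (r.1 * r'.1) * gi = g * r.1 * 1 * r'.1 * gi := by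
                 rw [mul_one]; simp only [mul_assoc]
             _ = g * r.1 * (gi * g) * r'.1 * gi := by rw [hgig]
             _ = (g * r.1 * gi) * (g * r'.1 * gi) := by simp only [mul_assoc])
         map_add' := fun r r' => Subtype.ext (by
           show g * (r.1 + r'.1) * gi = g * r.1 * gi + g * r'.1 * gi
           rw [mul_add, add_mul]) }, fun r => rfl⟩
    have hord1 := Cfsg.Agent.Lead.Schur1.artin_dvd_dom θ p f hp hcardR
    have hθ2 : θ ^ 2 = 1 := by
      rw [pow_two]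
      apply RingEquiv.ext
      intro r
      apply Subtype.ext
      show (θ (θ r)).1 = r.1
      rw [hθ, hθ]
      exact hsqc r.1 r.2
    have hord2 : orderOf θ ∣ 2 := orderOf_dvd_of_pow_eq_one hθ2
    have hord : orderOf θ = 1 := by
      have h := Nat.dvd_gcd hord2 hord1
      have hcop : Nat.gcd 2 f = 1 := Nat.coprime_two_left.mpr hf
      rw [hcop] at h
      exact Nat.dvd_one.mp h
    have hθ1 : θ = 1 := orderOf_eq_one_iff.mp hord
    have hgc : ∀ r ∈ R, g * r = r * g := by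
      intro r hr
      have h1 : θ ⟨r, hr⟩ = ⟨r, hr⟩ := by rw [hθ1]; rfl
      have h2 : g * r * gi = r := by
        have h3 := hθ ⟨r, hr⟩
        rw [h1] at h3
        exact h3.symm
      calc g * r = g * r * (gi * g) := by rw [hgig, mul_one]
        _ = (g * r * gi) * g := by simp only [mul_assoc]
        _ = r * g := by rw [h2]
    obtain ⟨r, hr, hre⟩ := hsurj (g e)
    have hgr : g = r := by
      apply AddMonoidHom.ext
      intro a
      obtain ⟨r', hr', rfl⟩ := hsurj a
      have e1 : g (r' e) = r' (g e) := congrArg (fun x : AddMonoid.End A => x e) (hgc r' hr')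
      have e2 : r (r' e) = r' (r e) := congrArg (fun x : AddMonoid.End A => x e) (hRc r hr r' hr')
      show g (r' e) = r (r' e)
      rw [e1, e2, hre]
    rw [hgr]; exact hr
  have hRT : ∀ r ∈ R, r ≠ 0 → r ∈ T := by
    intro r hr hr0
    have hre : r e ≠ 0 := fun h => hr0 (hinj0 r hr h)
    obtain ⟨x, hx, hxe⟩ := t5 _ hre
    have : x = r := hinj x (hTR x hx) r hr hxe
    rw [← this]; exact hx
  have hT0 : ∀ x ∈ T, x ≠ 0 := by
    intro x hx h
    apply t7 x hx
    rw [h]; rfl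
  refine ⟨R, ⟨⟨0, 1, ?_⟩, ?_, ?_⟩, ?_⟩
  · intro h
    have : (0 : AddMonoid.End A) = 1 := congrArg Subtype.val h
    exact hT0 1 t1 this.symm
  · rintro ⟨a, ha⟩ ⟨b, hb⟩
    exact Subtype.ext (hRc a ha b hb)
  · rintro ⟨a, ha⟩ hane
    have ha0 : a ≠ 0 := fun h => hane (Subtype.ext h)
    obtain ⟨y, hy, hay, -⟩ := t4 a (hRT a ha ha0)
    exact ⟨⟨y, hTR y hy⟩, Subtype.ext hay⟩
  · intro r
    constructor
    · intro hr
      by_cases h : r = 0
      · exact Or.inl h
      · exact Or.inr (hRT r hr h)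
    · rintro (rfl | hr)
      · exact R.zero_mem
      · exact hTR r hr

end Cfsg.Agent.Helper6.Sharp3o
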