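import Mathlib
import Cfsg.Agent.S0266

set_option autoImplicit false

namespace Cfsg.Agent.Helper6.Sharp3o

/-- the final identification: a group acting sharply on `{o} ∪ pt(R)` with translations,
dilations and the inversion is `PGL₂(R)`. -/
theorem final_odd {G : Type*} [Group G] {Ω : Type*} [MulAction G Ω]
    {R : Type*} [Field R]
    (h3s : ∀ g : G, ∀ a b c : Ω, a ≠ b → b ≠ c → a ≠ c → g • a = a → g • b = b → g • c = c →
      g = 1)
    (o : Ω) (pt : R → Ω) (hpt_inj : Function.Injective pt) (hpt_o : ∀ r, pt r ≠ o)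
    (hpt_surj : ∀ x : Ω, x ≠ o → ∃ r, pt r = x)
    (tr : R → G) (htr_o : ∀ b, tr b • o = o) (htr : ∀ b x, tr b • pt x = pt (x + b))
    (dl : R → G) (hdl_o : ∀ a, a ≠ 0 → dl a • o = o)
    (hdl : ∀ a x, a ≠ 0 → dl a • pt x = pt (a * x))
    (s : G) (hs_o : s • o = pt 0) (hs_0 : s • pt 0 = o)
    (hs : ∀ x, x ≠ 0 → s • pt x = pt x⁻¹) :
    Nonempty (G ≃* Matrix.ProjGenLinGroup (Fin 2) R) := by
  classical
  obtain ⟨β, hβ⟩ : ∃ β : Projectivization R (Fin 2 → R) → Ω,
      ∀ (v : Fin 2 → R) (hv : v ≠ 0),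
        β (Projectivization.mk R v hv) = if v 1 = 0 then o else pt (v 0 / v 1) := by
    have hf : ∀ (a b : {v : Fin 2 → R // v ≠ 0}) (t : R), (a : Fin 2 → R) = t • (b : Fin 2 → R) →
        (if a.1 1 = 0 then o else pt (a.1 0 / a.1 1)) =
          (if b.1 1 = 0 then o else pt (b.1 0 / b.1 1)) := by
      rintro ⟨a, ha⟩ ⟨b, hb⟩ t hab
      have hab' : a = t • b := hab
      have ht : t ≠ 0 := by
        rintro rfl
        apply ha
        rw [hab', zero_smul]
      have h0 : a 0 = t * b 0 := by rw [hab']; rfl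
      have h1 : a 1 = t * b 1 := by rw [hab']; rfl
      show (if a 1 = 0 then o else pt (a 0 / a 1)) = (if b 1 = 0 then o else pt (b 0 / b 1))
      by_cases hb1 : b 1 = 0
      · rw [if_pos hb1, if_pos (by rw [h1, hb1, mul_zero])]
      · rw [if_neg hb1, if_neg (by rw [h1]; exact mul_ne_zero ht hb1), h0, h1,
          mul_div_mul_left _ _ ht]
    exact ⟨Projectivization.lift
      (fun a : {v : Fin 2 → R // v ≠ 0} => if a.1 1 = 0 then o else pt (a.1 0 / a.1 1)) hf,
      fun v hv => rfl⟩
  have hβxy : ∀ (x y : R) (h : (![x, y] : Fin 2 → R) ≠ 0),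
      β (Projectivization.mk R ![x, y] h) = if y = 0 then o else pt (x / y) := by
    intro x y h
    rw [hβ]
    simp
  have ne10 : (![1, 0] : Fin 2 → R) ≠ 0 := Cfsg.Agent.Helper1.ProjLine.e0_ne
  have ne01 : (![0, 1] : Fin 2 → R) ≠ 0 := Cfsg.Agent.Helper1.ProjLine.e1_ne
  have ne11 : (![1, 1] : Fin 2 → R) ≠ 0 := Cfsg.Agent.Helper1.ProjLine.e2_ne
  have hE0 : β (Cfsg.Agent.Helper1.ProjLine.E0 R) = o := by
    show β (Projectivization.mk R ![1, 0] _) = o
    rw [hβxy, if_pos rfl]
  have hE1 : β (Cfsg.Agent.Helper1.ProjLine.E1 R) = pt 0 := by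
    show β (Projectivization.mk R ![0, 1] _) = pt 0
    rw [hβxy, if_neg one_ne_zero, zero_div]
  have hE2 : β (Cfsg.Agent.Helper1.ProjLine.E2 R) = pt 1 := by
    show β (Projectivization.mk R ![1, 1] _) = pt 1
    rw [hβxy, if_neg one_ne_zero, div_one]
  have hvne : ∀ (v : Fin 2 → R), v ≠ 0 → v 1 = 0 → v 0 ≠ 0 := by
    intro v hv hv1 h0
    apply hv
    funext i
    fin_cases i
    · exact h0
    · exact hv1
  have hβinj : Function.Injective β := by
    intro P Q hPQ
    induction P using Projectivization.ind with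
    | h v hv =>
    induction Q using Projectivization.ind with
    | h w hw =>
    rw [hβ, hβ] at hPQ
    rw [Projectivization.mk_eq_mk_iff']
    by_cases hv1 : v 1 = 0
    · by_cases hw1 : w 1 = 0
      · have hw0 : w 0 ≠ 0 := hvne w hw hw1
        refine ⟨v 0 / w 0, ?_⟩
        funext i
        fin_cases i
        · show v 0 / w 0 * w 0 = v 0
          exact div_mul_cancel₀ _ hw0
        · show v 0 / w 0 * w 1 = v 1
          rw [hw1, hv1, mul_zero]
      · rw [if_pos hv1, if_neg hw1] at hPQ
        exact absurd hPQ.symm (hpt_o _)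
    · by_cases hw1 : w 1 = 0
      · rw [if_neg hv1, if_pos hw1] at hPQ
        exact absurd hPQ (hpt_o _)
      · rw [if_neg hv1, if_neg hw1] at hPQ
        have h := (div_eq_div_iff hv1 hw1).mp (hpt_inj hPQ)
        refine ⟨v 1 / w 1, ?_⟩
        funext i
        fin_cases i
        · show v 1 / w 1 * w 0 = v 0
          rw [div_mul_eq_mul_div, div_eq_iff hw1]
          linear_combination -h
        · show v 1 / w 1 * w 1 = v 1
          exact div_mul_cancel₀ _ hw1
  have h01 : pt 0 ≠ pt 1 := fun h => zero_ne_one (hpt_inj h)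
  have huniq : ∀ g g' : G, (∀ p, g • β p = g' • β p) → g = g' := by
    intro g g' h
    have key : g'⁻¹ * g = 1 := by
      apply h3s (g'⁻¹ * g) o (pt 0) (pt 1) (hpt_o 0).symm h01 (hpt_o 1).symm
      · rw [mul_smul, ← hE0, h, inv_smul_smul]
      · rw [mul_smul, ← hE1, h, inv_smul_smul]
      · rw [mul_smul, ← hE2, h, inv_smul_smul]
    exact (inv_mul_eq_one.mp key).symm
  have hall : ∀ γ : Matrix.ProjGenLinGroup (Fin 2) R, ∃ g : G, ∀ p, β (γ • p) = g • β p := by
    intro γ
    induction γ using Matrix.ProjGenLinGroup.induction_on with | mk M =>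
    obtain ⟨a, b, c, d, hM⟩ : ∃ a b c d : R,
        (M : Matrix (Fin 2) (Fin 2) R) = !![a, b; c, d] :=
      ⟨M 0 0, M 0 1, M 1 0, M 1 1, Matrix.eta_fin_two _⟩
    have hdet : a * d - b * c ≠ 0 := by
      have h := ((Matrix.isUnit_iff_isUnit_det _).mp M.isUnit).ne_zero
      rw [hM, Matrix.det_fin_two_of] at h
      exact h
    have hmv0 : ∀ v : Fin 2 → R,
        ((M : Matrix (Fin 2) (Fin 2) R).mulVec v) 0 = a * v 0 + b * v 1 := by
      intro v
      rw [hM]
      simp [Matrix.mulVec, dotProduct, Fin.sum_univ_two]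
    have hmv1 : ∀ v : Fin 2 → R,
        ((M : Matrix (Fin 2) (Fin 2) R).mulVec v) 1 = c * v 0 + d * v 1 := by
      intro v
      rw [hM]
      simp [Matrix.mulVec, dotProduct, Fin.sum_univ_two]
    have hact : ∀ (v : Fin 2 → R) (hv : v ≠ 0),
        β ((Matrix.ProjGenLinGroup.mk M) • Projectivization.mk R v hv) =
          if c * v 0 + d * v 1 = 0 then o
          else pt ((a * v 0 + b * v 1) / (c * v 0 + d * v 1)) := by
      intro v hv
      have h1 : (Matrix.ProjGenLinGroup.mk M) • Projectivization.mk R v hv =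
          Projectivization.mk R ((M : Matrix (Fin 2) (Fin 2) R).mulVec v)
            ((smul_ne_zero_iff_ne M).mpr hv) := rfl
      rw [h1, hβ, hmv0, hmv1]
    by_cases hc : c = 0
    · have hd : d ≠ 0 := by
        rintro rfl
        apply hdet
        rw [hc]; ring
      have ha : a ≠ 0 := by
        rintro rfl
        apply hdet
        rw [hc]; ring
      refine ⟨tr (b / d) * dl (a / d), fun p => ?_⟩
      induction p using Projectivization.ind with
      | h v hv =>
        rw [hact, hβ, hc, zero_mul, zero_add]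
        by_cases hv1 : v 1 = 0
        · rw [if_pos hv1, if_pos (by rw [hv1, mul_zero]), mul_smul, hdl_o _ (div_ne_zero ha hd),
            htr_o]
        · rw [if_neg hv1, if_neg (mul_ne_zero hd hv1), mul_smul, hdl _ _ (div_ne_zero ha hd), htr]
          congr 1
          field_simp
    · have hδ : (b * c - a * d) / c ^ 2 ≠ 0 := by
        apply div_ne_zero
        · intro h
          apply hdet
          linear_combination -h
        · exact pow_ne_zero 2 hc
      refine ⟨tr (a / c) * dl ((b * c - a * d) / c ^ 2) * s * tr (d / c), fun p => ?_⟩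
      induction p using Projectivization.ind with
      | h v hv =>
        rw [hact, hβ]
        by_cases hv1 : v 1 = 0
        · have hv0 : v 0 ≠ 0 := hvne v hv hv1
          rw [if_pos hv1, hv1, mul_zero, add_zero, mul_zero, add_zero,
            if_neg (mul_ne_zero hc hv0), mul_smul, mul_smul, mul_smul, htr_o, hs_o,
            hdl _ _ hδ, htr, mul_zero, zero_add]
          congr 1
          field_simp
        · rw [if_neg hv1, mul_smul, mul_smul, mul_smul, htr]
          have hsum : v 0 / v 1 + d / c = (c * v 0 + d * v 1) / (v 1 * c) := by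
            rw [div_add_div _ _ hv1 hc]
            congr 1
            ring
          by_cases hden : c * v 0 + d * v 1 = 0
          · have hx : v 0 / v 1 + d / c = 0 := by rw [hsum, hden, zero_div]
            rw [if_pos hden, hx, hs_0, hdl_o _ hδ, htr_o]
          · have hx : v 0 / v 1 + d / c ≠ 0 := by
              rw [hsum]
              exact div_ne_zero hden (mul_ne_zero hv1 hc)
            rw [if_neg hden, hs _ hx, hdl _ _ hδ, htr]
            congr 1
            rw [hsum, inv_div, div_mul_div_comm,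
              div_add_div _ _ (mul_ne_zero (pow_ne_zero 2 hc) hden) hc,
              div_eq_div_iff hden (mul_ne_zero (mul_ne_zero (pow_ne_zero 2 hc) hden) hc)]
            ring
  choose φ hφ using hall
  have hmul : ∀ γ γ', φ (γ * γ') = φ γ * φ γ' := by
    intro γ γ'
    apply huniq
    intro p
    calc φ (γ * γ') • β p = β ((γ * γ') • p) := (hφ _ _).symm
      _ = β (γ • γ' • p) := by rw [mul_smul]
      _ = φ γ • β (γ' • p) := hφ _ _
      _ = φ γ • φ γ' • β p := by rw [hφ]
      _ = (φ γ * φ γ') • β p := (mul_smul _ _ _).symm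
  have hinj : ∀ γ, φ γ = 1 → γ = 1 := by
    intro γ hγ
    have hfix : ∀ p : Projectivization R (Fin 2 → R), γ • p = p := by
      intro p
      apply hβinj
      rw [hφ, hγ, one_smul]
    exact Cfsg.Agent.S0266.fix_frame γ (hfix _) (hfix _) (hfix _)
  have hβsurj : ∀ x : Ω, ∃ p, β p = x := by
    intro x
    by_cases hx : x = o
    · exact ⟨_, hx ▸ hE0⟩
    · obtain ⟨r, hr⟩ := hpt_surj x hx
      have hne : (![r, 1] : Fin 2 → R) ≠ 0 := by
        intro h
        have := congrFun h 1
        simp at this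
      exact ⟨Projectivization.mk R ![r, 1] hne, by
        rw [hβxy, if_neg one_ne_zero, div_one]; exact hr⟩
  have hsurj : ∀ g : G, ∃ γ, φ γ = g := by
    intro g
    obtain ⟨q0, hq0⟩ := hβsurj (g • o)
    obtain ⟨q1, hq1⟩ := hβsurj (g • pt 0)
    obtain ⟨q2, hq2⟩ := hβsurj (g • pt 1)
    have hq01 : q0 ≠ q1 := by
      intro h
      have : g • o = g • pt 0 := by rw [← hq0, ← hq1, h]
      exact (hpt_o 0).symm (MulAction.injective g this)
    have hq02 : q0 ≠ q2 := by
      intro h
      have : g • o = g • pt 1 := by rw [← hq0, ← hq2, h]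
      exact (hpt_o 1).symm (MulAction.injective g this)
    have hq12 : q1 ≠ q2 := by
      intro h
      have : g • pt 0 = g • pt 1 := by rw [← hq1, ← hq2, h]
      exact h01 (MulAction.injective g this)
    obtain ⟨γ, h0, h1, h2'⟩ := Cfsg.Agent.S0266.key q0 q1 q2 hq01 hq02 hq12
    refine ⟨γ, ?_⟩
    have a0 : φ γ • o = g • o := by
      calc φ γ • o = φ γ • β (Cfsg.Agent.Helper1.ProjLine.E0 R) := by rw [hE0]
        _ = β (γ • Cfsg.Agent.Helper1.ProjLine.E0 R) := (hφ γ _).symm
        _ = g • o := by rw [h0, hq0]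
    have a1 : φ γ • pt 0 = g • pt 0 := by
      calc φ γ • pt 0 = φ γ • β (Cfsg.Agent.Helper1.ProjLine.E1 R) := by rw [hE1]
        _ = β (γ • Cfsg.Agent.Helper1.ProjLine.E1 R) := (hφ γ _).symm
        _ = g • pt 0 := by rw [h1, hq1]
    have a2 : φ γ • pt 1 = g • pt 1 := by
      calc φ γ • pt 1 = φ γ • β (Cfsg.Agent.Helper1.ProjLine.E2 R) := by rw [hE2]
        _ = β (γ • Cfsg.Agent.Helper1.ProjLine.E2 R) := (hφ γ _).symm
        _ = g • pt 1 := by rw [h2', hq2]
    have key : g⁻¹ * φ γ = 1 := by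
      apply h3s (g⁻¹ * φ γ) o (pt 0) (pt 1) (hpt_o 0).symm h01 (hpt_o 1).symm
      · rw [mul_smul, a0, inv_smul_smul]
      · rw [mul_smul, a1, inv_smul_smul]
      · rw [mul_smul, a2, inv_smul_smul]
    exact (inv_mul_eq_one.mp key).symm
  let Φ : Matrix.ProjGenLinGroup (Fin 2) R →* G := MonoidHom.mk' φ hmul
  have hΦinj : Function.Injective Φ := by
    rw [injective_iff_map_eq_one]
    intro γ hγ
    exact hinj γ hγ
  exact ⟨(MulEquiv.ofBijective Φ ⟨hΦinj, hsurj⟩).symm⟩

end Cfsg.Agent.Helper6.Sharp3o
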