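import Mathlib
import Cfsg.Agent.Helper6.Sharp3d
import Cfsg.Agent.Helper6.Sharp3e
import Cfsg.Agent.Helper6.Sharp3f

set_option autoImplicit false

namespace Cfsg.Agent.Helper6.Sharp3o

theorem odd_cofactor (r : ℕ) (j : ℕ) :
    ∃ c₀ : ℕ, Odd c₀ ∧ (2 * r + 1) ^ (2 * j + 1) = 2 * r * c₀ + 1 := by
  induction j with
  | zero => exact ⟨1, odd_one, by ring⟩
  | succ j ih =>
    obtain ⟨c₀, hc₀, h⟩ := ih
    refine ⟨(2 * r + 1) ^ 2 * c₀ + (2 * r + 2), ?_, ?_⟩
    · exact Odd.add_even (Odd.mul (Odd.pow ⟨r, rfl⟩) hc₀) ⟨r + 1, by ring⟩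
    · calc (2 * r + 1) ^ (2 * (j + 1) + 1)
          = (2 * r + 1) ^ 2 * (2 * r + 1) ^ (2 * j + 1) := by ring
        _ = (2 * r + 1) ^ 2 * (2 * r * c₀ + 1) := by rw [h]
        _ = 2 * r * ((2 * r + 1) ^ 2 * c₀ + (2 * r + 2)) + 1 := by ring

/-- the sign of a permutation fixing two points and acting semiregularly elsewhere -/
theorem sign_semireg {α : Type*} [Fintype α] [DecidableEq α] (π : Equiv.Perm α) (o z : α)
    (hoz : o ≠ z) (ho : π o = o) (hz : π z = z)
    (hsemi : ∀ (n : ℕ) (x : α), x ≠ o → x ≠ z → (π ^ n) x = x → π ^ n = 1)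
    (r j : ℕ) (hr : 0 < r) (hcard : Fintype.card α = (2 * r + 1) ^ (2 * j + 1) + 1)
    (hdvd : 2 * r ∣ orderOf π) : Equiv.Perm.sign π = -1 := by
  have hπ1 : π ≠ 1 := by
    rintro rfl
    rw [orderOf_one] at hdvd
    have := Nat.le_of_dvd one_pos hdvd
    omega
  have hlen : ∀ n ∈ π.cycleType, n = orderOf π := by
    intro n hn
    have h1 : n ∣ orderOf π := Equiv.Perm.dvd_of_mem_cycleType hn
    obtain ⟨c, τ, hπ, hd, hc, hcn⟩ := Equiv.Perm.mem_cycleType_iff.mp hn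
    obtain ⟨x, hx, -⟩ := id hc
    have hτx : τ x = x := by
      rcases hd x with h | h
      · exact absurd h hx
      · exact h
    have hπx : π x ≠ x := by
      rw [hπ, Equiv.Perm.mul_apply, hτx]
      exact hx
    have hpow : (π ^ n) x = x := by
      rw [hπ, hd.commute.mul_pow, Equiv.Perm.mul_apply,
        Equiv.Perm.pow_apply_eq_self_of_apply_eq_self hτx n]
      have h3 : c ^ n = 1 := by
        rw [← hcn, ← hc.orderOf]
        exact pow_orderOf_eq_one c
      rw [h3]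
      rfl
    have hxo : x ≠ o := fun h => hπx (by rw [h]; exact ho)
    have hxz : x ≠ z := fun h => hπx (by rw [h]; exact hz)
    have h4 : π ^ n = 1 := hsemi n x hxo hxz hpow
    exact Nat.dvd_antisymm h1 (orderOf_dvd_of_pow_eq_one h4)
  have hrep : π.cycleType = Multiset.replicate (Multiset.card π.cycleType) (orderOf π) :=
    Multiset.eq_replicate.mpr ⟨rfl, hlen⟩
  have hsum : π.cycleType.sum = Multiset.card π.cycleType * orderOf π := by
    conv_lhs => rw [hrep]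
    rw [Multiset.sum_replicate, smul_eq_mul]
  have hsupp : π.support = Finset.univ \ {o, z} := by
    ext x
    rw [Equiv.Perm.mem_support, Finset.mem_sdiff, Finset.mem_insert, Finset.mem_singleton]
    constructor
    · intro hx
      refine ⟨Finset.mem_univ _, ?_⟩
      rintro (rfl | rfl)
      · exact hx ho
      · exact hx hz
    · rintro ⟨-, hx⟩ hfix
      have hxo : x ≠ o := fun h => hx (Or.inl h)
      have hxz : x ≠ z := fun h => hx (Or.inr h)
      apply hπ1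
      have := hsemi 1 x hxo hxz (by rw [pow_one]; exact hfix)
      rwa [pow_one] at this
  obtain ⟨c₀, hc₀, hpow⟩ := odd_cofactor r j
  obtain ⟨k, hk⟩ := hdvd
  have hcodd : Odd (Multiset.card π.cycleType) := by
    have h0 : ∀ w : ℕ, w + 1 + 1 - 2 = w := fun w => by omega
    have h1 : Multiset.card π.cycleType * orderOf π = 2 * r * c₀ := by
      rw [← hsum, Equiv.Perm.sum_cycleType, hsupp, Finset.card_univ_diff, Finset.card_pair hoz,
        hcard, hpow]
      exact h0 _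
    rw [hk] at h1
    have h2 : (2 * r) * (Multiset.card π.cycleType * k) = (2 * r) * c₀ := by
      rw [← h1]; ring
    have h3 : Multiset.card π.cycleType * k = c₀ := Nat.eq_of_mul_eq_mul_left (by omega) h2
    rw [← h3] at hc₀
    exact (Nat.odd_mul.mp hc₀).1
  rw [Equiv.Perm.sign_of_cycleType]
  have hodd : Odd (π.cycleType.sum + Multiset.card π.cycleType) := by
    rw [hsum, hk]
    have : Even (Multiset.card π.cycleType * (2 * r * k)) :=
      ⟨Multiset.card π.cycleType * (r * k), by ring⟩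
    exact Even.add_odd this hcodd
  exact Odd.neg_one_pow hodd

theorem main_odd {G : Type*} [Group G] [Finite G] {Ω : Type*} [MulAction G Ω] [Finite Ω]
    {o z e : Ω} (hyp : HypO G Ω o z e) {p f : ℕ} (hp : p.Prime) (hp2 : p ≠ 2) (hf : Odd f)
    (hcard : Nat.card Ω = p ^ f + 1) :
    ∃ (F : Type) (_ : Field F) (_ : Fintype F), Fintype.card F = p ^ f ∧
      Nonempty (G ≃* Matrix.ProjGenLinGroup (Fin 2) F) := by
  classical
  haveI : Fact p.Prime := ⟨hp⟩
  have hzo : z ≠ o := Ne.symm hyp.oz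
  obtain ⟨s, hs1, hs2, hs3⟩ :=
    hyp.t3 o z e z o e hyp.oz hyp.oe hyp.ze (Ne.symm hyp.oz) hyp.ze hyp.oe
  have hss : s * s = 1 := by
    apply hyp.s3 (s * s) o z e hyp.oz hyp.ze hyp.oe
    · rw [mul_smul, hs1, hs2]
    · rw [mul_smul, hs2, hs1]
    · rw [mul_smul, hs3, hs3]
  have hs_ne : s ≠ 1 := by
    intro h
    rw [h, one_smul] at hs1
    exact hyp.oz hs1
  obtain ⟨eG, heG, heGz⟩ := hyp.K_ex z e hzo (Ne.symm hyp.oe)
  obtain ⟨eK, heK⟩ : ∃ eK : ↥(Kg hyp), (eK : G) = eG := ⟨⟨eG, heG⟩, rfl⟩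
  have heKz : (eK : G) • z = e := by rw [heK]; exact heGz
  have heK1 : (eK : G) ≠ 1 := by
    intro h
    rw [h, one_smul] at heKz
    exact hyp.ze heKz
  have heA : Additive.ofMul eK ≠ (0 : Additive ↥(Kg hyp)) := by
    intro h
    apply heK1
    exact congrArg (fun a : Additive ↥(Kg hyp) => ((Additive.toMul a : ↥(Kg hyp)) : G)) h
  letI : Fintype Ω := Fintype.ofFinite Ω
  obtain ⟨χ, hχ⟩ : ∃ χ : G →* ℤˣ,
      ∀ g : G, χ g = Equiv.Perm.sign (MulAction.toPermHom G Ω g) :=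
    ⟨Equiv.Perm.sign.comp (MulAction.toPermHom G Ω), fun g => rfl⟩
  obtain ⟨H, hH⟩ : ∃ H : Subgroup G, ∀ g, g ∈ H ↔ (g • o = o ∧ g • z = z) :=
    ⟨MulAction.stabilizer G o ⊓ MulAction.stabilizer G z, fun g => by
      rw [Subgroup.mem_inf, MulAction.mem_stabilizer_iff, MulAction.mem_stabilizer_iff]⟩
  obtain ⟨N, hN⟩ : ∃ N : Subgroup G, ∀ g, g ∈ N ↔ (g ∈ H ∧ χ g = 1) :=
    ⟨H ⊓ χ.ker, fun g => by rw [Subgroup.mem_inf, MonoidHom.mem_ker]⟩
  obtain ⟨T, hT⟩ : ∃ T : Set (AddMonoid.End (Additive ↥(Kg hyp))),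
      ∀ c, c ∈ T ↔ ∃ h : G, ∃ hh : h • o = o, h • z = z ∧ c = cEnd hyp h hh :=
    ⟨{c | ∃ h : G, ∃ hh : h • o = o, h • z = z ∧ c = cEnd hyp h hh}, fun c => Iff.rfl⟩
  obtain ⟨T₀, hT₀⟩ : ∃ T₀ : Set (AddMonoid.End (Additive ↥(Kg hyp))),
      ∀ c, c ∈ T₀ ↔ ∃ h : G, ∃ hh : h • o = o, h • z = z ∧ χ h = 1 ∧ c = cEnd hyp h hh :=
    ⟨{c | ∃ h : G, ∃ hh : h • o = o, h • z = z ∧ χ h = 1 ∧ c = cEnd hyp h hh},
      fun c => Iff.rfl⟩
  have t1 : (1 : AddMonoid.End (Additive ↥(Kg hyp))) ∈ T :=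
    (hT 1).mpr ⟨1, one_smul _ _, one_smul _ _, (cEnd_one hyp).symm⟩
  have t4 : ∀ x ∈ T, ∃ y ∈ T, x * y = 1 ∧ y * x = 1 := by
    intro x hx
    obtain ⟨h, hh, hz, rfl⟩ := (hT x).mp hx
    have hh' : h⁻¹ • o = o := inv_smul_eq_iff.mpr hh.symm
    have hz' : h⁻¹ • z = z := inv_smul_eq_iff.mpr hz.symm
    refine ⟨cEnd hyp h⁻¹ hh', (hT _).mpr ⟨h⁻¹, hh', hz', rfl⟩, ?_, ?_⟩
    · rw [cEnd_mul, ← cEnd_one hyp]
      exact cEnd_congr hyp (mul_inv_cancel h)
    · rw [cEnd_mul, ← cEnd_one hyp]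
      exact cEnd_congr hyp (inv_mul_cancel h)
  have cEnd_inj : ∀ (h : G) (hh : h • o = o) (h' : G) (hh' : h' • o = o), h • z = z →
      h' • z = z → ∀ k : ↥(Kg hyp), (k : G) ≠ 1 →
      evK hyp (cEnd hyp h hh) k = evK hyp (cEnd hyp h' hh') k → h = h' := by
    intro h hh h' hh' hz hz' k hk1 hc
    rw [evK_cEnd, evK_cEnd] at hc
    have h1 : (h'⁻¹ * h) * (k : G) * (h'⁻¹ * h)⁻¹ = (k : G) := by
      calc (h'⁻¹ * h) * (k : G) * (h'⁻¹ * h)⁻¹ = h'⁻¹ * (h * (k : G) * h⁻¹) * h' := by group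
        _ = h'⁻¹ * (h' * (k : G) * h'⁻¹) * h' := by rw [hc]
        _ = (k : G) := by group
    have h2 : h'⁻¹ * h = 1 := hyp.H_free k.2 hk1 (by rw [mul_smul, hh, inv_smul_eq_iff, hh'])
      (by rw [mul_smul, hz, inv_smul_eq_iff, hz']) h1
    exact (inv_mul_eq_one.mp h2).symm
  have t5g : ∀ k : ↥(Kg hyp), (k : G) ≠ 1 → ∀ k' : ↥(Kg hyp), (k' : G) ≠ 1 →
      ∃ h : G, ∃ hh : h • o = o, h • z = z ∧ evK hyp (cEnd hyp h hh) k = (k' : G) := by
    intro k hk1 k' hk1'
    obtain ⟨h, hh, hz, hc⟩ := hyp.H_trans k.2 k'.2 hk1 hk1'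
    exact ⟨h, hh, hz, hc⟩
  have t5 : ∀ a : Additive ↥(Kg hyp), a ≠ 0 → ∃ x ∈ T, x (Additive.ofMul eK) = a := by
    intro a ha
    have hk1 : ((Additive.toMul a : ↥(Kg hyp)) : G) ≠ 1 := by
      intro h1
      apply ha
      apply Additive.toMul.injective
      exact Subtype.ext h1
    obtain ⟨h, hh, hz, hc⟩ := t5g eK heK1 (Additive.toMul a) hk1
    refine ⟨cEnd hyp h hh, (hT _).mpr ⟨h, hh, hz, rfl⟩, ?_⟩
    apply Additive.toMul.injective
    exact Subtype.ext hc
  have t7 : ∀ x ∈ T, ∀ k : ↥(Kg hyp), (k : G) ≠ 1 → x (Additive.ofMul k) ≠ 0 := by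
    intro x hx k hk1 h0
    obtain ⟨h, hh, hz, rfl⟩ := (hT x).mp hx
    have hG : h * (k : G) * h⁻¹ = 1 :=
      congrArg (fun a : Additive ↥(Kg hyp) => ((Additive.toMul a : ↥(Kg hyp)) : G)) h0
    apply hk1
    have : (k : G) = h⁻¹ * (h * (k : G) * h⁻¹) * h := by group
    rw [this, hG]
    group
  -- cardinalities
  have hKcard : Nat.card ↥(Kg hyp) = p ^ f := by
    have hbij : Function.Bijective
        (fun x : Option ↥(Kg hyp) => x.elim o (fun k => (k : G) • z)) := by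
      constructor
      · rintro (_ | k) (_ | k') h
        · rfl
        · exfalso
          have h' : o = (k' : G) • z := h
          exact hzo (smul_canc (g := (k' : G)) (by rw [← h', hyp.K_o k'.2]))
        · exfalso
          have h' : (k : G) • z = o := h
          exact hzo (smul_canc (g := (k : G)) (by rw [h', hyp.K_o k.2]))
        · have h' : (k : G) • z = (k' : G) • z := h
          exact congrArg some (Subtype.ext (hyp.K_uniq k.2 k'.2 hzo h'))
      · intro x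
        by_cases hx : x = o
        · exact ⟨none, hx.symm⟩
        · obtain ⟨k, hk, hkz⟩ := hyp.K_ex z x hzo hx
          exact ⟨some ⟨k, hk⟩, hkz⟩
    have h1 := Nat.card_congr (Equiv.ofBijective _ hbij)
    rw [Finite.card_option, hcard] at h1
    omega
  have hHo : ∀ h : ↥H, (h : G) • o = o := fun h => ((hH _).mp h.2).1
  have hHz : ∀ h : ↥H, (h : G) • z = z := fun h => ((hH _).mp h.2).2
  have hHcard : Nat.card ↥H + 1 = p ^ f := by
    have hbij : Function.Bijective (fun x : Option ↥H =>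
        (x.elim 1 (fun h => ⟨(h : G) * (eK : G) * (h : G)⁻¹, hyp.K_conj eK.2 (hHo h)⟩) :
          ↥(Kg hyp))) := by
      constructor
      · rintro (_ | h) (_ | h') hxy
        · rfl
        · exfalso
          have h1 : (1 : G) = (h' : G) * (eK : G) * (h' : G)⁻¹ := congrArg Subtype.val hxy
          apply heK1
          have : (eK : G) = (h' : G)⁻¹ * ((h' : G) * (eK : G) * (h' : G)⁻¹) * (h' : G) := by
            group
          rw [this, ← h1]
          group
        · exfalso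
          have h1 : (h : G) * (eK : G) * (h : G)⁻¹ = (1 : G) := congrArg Subtype.val hxy
          apply heK1
          have : (eK : G) = (h : G)⁻¹ * ((h : G) * (eK : G) * (h : G)⁻¹) * (h : G) := by
            group
          rw [this, h1]
          group
        · have h1 : (h : G) * (eK : G) * (h : G)⁻¹ = (h' : G) * (eK : G) * (h' : G)⁻¹ :=
            congrArg Subtype.val hxy
          exact congrArg some (Subtype.ext
            (cEnd_inj _ (hHo h) _ (hHo h') (hHz h) (hHz h') eK heK1 h1))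
      · intro k
        by_cases hk : (k : G) = 1
        · exact ⟨none, Subtype.ext hk.symm⟩
        · obtain ⟨h, hh, hz, hc⟩ := t5g eK heK1 k hk
          exact ⟨some ⟨h, (hH h).mpr ⟨hh, hz⟩⟩, Subtype.ext hc⟩
    have h1 := Nat.card_congr (Equiv.ofBijective _ hbij)
    rw [Finite.card_option, hKcard] at h1
    exact h1
  -- an element of order p and the element g₁
  have hf0 : f ≠ 0 := by
    rintro rfl
    exact absurd hf (by decide)
  obtain ⟨τK, hτK⟩ := exists_prime_orderOf_dvd_card' (G := ↥(Kg hyp)) p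
    (by rw [hKcard]; exact dvd_pow_self p hf0)
  have hτ : orderOf (τK : G) = p := by rw [Subgroup.orderOf_coe]; exact hτK
  have hτ1 : (τK : G) ≠ 1 := by
    intro h
    rw [h, orderOf_one] at hτ
    exact hp.one_lt.ne hτ
  obtain ⟨u, hu⟩ := IsCyclic.exists_ofOrder_eq_natCard (α := (ZMod p)ˣ)
  have hu' : orderOf u = p - 1 := by rw [hu, Nat.card_eq_fintype_card, ZMod.card_units]
  obtain ⟨m, hm⟩ : ∃ m : ℕ, m = (u : ZMod p).val := ⟨_, rfl⟩
  have hmu : ((m : ℕ) : ZMod p) = (u : ZMod p) := by rw [hm, ZMod.natCast_zmod_val]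
  have hτm1 : (τK : G) ^ m ≠ 1 := by
    intro h
    have h1 : p ∣ m := by rw [← hτ]; exact orderOf_dvd_of_pow_eq_one h
    have h2 : ((m : ℕ) : ZMod p) = 0 := (ZMod.natCast_eq_zero_iff m p).mpr h1
    rw [hmu] at h2
    exact u.ne_zero h2
  obtain ⟨g₁, hg₁o, hg₁z, hg₁⟩ := hyp.H_trans τK.2 ((Kg hyp).pow_mem τK.2 m) hτ1 hτm1
  have hg₁pow : ∀ j : ℕ, g₁ ^ j * (τK : G) * (g₁ ^ j)⁻¹ = (τK : G) ^ (m ^ j) := by
    intro j
    induction j with
    | zero => simp
    | succ j ih =>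
      calc g₁ ^ (j + 1) * (τK : G) * (g₁ ^ (j + 1))⁻¹
          = g₁ * (g₁ ^ j * (τK : G) * (g₁ ^ j)⁻¹) * g₁⁻¹ := by
            rw [pow_succ']; group
        _ = g₁ * (τK : G) ^ (m ^ j) * g₁⁻¹ := by rw [ih]
        _ = (g₁ * (τK : G) * g₁⁻¹) ^ (m ^ j) := conj_pow.symm
        _ = ((τK : G) ^ m) ^ (m ^ j) := by rw [hg₁]
        _ = (τK : G) ^ (m ^ (j + 1)) := by rw [← pow_mul, pow_succ']
  have hg₁ord : ∀ j : ℕ, g₁ ^ j = 1 → (p - 1) ∣ j := by
    intro j hj
    have h1 := hg₁pow j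
    rw [hj, one_mul, inv_one, mul_one] at h1
    have h2 : (τK : G) ^ 1 = (τK : G) ^ (m ^ j) := by rw [pow_one]; exact h1
    rw [pow_eq_pow_iff_modEq, hτ] at h2
    have h3 : ((1 : ℕ) : ZMod p) = ((m ^ j : ℕ) : ZMod p) :=
      (ZMod.natCast_eq_natCast_iff _ _ _).mpr h2
    rw [Nat.cast_one, Nat.cast_pow, hmu] at h3
    have h4 : u ^ j = 1 := by
      apply Units.ext
      rw [Units.val_pow_eq_pow_val, ← h3, Units.val_one]
    rw [← hu']
    exact orderOf_dvd_of_pow_eq_one h4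
  obtain ⟨r, hr⟩ := hp.eq_two_or_odd'.resolve_left hp2
  have hf' := hf
  obtain ⟨j, hj⟩ := hf'
  have hr0 : 0 < r := by
    have := hp.two_le
    omega
  have hχg₁ : χ g₁ = -1 := by
    rw [hχ]
    have hπpow : ∀ n : ℕ, (MulAction.toPermHom G Ω g₁) ^ n = MulAction.toPermHom G Ω (g₁ ^ n) :=
      fun n => (map_pow _ _ _).symm
    have hg₁on : ∀ n : ℕ, (g₁ ^ n) • o = o := fun n => by
      have h1 : g₁ ∈ MulAction.stabilizer G o := hg₁o
      exact pow_mem h1 n
    have hg₁zn : ∀ n : ℕ, (g₁ ^ n) • z = z := fun n => by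
      have h1 : g₁ ∈ MulAction.stabilizer G z := hg₁z
      exact pow_mem h1 n
    apply sign_semireg (MulAction.toPermHom G Ω g₁) o z hyp.oz hg₁o hg₁z ?_ r j hr0 ?_ ?_
    · intro n x hxo hxz hx
      rw [hπpow] at hx ⊢
      have hx' : (g₁ ^ n) • x = x := hx
      have h1 : g₁ ^ n = 1 :=
        hyp.s3 (g₁ ^ n) o z x hyp.oz (Ne.symm hxz) (Ne.symm hxo) (hg₁on n) (hg₁zn n) hx'
      rw [h1, map_one]
    · rw [← Nat.card_eq_fintype_card, hcard, hr, hj]
    · have h2 : MulAction.toPermHom G Ω (g₁ ^ orderOf (MulAction.toPermHom G Ω g₁)) = 1 := by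
        rw [← hπpow, pow_orderOf_eq_one]
      have h1 : g₁ ^ orderOf (MulAction.toPermHom G Ω g₁) = 1 := by
        apply hyp.s3 _ o z e hyp.oz hyp.ze hyp.oe (hg₁on _) (hg₁zn _)
        exact congrArg (fun π' : Equiv.Perm Ω => π' e) h2
      have h3 := hg₁ord _ h1
      rw [hr, Nat.add_sub_cancel] at h3
      exact h3
  have hχsq : ∀ g : G, χ g * χ g = 1 := fun g => Int.units_mul_self _
  have hχpm : ∀ g : G, χ g = 1 ∨ χ g = -1 := fun g => Int.units_eq_one_or _
  have hg₁H : g₁ ∈ H := (hH g₁).mpr ⟨hg₁o, hg₁z⟩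
  have hNH : ∀ n : ↥N, (n : G) ∈ H := fun n => ((hN _).mp n.2).1
  have hNχ : ∀ n : ↥N, χ (n : G) = 1 := fun n => ((hN _).mp n.2).2
  have hHN : Nat.card ↥H = 2 * Nat.card ↥N := by
    have hbij : Function.Bijective (fun x : ↥N ⊕ ↥N =>
        (Sum.elim (fun n : ↥N => (⟨(n : G), hNH n⟩ : ↥H))
          (fun n : ↥N => (⟨g₁ * (n : G), H.mul_mem hg₁H (hNH n)⟩ : ↥H)) x : ↥H)) := by
      constructor
      · rintro (n | n) (n' | n') hxy
        · have h1 : (n : G) = (n' : G) := congrArg (fun h : ↥H => (h : G)) hxy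
          exact congrArg Sum.inl (Subtype.ext h1)
        · exfalso
          have h1 : (n : G) = g₁ * (n' : G) := congrArg Subtype.val hxy
          have h2 := hNχ n
          rw [h1, map_mul, hχg₁, hNχ n'] at h2
          exact absurd h2 (by decide)
        · exfalso
          have h1 : g₁ * (n : G) = (n' : G) := congrArg Subtype.val hxy
          have h2 := hNχ n'
          rw [← h1, map_mul, hχg₁, hNχ n] at h2
          exact absurd h2 (by decide)
        · have h1 : g₁ * (n : G) = g₁ * (n' : G) := congrArg Subtype.val hxy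
          exact congrArg Sum.inr (Subtype.ext (mul_left_cancel h1))
      · intro h
        rcases hχpm (h : G) with h1 | h1
        · exact ⟨Sum.inl ⟨(h : G), (hN _).mpr ⟨h.2, h1⟩⟩, rfl⟩
        · refine ⟨Sum.inr ⟨g₁⁻¹ * (h : G),
            (hN _).mpr ⟨H.mul_mem (H.inv_mem hg₁H) h.2, ?_⟩⟩, ?_⟩
          · rw [map_mul, map_inv, hχg₁, h1]
            decide
          · apply Subtype.ext
            show g₁ * (g₁⁻¹ * (h : G)) = (h : G)
            group
    have h1 := Nat.card_congr (Equiv.ofBijective _ hbij)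
    rw [Nat.card_sum] at h1
    omega
  have hsH : ∀ h : G, h ∈ H → s * h * s ∈ H := by
    intro h hh
    obtain ⟨h1, h2⟩ := (hH h).mp hh
    exact (hH _).mpr ⟨by rw [mul_smul, mul_smul, hs1, h2, hs2],
      by rw [mul_smul, mul_smul, hs2, h1, hs1]⟩
  have hT'mem : ∀ h : ↥H, (h : G) * s * (h : G)⁻¹ * s ∈ N := by
    intro h
    refine (hN _).mpr ⟨?_, ?_⟩
    · have : (h : G) * s * (h : G)⁻¹ * s = (h : G) * (s * (h : G)⁻¹ * s) := by group
      rw [this]
      exact H.mul_mem h.2 (hsH _ (H.inv_mem h.2))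
    · rw [map_mul, map_mul, map_mul, map_inv, mul_comm (χ (h : G)) (χ s), mul_assoc (χ s),
        mul_inv_cancel, mul_one]
      exact hχsq s
  have hfib : ∀ h h' : ↥H, (h : G) * s * (h : G)⁻¹ * s = (h' : G) * s * (h' : G)⁻¹ * s →
      s • ((h : G)⁻¹ * (h' : G)) • e = ((h : G)⁻¹ * (h' : G)) • e := by
    intro h h' heq
    have h1 : (h : G) * s * (h : G)⁻¹ = (h' : G) * s * (h' : G)⁻¹ := mul_right_cancel heq
    have h2 : s * ((h : G)⁻¹ * (h' : G)) = ((h : G)⁻¹ * (h' : G)) * s := by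
      calc s * ((h : G)⁻¹ * (h' : G))
          = (h : G)⁻¹ * ((h : G) * s * (h : G)⁻¹) * (h' : G) := by group
        _ = (h : G)⁻¹ * ((h' : G) * s * (h' : G)⁻¹) * (h' : G) := by rw [h1]
        _ = ((h : G)⁻¹ * (h' : G)) * s := by group
    rw [← mul_smul, h2, mul_smul, hs3]
  have hHe : ∀ c : G, c ∈ H → c • e = e → c = 1 := by
    intro c hc hce
    obtain ⟨h1, h2⟩ := (hH c).mp hc
    exact hyp.s3 c o z e hyp.oz hyp.ze hyp.oe h1 h2 hce
  have hfib3 : ∀ h h' h'' : ↥H,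
      (h : G) * s * (h : G)⁻¹ * s = (h' : G) * s * (h' : G)⁻¹ * s →
      (h : G) * s * (h : G)⁻¹ * s = (h'' : G) * s * (h'' : G)⁻¹ * s →
      h' = h ∨ h'' = h ∨ h' = h'' := by
    intro h h' h'' e1 e2
    by_contra hcon
    rw [not_or, not_or] at hcon
    obtain ⟨n1, n2, n3⟩ := hcon
    have m1 : (h : G)⁻¹ * (h' : G) ∈ H := H.mul_mem (H.inv_mem h.2) h'.2
    have m2 : (h : G)⁻¹ * (h'' : G) ∈ H := H.mul_mem (H.inv_mem h.2) h''.2
    have f1 := hfib h h' e1
    have f2 := hfib h h'' e2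
    have d1 : ((h : G)⁻¹ * (h' : G)) • e ≠ e := by
      intro hh
      apply n1
      have := hHe _ m1 hh
      exact Subtype.ext (inv_mul_eq_one.mp this).symm
    have d2 : ((h : G)⁻¹ * (h'' : G)) • e ≠ e := by
      intro hh
      apply n2
      have := hHe _ m2 hh
      exact Subtype.ext (inv_mul_eq_one.mp this).symm
    by_cases d3 : ((h : G)⁻¹ * (h' : G)) • e = ((h : G)⁻¹ * (h'' : G)) • e
    · apply n3
      have h5 : (h' : G) • e = (h'' : G) • e := by
        rw [mul_smul, mul_smul] at d3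
        exact smul_canc d3
      have h6 : (h'' : G)⁻¹ * (h' : G) = 1 := by
        apply hHe _ (H.mul_mem (H.inv_mem h''.2) h'.2)
        rw [mul_smul, h5, inv_smul_smul]
      exact Subtype.ext (inv_mul_eq_one.mp h6).symm
    · exact hs_ne (hyp.s3 s e _ _ (Ne.symm d1) d3 (Ne.symm d2) hs3 f1 f2)
  have hNinv : ∀ n : G, n ∈ N → s * n * s = n⁻¹ := by
    letI : Fintype ↥H := Fintype.ofFinite _
    letI : Fintype ↥N := Fintype.ofFinite _
    obtain ⟨T', hT'⟩ : ∃ T' : ↥H → ↥N, ∀ h : ↥H, (T' h : G) = (h : G) * s * (h : G)⁻¹ * s :=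
      ⟨fun h => ⟨_, hT'mem h⟩, fun h => rfl⟩
    have hle : (Finset.univ : Finset ↥H).card ≤
        2 * ((Finset.univ : Finset ↥H).image T').card := by
      apply Finset.card_le_mul_card_image
      intro b _
      by_contra hgt
      rw [not_le, Finset.two_lt_card_iff] at hgt
      obtain ⟨x, y, w, hx, hy, hw, hxy, hxw, hyw⟩ := hgt
      rw [Finset.mem_filter] at hx hy hw
      have ex : (x : G) * s * (x : G)⁻¹ * s = (y : G) * s * (y : G)⁻¹ * s := by
        rw [← hT', ← hT', hx.2, hy.2]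
      have ew : (x : G) * s * (x : G)⁻¹ * s = (w : G) * s * (w : G)⁻¹ * s := by
        rw [← hT', ← hT', hx.2, hw.2]
      rcases hfib3 x y w ex ew with h | h | h
      · exact hxy h.symm
      · exact hxw h.symm
      · exact hyw h
    have hcardH : (Finset.univ : Finset ↥H).card = 2 * Fintype.card ↥N := by
      rw [Finset.card_univ, ← Nat.card_eq_fintype_card, ← Nat.card_eq_fintype_card, hHN]
    have himg : (Finset.univ : Finset ↥H).image T' = Finset.univ := by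
      apply Finset.eq_univ_of_card
      have h1 := Finset.card_le_univ ((Finset.univ : Finset ↥H).image T')
      omega
    intro n hn
    have hmem : (⟨n, hn⟩ : ↥N) ∈ (Finset.univ : Finset ↥H).image T' := by
      rw [himg]; exact Finset.mem_univ _
    obtain ⟨h, -, hh⟩ := Finset.mem_image.mp hmem
    have hn' : n = (h : G) * s * (h : G)⁻¹ * s := by
      rw [← hT', hh]
    rw [hn']
    have key : (h : G) * s * (h : G)⁻¹ * s * (s * ((h : G) * s * (h : G)⁻¹ * s) * s) = 1 := by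
      calc (h : G) * s * (h : G)⁻¹ * s * (s * ((h : G) * s * (h : G)⁻¹ * s) * s)
          = (h : G) * s * (h : G)⁻¹ * (s * s) * ((h : G) * s * (h : G)⁻¹) * (s * s) := by group
        _ = (h : G) * s * (h : G)⁻¹ * ((h : G) * s * (h : G)⁻¹) := by rw [hss, mul_one, mul_one]
        _ = (h : G) * (s * s) * (h : G)⁻¹ := by group
        _ = 1 := by rw [hss]; group
    exact eq_inv_of_mul_eq_one_right key
  have hNcomm : ∀ n n' : G, n ∈ N → n' ∈ N → n * n' = n' * n := by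
    intro n n' hn hn'
    exact comm_of_inv hss (hNinv n hn) (hNinv n' hn') (hNinv _ (N.mul_mem hn hn'))
  have hc : ∀ x ∈ T₀, ∀ y ∈ T₀, x * y = y * x := by
    intro x hx y hy
    obtain ⟨h, hh, hz, hχh, rfl⟩ := (hT₀ x).mp hx
    obtain ⟨h', hh', hz', hχh', rfl⟩ := (hT₀ y).mp hy
    rw [cEnd_mul, cEnd_mul]
    exact cEnd_congr hyp (hNcomm h h' ((hN h).mpr ⟨(hH h).mpr ⟨hh, hz⟩, hχh⟩)
      ((hN h').mpr ⟨(hH h').mpr ⟨hh', hz'⟩, hχh'⟩))
  have hnorm : ∀ g ∈ T, ∀ x ∈ T₀, ∃ y ∈ T₀, g * x = y * g := by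
    intro g hg x hx
    obtain ⟨h, hh, hz, rfl⟩ := (hT g).mp hg
    obtain ⟨n, hn, hnz, hχn, rfl⟩ := (hT₀ x).mp hx
    have hh' : h⁻¹ • o = o := inv_smul_eq_iff.mpr hh.symm
    have hz' : h⁻¹ • z = z := inv_smul_eq_iff.mpr hz.symm
    have ho' : (h * n * h⁻¹) • o = o := by rw [mul_smul, mul_smul, hh', hn, hh]
    have hz'' : (h * n * h⁻¹) • z = z := by rw [mul_smul, mul_smul, hz', hnz, hz]
    refine ⟨cEnd hyp (h * n * h⁻¹) ho', (hT₀ _).mpr ⟨_, ho', hz'', ?_, rfl⟩, ?_⟩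
    · rw [map_mul, map_mul, map_inv, hχn, mul_one, mul_inv_cancel]
    · rw [cEnd_mul, cEnd_mul]
      exact cEnd_congr hyp (by group)
  have hsq : ∀ g ∈ T, g * g ∈ T₀ := by
    intro g hg
    obtain ⟨h, hh, hz, rfl⟩ := (hT g).mp hg
    rw [cEnd_mul]
    exact (hT₀ _).mpr ⟨h * h, _, by rw [mul_smul, hz, hz], by rw [map_mul]; exact hχsq h, rfl⟩
  have hirr : ∀ W : AddSubgroup (Additive ↥(Kg hyp)), (∃ a ∈ W, a ≠ 0) →
      (∀ x ∈ T₀, ∀ w ∈ W, x w ∈ W) → W = ⊤ := by
    intro W ⟨a, haW, ha0⟩ hinv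
    have hk1 : ((Additive.toMul a : ↥(Kg hyp)) : G) ≠ 1 := by
      intro h1
      apply ha0
      apply Additive.toMul.injective
      exact Subtype.ext h1
    have hNo : ∀ n : ↥N, (n : G) • o = o := fun n => ((hH _).mp (hNH n)).1
    have hNz : ∀ n : ↥N, (n : G) • z = z := fun n => ((hH _).mp (hNH n)).2
    have hinj : Function.Injective (fun x : Option ↥N =>
        (x.elim 0 (fun n => ⟨cEnd hyp (n : G) (hNo n) a,
          hinv _ ((hT₀ _).mpr ⟨_, hNo n, hNz n, hNχ n, rfl⟩) a haW⟩) : ↥W)) := by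
      rintro (_ | n) (_ | n') hxy
      · rfl
      · exfalso
        have h1 : (0 : Additive ↥(Kg hyp)) = cEnd hyp (n' : G) (hNo n') a :=
          congrArg Subtype.val hxy
        exact t7 _ ((hT _).mpr ⟨_, hNo n', hNz n', rfl⟩) (Additive.toMul a) hk1 h1.symm
      · exfalso
        have h1 : cEnd hyp (n : G) (hNo n) a = (0 : Additive ↥(Kg hyp)) :=
          congrArg Subtype.val hxy
        exact t7 _ ((hT _).mpr ⟨_, hNo n, hNz n, rfl⟩) (Additive.toMul a) hk1 h1
      · have h1 : cEnd hyp (n : G) (hNo n) a = cEnd hyp (n' : G) (hNo n') a :=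
          congrArg Subtype.val hxy
        have h2 : evK hyp (cEnd hyp (n : G) (hNo n)) (Additive.toMul a) =
            evK hyp (cEnd hyp (n' : G) (hNo n')) (Additive.toMul a) :=
          congrArg (fun b : Additive ↥(Kg hyp) => ((Additive.toMul b : ↥(Kg hyp)) : G)) h1
        exact congrArg some (Subtype.ext
          (cEnd_inj _ (hNo n) _ (hNo n') (hNz n) (hNz n') (Additive.toMul a) hk1 h2))
    have h1 : Nat.card (Option ↥N) ≤ Nat.card ↥W := Nat.card_le_card_of_injective _ hinj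
    rw [Finite.card_option] at h1
    have h2 : Nat.card ↥W ∣ Nat.card (Additive ↥(Kg hyp)) :=
      AddSubgroup.card_addSubgroup_dvd_card W
    have h3 : Nat.card (Additive ↥(Kg hyp)) = p ^ f := hKcard
    obtain ⟨d, hd⟩ := h2
    have hd1 : d = 1 := by
      rw [h3] at hd
      by_contra hne
      have hd0 : d ≠ 0 := by
        rintro rfl
        rw [mul_zero] at hd
        exact (pow_pos hp.pos f).ne' hd
      have hd2 : 2 ≤ d := by omega
      have : 2 * Nat.card ↥W ≤ Nat.card ↥W * d := by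
        rw [mul_comm]; exact Nat.mul_le_mul_left _ hd2
      omega
    apply AddSubgroup.eq_top_of_card_eq
    rw [hd, hd1, mul_one]
  have hAcard : Nat.card (Additive ↥(Kg hyp)) = p ^ f := hKcard
  obtain ⟨R, hRf, hRmem⟩ := field_of_half (A := Additive ↥(Kg hyp)) p f hp hf hAcard T T₀
    (Additive.ofMul eK) heA t1 t4 t5 (fun x hx => t7 x hx eK heK1) hc hirr hnorm hsq
  letI : Field ↥R := hRf.toField
  have ev_inj : ∀ r r' : ↥R, evK hyp r.1 eK = evK hyp r'.1 eK → r = r' := by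
    intro r r' h
    have h' : r.1 (Additive.ofMul eK) = r'.1 (Additive.ofMul eK) := evK_inj hyp h
    apply Subtype.ext
    rcases (hRmem r.1).mp r.2 with h0 | hr
    · rcases (hRmem r'.1).mp r'.2 with h0' | hr'
      · rw [h0, h0']
      · exfalso
        apply t7 _ hr' eK heK1
        rw [← h', h0]
        rfl
    · rcases (hRmem r'.1).mp r'.2 with h0' | hr'
      · exfalso
        apply t7 _ hr eK heK1
        rw [h', h0']
        rfl
      · obtain ⟨h1, hh1, hz1, e1⟩ := (hT _).mp hr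
        obtain ⟨h2, hh2, hz2, e2⟩ := (hT _).mp hr'
        rw [e1, e2] at h ⊢
        exact cEnd_congr hyp (cEnd_inj h1 hh1 h2 hh2 hz1 hz2 eK heK1 h)
  have ev_surj : ∀ k : ↥(Kg hyp), ∃ r : ↥R, evK hyp r.1 eK = (k : G) := by
    intro k
    by_cases hk : Additive.ofMul k = (0 : Additive ↥(Kg hyp))
    · refine ⟨0, ?_⟩
      have : (k : G) = 1 :=
        congrArg (fun a : Additive ↥(Kg hyp) => ((Additive.toMul a : ↥(Kg hyp)) : G)) hk
      rw [this]
      rfl
    · obtain ⟨x, hx, hxe⟩ := t5 _ hk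
      refine ⟨⟨x, (hRmem x).mpr (Or.inr hx)⟩, ?_⟩
      exact congrArg (fun a : Additive ↥(Kg hyp) => ((Additive.toMul a : ↥(Kg hyp)) : G)) hxe
  haveI : Finite ↥R :=
    Finite.of_injective (fun r : ↥R => evK hyp r.1 eK) (fun r r' h => ev_inj r r' h)
  letI : Fintype ↥R := Fintype.ofFinite _
  have hRcard : Fintype.card ↥R = p ^ f := by
    rw [← Nat.card_eq_fintype_card, ← hKcard]
    apply Nat.card_eq_of_bijective
      (fun r : ↥R => (⟨evK hyp r.1 eK, evK_mem hyp _ _⟩ : ↥(Kg hyp)))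
    constructor
    · intro r r' h
      exact ev_inj r r' (congrArg Subtype.val h)
    · intro k
      obtain ⟨r, hr⟩ := ev_surj k
      exact ⟨r, Subtype.ext hr⟩
  obtain ⟨tr, htr⟩ : ∃ tr : ↥R → G, ∀ r, tr r = evK hyp r.1 eK :=
    ⟨fun r => evK hyp r.1 eK, fun r => rfl⟩
  have htrK : ∀ r, tr r ∈ Kg hyp := by
    intro r
    rw [htr]
    exact evK_mem hyp _ _
  have htr_add : ∀ r r' : ↥R, tr (r + r') = tr r * tr r' := by
    intro r r'
    rw [htr, htr, htr]
    rfl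
  have htr_zero : tr 0 = 1 := by
    rw [htr]
    rfl
  obtain ⟨pt, hpt⟩ : ∃ pt : ↥R → Ω, ∀ r, pt r = tr r • z := ⟨fun r => tr r • z, fun r => rfl⟩
  have hpt_inj : Function.Injective pt := by
    intro r r' h
    rw [hpt, hpt] at h
    have := hyp.K_uniq (htrK r) (htrK r') hzo h
    rw [htr, htr] at this
    exact ev_inj r r' this
  have hpt_o : ∀ r, pt r ≠ o := by
    intro r h0
    rw [hpt] at h0
    apply hzo
    exact smul_canc (g := tr r) (by rw [h0, hyp.K_o (htrK r)])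
  have hpt_surj : ∀ x : Ω, x ≠ o → ∃ r, pt r = x := by
    intro x hx
    obtain ⟨g, hg, hgz⟩ := hyp.K_ex z x hzo hx
    obtain ⟨r, hr⟩ := ev_surj ⟨g, hg⟩
    refine ⟨r, ?_⟩
    rw [hpt, htr, hr]
    exact hgz
  have htr' : ∀ b x, tr b • pt x = pt (x + b) := by
    intro b x
    rw [hpt, hpt, add_comm x b, htr_add, mul_smul]
  have hpt0 : pt 0 = z := by rw [hpt, htr_zero, one_smul]
  have hpt1 : pt 1 = e := by
    rw [hpt, htr]
    exact heKz
  have htr_o : ∀ b, tr b • o = o := fun b => hyp.K_o (htrK b)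
  -- dilations
  have hdl_ex : ∀ a : ↥R, ∃ h : G, a ≠ 0 →
      (h • o = o ∧ h • z = z ∧ ∀ hh : h • o = o, a.1 = cEnd hyp h hh) := by
    intro a
    by_cases ha : a = 0
    · exact ⟨1, fun h => absurd ha h⟩
    · rcases (hRmem a.1).mp a.2 with h0 | haT
      · exact absurd (Subtype.ext h0) ha
      · obtain ⟨h, hh, hz, hac⟩ := (hT _).mp haT
        exact ⟨h, fun _ => ⟨hh, hz, fun _ => hac⟩⟩
  choose dl hdl using hdl_ex
  have hdl_pt : ∀ a x : ↥R, a ≠ 0 → dl a • pt x = pt (a * x) := by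
    intro a x ha
    obtain ⟨h1, h2, h3⟩ := hdl a ha
    have e1 : tr (a * x) = dl a * tr x * (dl a)⁻¹ := by
      rw [htr, htr]
      show evK hyp (a.1 * x.1) eK = _
      rw [h3 h1, evK_cEnd_mul]
    rw [hpt, hpt, e1, mul_smul, mul_smul, inv_smul_eq_iff.mpr h2.symm]
  have hdl_uniq : ∀ (h : G) (hh : h • o = o), h • z = z → ∀ b : ↥R, b ≠ 0 →
      b.1 = cEnd hyp h hh → dl b = h := by
    intro h hh hz b hb hbc
    obtain ⟨h1, h2, h3⟩ := hdl b hb
    apply cEnd_inj _ h1 _ hh h2 hz eK heK1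
    rw [← h3 h1, ← hbc]
  have hRofH : ∀ (h : G) (hh : h • o = o), h • z = z →
      ∃ b : ↥R, b ≠ 0 ∧ b.1 = cEnd hyp h hh ∧ dl b = h := by
    intro h hh hz
    have hmem : cEnd hyp h hh ∈ T := (hT _).mpr ⟨h, hh, hz, rfl⟩
    have hb0 : (⟨cEnd hyp h hh, (hRmem _).mpr (Or.inr hmem)⟩ : ↥R) ≠ 0 := by
      intro h0
      have h0' : cEnd hyp h hh = 0 := congrArg Subtype.val h0
      apply t7 _ hmem eK heK1
      rw [h0']
      rfl
    exact ⟨⟨cEnd hyp h hh, _⟩, hb0, rfl, hdl_uniq h hh hz _ hb0 rfl⟩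
  have hdl_mul : ∀ a b : ↥R, a ≠ 0 → b ≠ 0 → dl (a * b) = dl a * dl b := by
    intro a b ha hb
    obtain ⟨a1, a2, a3⟩ := hdl a ha
    obtain ⟨b1, b2, b3⟩ := hdl b hb
    apply hdl_uniq (dl a * dl b) (by rw [mul_smul, b1, a1]) (by rw [mul_smul, b2, a2]) _
      (mul_ne_zero ha hb)
    show a.1 * b.1 = _
    rw [a3 a1, b3 b1, cEnd_mul]
  have hdl_one : dl 1 = 1 := by
    apply hdl_uniq 1 (one_smul _ _) (one_smul _ _) 1 one_ne_zero
    exact (cEnd_one hyp).symm
  have hdl_inj : ∀ a b : ↥R, a ≠ 0 → b ≠ 0 → dl a = dl b → a = b := by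
    intro a b ha hb hab
    obtain ⟨a1, a2, a3⟩ := hdl a ha
    obtain ⟨b1, b2, b3⟩ := hdl b hb
    apply Subtype.ext
    rw [a3 a1, b3 b1]
    exact cEnd_congr hyp hab
  have hdl_inv : ∀ a : ↥R, a ≠ 0 → dl a⁻¹ = (dl a)⁻¹ := by
    intro a ha
    have h1 := hdl_mul a a⁻¹ ha (inv_ne_zero ha)
    rw [mul_inv_cancel₀ ha, hdl_one] at h1
    exact eq_inv_of_mul_eq_one_right h1.symm
  have hpt_dl : ∀ a : ↥R, a ≠ 0 → pt a = dl a • e := by
    intro a ha
    rw [← hpt1, hdl_pt a 1 ha, mul_one]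
  -- the map induced by s
  have hβex : ∀ a : ↥R, ∃ b : ↥R, a ≠ 0 → (b ≠ 0 ∧ dl b = s * dl a * s) := by
    intro a
    by_cases ha : a = 0
    · exact ⟨0, fun h => absurd ha h⟩
    · obtain ⟨a1, a2, a3⟩ := hdl a ha
      obtain ⟨b, hb0, -, hb⟩ := hRofH (s * dl a * s) (by rw [mul_smul, mul_smul, hs1, a2, hs2])
        (by rw [mul_smul, mul_smul, hs2, a1, hs1])
      exact ⟨b, fun _ => ⟨hb0, hb⟩⟩
  choose β hβ using hβex
  have hβ0 : ∀ a : ↥R, a ≠ 0 → β a ≠ 0 := fun a ha => (hβ a ha).1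
  have hβdl : ∀ a : ↥R, a ≠ 0 → dl (β a) = s * dl a * s := fun a ha => (hβ a ha).2
  have hs_pt : ∀ a : ↥R, a ≠ 0 → s • pt a = pt (β a) := by
    intro a ha
    rw [hpt_dl a ha, hpt_dl (β a) (hβ0 a ha), hβdl a ha, mul_smul, mul_smul, hs3]
  have hβmul : ∀ a b : ↥R, a ≠ 0 → b ≠ 0 → β (a * b) = β a * β b := by
    intro a b ha hb
    apply hdl_inj _ _ (hβ0 _ (mul_ne_zero ha hb)) (mul_ne_zero (hβ0 a ha) (hβ0 b hb))
    rw [hβdl _ (mul_ne_zero ha hb), hdl_mul a b ha hb, hdl_mul _ _ (hβ0 a ha) (hβ0 b hb),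
      hβdl a ha, hβdl b hb]
    calc s * (dl a * dl b) * s = s * dl a * (s * s) * dl b * s := by rw [hss, mul_one]; group
      _ = s * dl a * s * (s * dl b * s) := by group
  have hββ : ∀ a : ↥R, a ≠ 0 → β (β a) = a := by
    intro a ha
    apply hdl_inj _ _ (hβ0 _ (hβ0 a ha)) ha
    rw [hβdl _ (hβ0 a ha), hβdl a ha]
    calc s * (s * dl a * s) * s = (s * s) * dl a * (s * s) := by group
      _ = dl a := by rw [hss, one_mul, mul_one]
  have hβ1 : β 1 = 1 := by
    apply hdl_inj _ _ (hβ0 1 one_ne_zero) one_ne_zero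
    rw [hβdl 1 one_ne_zero, hdl_one, mul_one, hss]
  have hβinv : ∀ a : ↥R, a ≠ 0 → β a⁻¹ = (β a)⁻¹ := by
    intro a ha
    have h1 := hβmul a a⁻¹ ha (inv_ne_zero ha)
    rw [mul_inv_cancel₀ ha, hβ1] at h1
    exact eq_inv_of_mul_eq_one_right h1.symm
  have hβinj : ∀ a b : ↥R, a ≠ 0 → b ≠ 0 → β a = β b → a = b := by
    intro a b ha hb h
    rw [← hββ a ha, ← hββ b hb, h]
  -- characteristic is odd
  have h2ne : (2 : ↥R) ≠ 0 := by
    intro h2
    haveI : CharP ↥R 2 := CharTwo.of_one_ne_zero_of_two_eq_zero one_ne_zero h2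
    obtain ⟨n, -, hn⟩ := FiniteField.card ↥R 2
    rw [hRcard] at hn
    have h4 : 2 ∣ p ^ f := by rw [hn]; exact dvd_pow_self 2 n.ne_zero
    have h5 : 2 ∣ p := Nat.Prime.dvd_of_dvd_pow Nat.prime_two h4
    exact hp2 ((Nat.prime_dvd_prime_iff_eq Nat.prime_two hp).mp h5).symm
  have hneg1 : (-1 : ↥R) ≠ 0 := neg_ne_zero.mpr one_ne_zero
  have hneg1' : (-1 : ↥R) ≠ 1 := by
    intro h
    apply h2ne
    linear_combination (-1 : ↥R) * h
  have hβneg1 : β (-1) = -1 := by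
    obtain ⟨a1, a2, a3⟩ := hdl (-1) hneg1
    have hsq1 : dl (-1) * dl (-1) = 1 := by
      rw [← hdl_mul _ _ hneg1 hneg1]
      have : (-1 : ↥R) * (-1) = 1 := by ring
      rw [this, hdl_one]
    have hne1 : dl (-1) ≠ 1 := by
      intro h
      apply hneg1'
      apply hdl_inj _ _ hneg1 one_ne_zero
      rw [h, hdl_one]
    have hsq2 : (s * dl (-1) * s) * (s * dl (-1) * s) = 1 := by
      calc (s * dl (-1) * s) * (s * dl (-1) * s)
          = s * dl (-1) * (s * s) * dl (-1) * s := by group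
        _ = s * (dl (-1) * dl (-1)) * s := by rw [hss, mul_one]; group
        _ = 1 := by rw [hsq1, mul_one, hss]
    have hne2 : s * dl (-1) * s ≠ 1 := by
      intro h
      apply hne1
      calc dl (-1) = s * (s * dl (-1) * s) * s := by
            rw [show s * (s * dl (-1) * s) * s = (s * s) * dl (-1) * (s * s) by group, hss,
              one_mul, mul_one]
        _ = 1 := by rw [h, mul_one, hss]
    have heq : s * dl (-1) * s = dl (-1) :=
      hyp.inv_unique hsq2 hne2 (by rw [mul_smul, mul_smul, hs1, a2, hs2]) hsq1 hne1 a1 hzo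
        (by rw [mul_smul, mul_smul, hs2, a1, hs1]) a2
    apply hdl_inj _ _ (hβ0 _ hneg1) hneg1
    rw [hβdl _ hneg1, heq]
  have hβneg : ∀ x : ↥R, x ≠ 0 → β (-x) = -β x := by
    intro x hx
    have h1 := hβmul (-1) x hneg1 hx
    rw [hβneg1, neg_one_mul, neg_one_mul] at h1
    exact h1
  have htr_neg : ∀ b : ↥R, tr (-b) = (tr b)⁻¹ := by
    intro b
    have h1 := htr_add b (-b)
    rw [add_neg_cancel, htr_zero] at h1
    exact eq_inv_of_mul_eq_one_right h1.symm
  have hs_o : s • o = pt 0 := by rw [hpt0]; exact hs1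
  have hs_0 : s • pt 0 = o := by rw [hpt0]; exact hs2
  have hrel : s * tr (-1) * s * tr 1 * s = tr (-1) * dl (-1) := by
    have hdo : dl (-1) • o = o := (hdl (-1) hneg1).1
    have key : (tr (-1) * dl (-1))⁻¹ * (s * tr (-1) * s * tr 1 * s) = 1 := by
      apply hyp.s3 _ o (pt 0) (pt (-1)) (hpt_o 0).symm
        (fun h => hneg1 (hpt_inj h).symm) (hpt_o (-1)).symm
      · rw [mul_smul, inv_smul_eq_iff, mul_smul, mul_smul, mul_smul, mul_smul, mul_smul,
          hs_o, htr', zero_add, hs_pt 1 one_ne_zero, hβ1, htr', add_neg_cancel, hs_0, hdo, htr_o]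
      · rw [mul_smul, inv_smul_eq_iff, mul_smul, mul_smul, mul_smul, mul_smul, mul_smul,
          hs_0, htr_o, hs_o, htr', zero_add, hs_pt (-1) hneg1, hβneg1, hdl_pt (-1) 0 hneg1,
          mul_zero, htr', zero_add]
      · rw [mul_smul, inv_smul_eq_iff, mul_smul, mul_smul, mul_smul, mul_smul, mul_smul,
          hs_pt (-1) hneg1, hβneg1, htr', neg_add_cancel, hs_0, htr_o, hs_o,
          hdl_pt (-1) (-1) hneg1, neg_one_mul, neg_neg, htr', add_neg_cancel]
    exact (inv_mul_eq_one.mp key).symm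
  have hfe : ∀ y : ↥R, y ≠ 0 → y + 1 ≠ 0 → β (β y + 1) + β (y + 1) = 1 := by
    intro y hy hy1
    have hβy1 : β y + 1 ≠ 0 := by
      intro h
      apply hy1
      have h1 : β y = β (-1) := by rw [hβneg1]; exact eq_neg_of_add_eq_zero_left h
      have h2 : y = -1 := hβinj y (-1) hy hneg1 h1
      rw [h2, neg_add_cancel]
    have hb2 : β (β y + 1) + -1 ≠ 0 := by
      intro h
      have h1 : β (β y + 1) = 1 := by
        have := eq_neg_of_add_eq_zero_left h
        rw [neg_neg] at this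
        exact this
      have h2 : β y + 1 = 1 := hβinj _ _ hβy1 one_ne_zero (by rw [h1, hβ1])
      exact hβ0 y hy (by linear_combination h2)
    have h3 : (s * tr (-1) * s * tr 1 * s) • pt y = (tr (-1) * dl (-1)) • pt y := by rw [hrel]
    rw [mul_smul, mul_smul, mul_smul, mul_smul, mul_smul, hs_pt y hy, htr', hs_pt _ hβy1, htr',
      hs_pt _ hb2, hdl_pt (-1) y hneg1, htr'] at h3
    have h4 := hpt_inj h3
    have h5 : β (β y + 1) + -1 = β (-(y + 1)) := by
      rw [← hββ _ hb2, h4]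
      congr 1
      ring
    rw [hβneg _ hy1] at h5
    linear_combination h5
  have hβnat : ∀ n : ℕ, (n : ↥R) ≠ 0 → β (n : ↥R) = (n : ↥R)⁻¹ := by
    intro n
    induction n with
    | zero => intro h; exact absurd Nat.cast_zero h
    | succ n ih =>
      intro hn1
      by_cases hn : (n : ↥R) = 0
      · have : ((n + 1 : ℕ) : ↥R) = 1 := by rw [Nat.cast_succ, hn, zero_add]
        rw [this, hβ1, inv_one]
      · have ih' := ih hn
        have hn1' : (n : ↥R) + 1 ≠ 0 := by rw [← Nat.cast_succ]; exact hn1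
        have hy : (n : ↥R)⁻¹ ≠ 0 := inv_ne_zero hn
        have hy1 : (n : ↥R)⁻¹ + 1 ≠ 0 := by
          intro h
          apply hn1'
          have h' : (n : ↥R) * ((n : ↥R)⁻¹ + 1) = 0 := by rw [h, mul_zero]
          rw [mul_add, mul_inv_cancel₀ hn, mul_one] at h'
          rw [add_comm]
          exact h'
        have fe := hfe _ hy hy1
        have e1 : (n : ↥R)⁻¹ + 1 = ((n : ↥R) + 1) * (n : ↥R)⁻¹ := by
          rw [add_mul, mul_inv_cancel₀ hn, one_mul, add_comm]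
        rw [e1, hβmul _ _ hn1' hy, hβinv _ hn, ih', inv_inv] at fe
        rw [Nat.cast_succ]
        apply eq_inv_of_mul_eq_one_left
        linear_combination fe
  -- the element g₁ is multiplication by m
  have hcastR : ∀ (n : ℕ) (a : Additive ↥(Kg hyp)),
      ((n : ↥R) : AddMonoid.End (Additive ↥(Kg hyp))) a = n • a := by
    intro n a
    induction n with
    | zero =>
      calc (((0 : ℕ) : ↥R) : AddMonoid.End (Additive ↥(Kg hyp))) a
          = ((0 : ↥R) : AddMonoid.End (Additive ↥(Kg hyp))) a := by rw [Nat.cast_zero]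
        _ = 0 := rfl
        _ = 0 • a := (zero_nsmul a).symm
    | succ n ih =>
      calc (((n + 1 : ℕ) : ↥R) : AddMonoid.End (Additive ↥(Kg hyp))) a
          = (((n : ↥R) + 1 : ↥R) : AddMonoid.End (Additive ↥(Kg hyp))) a := by
            rw [Nat.cast_succ]
        _ = ((n : ↥R) : AddMonoid.End (Additive ↥(Kg hyp))) a + a := rfl
        _ = n • a + a := by rw [ih]
        _ = (n + 1) • a := (succ_nsmul a n).symm
  obtain ⟨a₁, ha₁0, ha₁c, ha₁dl⟩ := hRofH g₁ hg₁o hg₁z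
  have ha₁m : a₁ = ((m : ℕ) : ↥R) := by
    by_contra hne
    have hd : a₁ - ((m : ℕ) : ↥R) ≠ 0 := sub_ne_zero.mpr hne
    rcases (hRmem _).mp (a₁ - ((m : ℕ) : ↥R)).2 with h0 | hT'
    · exact hd (Subtype.ext h0)
    · apply t7 _ hT' τK hτ1
      have e1 : a₁.1 (Additive.ofMul τK) = Additive.ofMul (τK ^ m) := by
        rw [ha₁c]
        apply Additive.toMul.injective
        apply Subtype.ext
        show g₁ * (τK : G) * g₁⁻¹ = ((τK ^ m : ↥(Kg hyp)) : G)
        rw [Subgroup.coe_pow]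
        exact hg₁
      have e2 : (((m : ℕ) : ↥R) : AddMonoid.End (Additive ↥(Kg hyp))) (Additive.ofMul τK) =
          Additive.ofMul (τK ^ m) := by
        rw [hcastR, ofMul_pow]
      show a₁.1 (Additive.ofMul τK) -
        (((m : ℕ) : ↥R) : AddMonoid.End (Additive ↥(Kg hyp))) (Additive.ofMul τK) = 0
      rw [e1, e2, sub_self]
  have hm0 : ((m : ℕ) : ↥R) ≠ 0 := by rw [← ha₁m]; exact ha₁0
  have hdlm : dl ((m : ℕ) : ↥R) = g₁ := by rw [← ha₁m]; exact ha₁dl
  have hβm : β ((m : ℕ) : ↥R) = ((m : ℕ) : ↥R)⁻¹ := hβnat m hm0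
  have hβall : ∀ x : ↥R, x ≠ 0 → β x = x⁻¹ := by
    intro x hx
    obtain ⟨x1, x2, x3⟩ := hdl x hx
    have hxH : dl x ∈ H := (hH _).mpr ⟨x1, x2⟩
    rcases hχpm (dl x) with h1 | h1
    · have h2 := hNinv (dl x) ((hN _).mpr ⟨hxH, h1⟩)
      apply hdl_inj _ _ (hβ0 x hx) (inv_ne_zero hx)
      rw [hβdl x hx, h2, hdl_inv x hx]
    · have hx' : ((m : ℕ) : ↥R)⁻¹ * x ≠ 0 := mul_ne_zero (inv_ne_zero hm0) hx
      have h3 : dl (((m : ℕ) : ↥R)⁻¹ * x) = g₁⁻¹ * dl x := by
        rw [hdl_mul _ _ (inv_ne_zero hm0) hx, hdl_inv _ hm0, hdlm]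
      have h4 : g₁⁻¹ * dl x ∈ N := (hN _).mpr ⟨H.mul_mem (H.inv_mem hg₁H) hxH, by
        rw [map_mul, map_inv, hχg₁, h1]
        decide⟩
      have h5 := hNinv _ h4
      have h6 : β (((m : ℕ) : ↥R)⁻¹ * x) = (((m : ℕ) : ↥R)⁻¹ * x)⁻¹ := by
        apply hdl_inj _ _ (hβ0 _ hx') (inv_ne_zero hx')
        rw [hβdl _ hx', h3, h5, hdl_inv _ hx', h3]
      have h7 : x = ((m : ℕ) : ↥R) * (((m : ℕ) : ↥R)⁻¹ * x) := by
        rw [← mul_assoc, mul_inv_cancel₀ hm0, one_mul]
      rw [h7, hβmul _ _ hm0 hx', hβm, h6]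
      exact (mul_inv _ _).symm
  have hs' : ∀ x : ↥R, x ≠ 0 → s • pt x = pt x⁻¹ := by
    intro x hx
    rw [hs_pt x hx, hβall x hx]
  -- transfer to the Galois field
  haveI : Finite (GaloisField p f) := by
    apply Nat.finite_of_card_ne_zero
    rw [GaloisField.card p f hf0]
    exact (pow_pos hp.pos f).ne'
  letI : Fintype (GaloisField p f) := Fintype.ofFinite _
  have hFc : Fintype.card (GaloisField p f) = p ^ f := by
    rw [← Nat.card_eq_fintype_card, GaloisField.card p f hf0]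
  have ι : GaloisField p f ≃+* ↥R := FiniteField.ringEquivOfCardEq (by rw [hFc, hRcard])
  refine ⟨GaloisField p f, inferInstance, inferInstance, hFc, ?_⟩
  apply final_odd hyp.s3 o (fun x => pt (ι x)) ?_ ?_ ?_ (fun b => tr (ι b)) ?_ ?_
    (fun a => dl (ι a)) ?_ ?_ s ?_ ?_ ?_
  · exact fun x y h => ι.injective (hpt_inj h)
  · exact fun r => hpt_o _
  · intro x hx
    obtain ⟨r, hr⟩ := hpt_surj x hx
    refine ⟨ι.symm r, ?_⟩
    show pt (ι (ι.symm r)) = x
    rw [ι.apply_symm_apply]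
    exact hr
  · exact fun b => htr_o _
  · intro b x
    show tr (ι b) • pt (ι x) = pt (ι (x + b))
    rw [htr', map_add]
  · exact fun a ha => (hdl (ι a) ((map_ne_zero ι).mpr ha)).1
  · intro a x ha
    show dl (ι a) • pt (ι x) = pt (ι (a * x))
    rw [hdl_pt _ _ ((map_ne_zero ι).mpr ha), map_mul]
  · show s • o = pt (ι 0)
    rw [map_zero]
    exact hs_o
  · show s • pt (ι 0) = o
    rw [map_zero]
    exact hs_0
  · intro x hx
    show s • pt (ι x) = pt (ι x⁻¹)
    rw [map_inv₀]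
    exact hs' _ ((map_ne_zero ι).mpr hx)

end Cfsg.Agent.Helper6.Sharp3o
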