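import Mathlib
import Cfsg.Prelude.Def_LieRecognition

set_option autoImplicit false

namespace Cfsg.Agent.Helper6
namespace Suz2

universe u v

section basic
variable {P : Type u} [Group P]

theorem exists_invol_pow {z : P} (hz : z ≠ 1) :
    ∀ j : ℕ, z ^ (2 ^ j) = 1 → ∃ m : ℕ, z ^ m ≠ 1 ∧ z ^ m * z ^ m = 1
  | 0, h => absurd (by simpa using h) hz
  | j + 1, h => by
    by_cases h' : z ^ (2 ^ j) = 1
    · exact exists_invol_pow hz j h'
    · exact ⟨2 ^ j, h', by rw [← pow_add, ← two_mul, ← pow_succ']; exact h⟩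

theorem aut_center (e : MulAut P) {z : P} (hz : z ∈ Subgroup.center P) :
    e z ∈ Subgroup.center P := by
  rw [Subgroup.mem_center_iff] at hz ⊢
  intro g
  have h := congrArg e (hz (e.symm g))
  rw [map_mul, map_mul, MulEquiv.apply_symm_apply] at h
  exact h

theorem conj_inv_pow {x c : P} (h : x⁻¹ * c * x = c⁻¹) :
    ∀ m : ℕ, x⁻¹ * c ^ m * x = (c ^ m)⁻¹
  | 0 => by simp
  | m + 1 => by
    have ih := conj_inv_pow h m
    calc x⁻¹ * c ^ (m + 1) * x = (x⁻¹ * c ^ m * x) * (x⁻¹ * c * x) := by rw [pow_succ]; group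
      _ = (c ^ m)⁻¹ * c⁻¹ := by rw [ih, h]
      _ = (c ^ (m + 1))⁻¹ := by rw [pow_succ', mul_inv_rev]

theorem sq_div {x s : P} (hs : s ∈ Subgroup.center P) (h : s * s = x * x) :
    (x * s⁻¹) * (x * s⁻¹) = 1 := by
  have hsc := Subgroup.mem_center_iff.mp hs
  have h1 : s⁻¹ * x = x * s⁻¹ := by
    calc s⁻¹ * x = s⁻¹ * (x * s) * s⁻¹ := by group
      _ = s⁻¹ * (s * x) * s⁻¹ := by rw [hsc x]
      _ = x * s⁻¹ := by group
  calc (x * s⁻¹) * (x * s⁻¹) = x * (s⁻¹ * x) * s⁻¹ := by group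
    _ = x * (x * s⁻¹) * s⁻¹ := by rw [h1]
    _ = (x * x) * (s * s)⁻¹ := by group
    _ = 1 := by rw [h, mul_inv_cancel]

theorem exists_noncentral_sq : ∀ (j : ℕ) (x : P), x ^ (2 ^ j) = 1 → x ∉ Subgroup.center P →
    ∃ x' : P, x' ∉ Subgroup.center P ∧ x' * x' ∈ Subgroup.center P
  | 0, x, h, hx => absurd (by rw [pow_zero, pow_one] at h; rw [h]; exact Subgroup.one_mem _) hx
  | j + 1, x, h, hx => by
    by_cases h' : x * x ∈ Subgroup.center P
    · exact ⟨x, hx, h'⟩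
    · refine exists_noncentral_sq j (x * x) ?_ h'
      rw [← pow_two, ← pow_mul, ← pow_succ']
      exact h

/-- the elements of square one, as a subgroup, when they are all central -/
def sqOne (hc : ∀ x : P, x * x = 1 → x ∈ Subgroup.center P) : Subgroup P where
  carrier := {x | x * x = 1}
  one_mem' := by
    show (1 : P) * 1 = 1
    rw [one_mul]
  mul_mem' := by
    intro a b ha hb
    have ha' : a * a = 1 := ha
    have hb' : b * b = 1 := hb
    have hac := Subgroup.mem_center_iff.mp (hc a ha')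
    show a * b * (a * b) = 1
    calc a * b * (a * b) = a * (b * a) * b := by group
      _ = a * (a * b) * b := by rw [hac b]
      _ = (a * a) * (b * b) := by group
      _ = 1 := by rw [ha', hb', one_mul]
  inv_mem' := by
    intro a ha
    have ha' : a * a = 1 := ha
    show a⁻¹ * a⁻¹ = 1
    rw [← mul_inv_rev, ha', inv_one]

instance sqOne_normal (hc : ∀ x : P, x * x = 1 → x ∈ Subgroup.center P) :
    (sqOne hc).Normal := by
  constructor
  intro n hn g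
  have hn' : n * n = 1 := hn
  have hnc := Subgroup.mem_center_iff.mp (hc n hn')
  have : g * n * g⁻¹ = n := by rw [hnc g]; group
  rw [this]; exact hn

theorem sqOne_map (hc : ∀ x : P, x * x = 1 → x ∈ Subgroup.center P) (e : P ≃* P) :
    (sqOne hc).map (e : P →* P) = sqOne hc := by
  ext x
  constructor
  · rintro ⟨y, hy, rfl⟩
    have hy' : y * y = 1 := hy
    show e y * e y = 1
    rw [← map_mul, hy', map_one]
  · intro hx
    have hx' : x * x = 1 := hx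
    refine ⟨e.symm x, ?_, ?_⟩
    · show e.symm x * e.symm x = 1
      rw [← map_mul, hx', map_one]
    · show e (e.symm x) = x
      exact e.apply_symm_apply x

end basic

section main
variable {P : Type u} [Group P] {K : Type v} [CommGroup K]

/-- `K` acts (via `ρ`) regularly on the involutions of `P` -/
def Reg (ρ : K →* MulAut P) : Prop :=
  ∀ x y : P, x ≠ 1 → x * x = 1 → y ≠ 1 → y * y = 1 → ∃! k : K, ρ k x = y

/-- the induced action on the quotient by the elements of square one -/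
def rhoBar (hc : ∀ x : P, x * x = 1 → x ∈ Subgroup.center P) (ρ : K →* MulAut P) :
    K →* MulAut (P ⧸ sqOne hc) where
  toFun k := QuotientGroup.congr (sqOne hc) (sqOne hc) (ρ k) (sqOne_map hc (ρ k))
  map_one' := by
    ext ⟨x⟩
    show (QuotientGroup.mk (ρ 1 x) : P ⧸ sqOne hc) = QuotientGroup.mk x
    rw [map_one]; rfl
  map_mul' k k' := by
    ext ⟨x⟩
    show (QuotientGroup.mk (ρ (k * k') x) : P ⧸ sqOne hc) = QuotientGroup.mk (ρ k (ρ k' x))
    rw [map_mul]; rfl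

variable [Finite P]

theorem inv_central (hP2 : IsPGroup 2 P) {ρ : K →* MulAut P} (hreg : Reg ρ) :
    ∀ x : P, x * x = 1 → x ∈ Subgroup.center P := by
  intro x hx
  by_cases hx1 : x = 1
  · rw [hx1]; exact Subgroup.one_mem _
  have : Nontrivial P := ⟨⟨x, 1, hx1⟩⟩
  have := hP2.center_nontrivial
  obtain ⟨⟨z₀, hz₀⟩, hne⟩ := exists_ne (1 : Subgroup.center P)
  have hz1 : z₀ ≠ 1 := fun h => hne (Subtype.ext h)
  obtain ⟨j, hj⟩ := hP2 z₀
  obtain ⟨m, hm1, hm2⟩ := exists_invol_pow hz1 j hj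
  obtain ⟨k, hk, -⟩ := hreg _ _ hm1 hm2 hx1 hx
  rw [← hk]
  exact aut_center _ (Subgroup.pow_mem _ hz₀ m)

theorem exists_sq (hP2 : IsPGroup 2 P) {ρ : K →* MulAut P} (hreg : Reg ρ)
    (hz : ∃ z ∈ Subgroup.center P, z * z ≠ 1) :
    ∀ v : P, v * v = 1 → ∃ z ∈ Subgroup.center P, z * z = v := by
  obtain ⟨z₀, hz₀, hz₀2⟩ := hz
  obtain ⟨j, hj⟩ := hP2 (z₀ * z₀)
  obtain ⟨m, hm1, hm2⟩ := exists_invol_pow hz₀2 j hj
  have hsq : (z₀ * z₀) ^ m = z₀ ^ m * z₀ ^ m := (Commute.refl z₀).mul_pow m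
  rw [hsq] at hm1 hm2
  intro v hv
  by_cases hv1 : v = 1
  · exact ⟨1, Subgroup.one_mem _, by rw [hv1, one_mul]⟩
  · obtain ⟨k, hk, -⟩ := hreg _ _ hm1 hm2 hv1 hv
    exact ⟨ρ k (z₀ ^ m), aut_center _ (Subgroup.pow_mem _ hz₀ m), by rw [← map_mul, hk]⟩

omit [Finite P] in
theorem central_of_four (hc : ∀ x : P, x * x = 1 → x ∈ Subgroup.center P)
    (hsq : ∀ v : P, v * v = 1 → ∃ z ∈ Subgroup.center P, z * z = v) :
    ∀ x : P, (x * x) * (x * x) = 1 → x ∈ Subgroup.center P := by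
  intro x hx
  obtain ⟨z, hz, hzz⟩ := hsq _ hx
  have := Subgroup.mul_mem _ (hc _ (sq_div hz hzz)) hz
  rwa [inv_mul_cancel_right] at this

omit [Finite P] in
theorem comm_sq (hfour : ∀ x : P, (x * x) * (x * x) = 1 → x ∈ Subgroup.center P)
    (hP2 : IsPGroup 2 P) {x : P} (hx : x * x ∈ Subgroup.center P) (y : P) :
    (y⁻¹ * x⁻¹ * y * x) * (y⁻¹ * x⁻¹ * y * x) = 1 := by
  have hx2 := Subgroup.mem_center_iff.mp hx
  obtain ⟨c, hcdef⟩ : ∃ c, c = y⁻¹ * x⁻¹ * y * x := ⟨_, rfl⟩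
  rw [← hcdef]
  have key : x⁻¹ * c * x = c⁻¹ := by
    rw [hcdef]
    calc x⁻¹ * (y⁻¹ * x⁻¹ * y * x) * x = x⁻¹ * y⁻¹ * x⁻¹ * (y * (x * x)) := by group
      _ = x⁻¹ * y⁻¹ * x⁻¹ * ((x * x) * y) := by rw [hx2 y]
      _ = (y⁻¹ * x⁻¹ * y * x)⁻¹ := by group
  by_contra hne
  obtain ⟨j, hj⟩ := hP2 (c * c)
  obtain ⟨m, hm1, hm2⟩ := exists_invol_pow hne j hj
  have hsq : (c * c) ^ m = c ^ m * c ^ m := (Commute.refl c).mul_pow m
  rw [hsq] at hm1 hm2
  have hd := Subgroup.mem_center_iff.mp (hfour _ hm2)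
  have h1 := conj_inv_pow key m
  have h2 : x⁻¹ * c ^ m * x = c ^ m := by
    rw [hd x⁻¹]; group
  rw [h2] at h1
  apply hm1
  calc c ^ m * c ^ m = c ^ m * (c ^ m)⁻¹ := by rw [← h1]
    _ = 1 := mul_inv_cancel _

omit [Finite P] in
theorem reg_quot (hc : ∀ x : P, x * x = 1 → x ∈ Subgroup.center P)
    (hfour : ∀ x : P, (x * x) * (x * x) = 1 → x ∈ Subgroup.center P)
    {ρ : K →* MulAut P} (hreg : Reg ρ) : Reg (rhoBar hc ρ) := by
  intro a b ha1 ha2 hb1 hb2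
  obtain ⟨x, rfl⟩ := QuotientGroup.mk_surjective a
  obtain ⟨y, rfl⟩ := QuotientGroup.mk_surjective b
  have hx4 : (x * x) * (x * x) = 1 := (QuotientGroup.eq_one_iff (x * x)).mp ha2
  have hy4 : (y * y) * (y * y) = 1 := (QuotientGroup.eq_one_iff (y * y)).mp hb2
  have hx2 : x * x ≠ 1 := fun h => ha1 ((QuotientGroup.eq_one_iff x).mpr h)
  have hy2 : y * y ≠ 1 := fun h => hb1 ((QuotientGroup.eq_one_iff y).mpr h)
  have hyc := Subgroup.mem_center_iff.mp (hfour y hy4)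
  obtain ⟨k, hk, huniq⟩ := hreg _ _ hx2 hx4 hy2 hy4
  refine ⟨k, ?_, ?_⟩
  · show (QuotientGroup.mk (ρ k x) : P ⧸ sqOne hc) = QuotientGroup.mk y
    rw [QuotientGroup.eq]
    show ((ρ k x)⁻¹ * y) * ((ρ k x)⁻¹ * y) = 1
    have h1 : ρ k x * ρ k x = y * y := by rw [← map_mul, hk]
    calc ((ρ k x)⁻¹ * y) * ((ρ k x)⁻¹ * y) = (ρ k x)⁻¹ * (y * (ρ k x)⁻¹) * y := by group
      _ = (ρ k x)⁻¹ * ((ρ k x)⁻¹ * y) * y := by rw [← hyc ((ρ k x)⁻¹)]
      _ = (ρ k x * ρ k x)⁻¹ * (y * y) := by group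
      _ = 1 := by rw [h1, inv_mul_cancel]
  · intro k' hk'
    apply huniq
    have hk'' : (QuotientGroup.mk (ρ k' x) : P ⧸ sqOne hc) = QuotientGroup.mk y := hk'
    rw [QuotientGroup.eq] at hk''
    have hu : ((ρ k' x)⁻¹ * y) * ((ρ k' x)⁻¹ * y) = 1 := hk''
    rw [map_mul]
    have : (ρ k' x * ρ k' x)⁻¹ * (y * y) = 1 := by
      calc (ρ k' x * ρ k' x)⁻¹ * (y * y) = (ρ k' x)⁻¹ * ((ρ k' x)⁻¹ * y) * y := by group
        _ = (ρ k' x)⁻¹ * (y * (ρ k' x)⁻¹) * y := by rw [hyc ((ρ k' x)⁻¹)]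
        _ = ((ρ k' x)⁻¹ * y) * ((ρ k' x)⁻¹ * y) := by group
        _ = 1 := hu
    exact inv_mul_eq_one.mp this

/-- the Hua-type lemma: an equivariant alternating biadditive map vanishes -/
theorem hua {ρ : K →* MulAut P} (hreg : Reg ρ)
    (hc : ∀ x : P, x * x = 1 → x ∈ Subgroup.center P)
    (μ : P → P) (hμ2 : ∀ y, μ y * μ y = 1) (hμmul : ∀ y u, μ (y * u) = μ y * μ u)
    (hμρ : ∀ k y, μ (ρ k y) = ρ k (μ y))
    (B : P → P → P) (hB2 : ∀ y u, B y u * B y u = 1)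
    (hBl : ∀ y y' u, B (y * y') u = B y u * B y' u)
    (hBr : ∀ y u u', B y (u * u') = B y u * B y u')
    (hBalt : ∀ y, B y y = 1)
    (hBρ : ∀ k y u, B (ρ k y) (ρ k u) = ρ k (B y u))
    (hBker : ∀ y u, μ y = 1 → B y u = 1) :
    ∀ y u, B y u = 1 := by
  by_cases hμ : ∀ y, μ y = 1
  · intro y u; exact hBker y u (hμ y)
  push Not at hμ
  obtain ⟨y₁, he1⟩ := hμ
  obtain ⟨e₁, hedef⟩ : ∃ e₁, e₁ = μ y₁ := ⟨_, rfl⟩
  rw [← hedef] at he1
  have he2 : e₁ * e₁ = 1 := by rw [hedef]; exact hμ2 y₁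
  have hci : ∀ a b : P, a * a = 1 → a * b = b * a := fun a b ha =>
    (Subgroup.mem_center_iff.mp (hc a ha) b).symm
  have hmi : ∀ a b : P, a * a = 1 → b * b = 1 → (a * b) * (a * b) = 1 := by
    intro a b ha hb
    calc a * b * (a * b) = a * (b * a) * b := by group
      _ = a * (a * b) * b := by rw [hci a b ha]
      _ = (a * a) * (b * b) := by group
      _ = 1 := by rw [ha, hb, one_mul]
  have hρ1 : ∀ (k : K) (x : P), x ≠ 1 → ρ k x ≠ 1 := fun k x hx h =>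
    hx ((ρ k).injective (h.trans (map_one _).symm))
  have hρ2 : ∀ (k : K) (x : P), x * x = 1 → ρ k x * ρ k x = 1 := fun k x hx => by
    rw [← map_mul, hx, map_one]
  have hρc : ∀ (k k' : K) (x : P), ρ k (ρ k' x) = ρ (k * k') x := fun k k' x => by
    rw [map_mul, MulAut.mul_apply]
  have huniq : ∀ (k k' : K) (x : P), x ≠ 1 → x * x = 1 → ρ k x = ρ k' x → k = k' := by
    intro k k' x hx1 hx2 h
    obtain ⟨k₀, -, hu⟩ := hreg x (ρ k x) hx1 hx2 (hρ1 k x hx1) (hρ2 k x hx2)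
    exact (hu k rfl).trans (hu k' h.symm).symm
  have hsurj : ∀ b : P, b ≠ 1 → b * b = 1 → ∃ k, ρ k e₁ = b := fun b hb1 hb2 =>
    (hreg e₁ b he1 he2 hb1 hb2).exists
  have hBsymm : ∀ y u, B y u = B u y := by
    intro y u
    have h := hBalt (y * u)
    rw [hBl, hBr, hBr, hBalt, hBalt, one_mul, mul_one] at h
    exact (mul_left_cancel (h.trans (hB2 y u).symm)).symm
  have hBker' : ∀ y u, μ u = 1 → B y u = 1 := fun y u h => by
    rw [hBsymm]; exact hBker u y h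
  have hwd1 : ∀ y y' u, μ y = μ y' → B y u = B y' u := by
    intro y y' u h
    have h1 : μ (y⁻¹ * y') = 1 := by
      have h2 : μ y * μ (y⁻¹ * y') = μ y * 1 := by
        rw [← hμmul, mul_inv_cancel_left, mul_one, h]
      exact mul_left_cancel h2
    have h3 : B y' u = B y u * B (y⁻¹ * y') u := by
      rw [← hBl, mul_inv_cancel_left]
    rw [h3, hBker _ _ h1, mul_one]
  have hwd2 : ∀ y u u', μ u = μ u' → B y u = B y u' := by
    intro y u u' h
    rw [hBsymm y u, hBsymm y u']; exact hwd1 u u' y h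
  have hG1 : B y₁ (ρ 1 y₁) = 1 := by rw [map_one, MulAut.one_apply]; exact hBalt y₁
  have hGb : ∀ k : K, B y₁ (ρ k y₁) = ρ k (B y₁ (ρ k⁻¹ y₁)) := by
    intro k
    rw [← hBρ, hρc, mul_inv_cancel, map_one, MulAut.one_apply]
    exact hBsymm _ _
  have hGc : ∀ k k' k'' : K, ρ k e₁ * ρ k' e₁ = ρ k'' e₁ →
      B y₁ (ρ k y₁) * B y₁ (ρ k' y₁) = B y₁ (ρ k'' y₁) := by
    intro k k' k'' h
    rw [← hBr]
    apply hwd2
    rw [hμmul, hμρ, hμρ, hμρ, ← hedef, h]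
  have hnoinv : ∀ s : K, s * s = 1 → s = 1 := by
    intro s hs
    by_contra hs1
    have hne : ρ s e₁ ≠ e₁ := fun h =>
      hs1 (huniq s 1 e₁ he1 he2 (by rw [h, map_one, MulAut.one_apply]))
    have hse2 := hρ2 s e₁ he2
    have hw2 : (e₁ * ρ s e₁) * (e₁ * ρ s e₁) = 1 := hmi _ _ he2 hse2
    have hw1 : e₁ * ρ s e₁ ≠ 1 := by
      intro h
      apply hne
      have : ρ s e₁ = e₁⁻¹ := eq_inv_of_mul_eq_one_right h
      rw [this]; exact inv_eq_of_mul_eq_one_left he2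
    have h1 : ρ 1 (e₁ * ρ s e₁) = e₁ * ρ s e₁ := by rw [map_one, MulAut.one_apply]
    have hfix : ρ s (e₁ * ρ s e₁) = ρ 1 (e₁ * ρ s e₁) := by
      rw [h1, map_mul (ρ s), hρc, hs, map_one, MulAut.one_apply]
      exact (hci e₁ _ he2).symm
    exact hs1 (huniq s 1 _ hw1 hw2 hfix)
  have hKfin : Finite K :=
    Finite.of_injective (fun k => ρ k e₁) (fun k k' h => huniq k k' e₁ he1 he2 h)
  have hsqsurj : ∀ k : K, ∃ t : K, t * t = k := by
    have hinj : Function.Injective (powMonoidHom 2 : K →* K) := by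
      rw [injective_iff_map_eq_one]
      intro a ha
      apply hnoinv
      rw [← pow_two]; exact ha
    have hsur := Finite.injective_iff_surjective.mp hinj
    intro k
    obtain ⟨t, ht⟩ := hsur k
    exact ⟨t, by rw [← pow_two]; exact ht⟩
  have hGinv : ∀ k : K, B y₁ (ρ k⁻¹ y₁) = ρ k⁻¹ (B y₁ (ρ k y₁)) := by
    intro k
    have := hGb k⁻¹
    rwa [inv_inv] at this
  have hGsq : ∀ t : K, B y₁ (ρ (t * t) y₁) = 1 := by
    intro t
    by_cases ht : t = 1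
    · rw [ht, mul_one]; exact hG1
    have hane : ρ t e₁ ≠ e₁ := fun h =>
      ht (huniq t 1 e₁ he1 he2 (by rw [h, map_one, MulAut.one_apply]))
    have ha2 := hρ2 t e₁ he2
    have hae2 : (ρ t e₁ * e₁) * (ρ t e₁ * e₁) = 1 := hmi _ _ ha2 he2
    have hae1 : ρ t e₁ * e₁ ≠ 1 := by
      intro h
      apply hane
      have : ρ t e₁ = e₁⁻¹ := eq_inv_of_mul_eq_one_left h
      rw [this]; exact inv_eq_of_mul_eq_one_left he2
    obtain ⟨u, hu⟩ := hsurj _ hae1 hae2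
    have hsum : ρ u e₁ * ρ t e₁ = e₁ := by
      rw [hu]
      calc ρ t e₁ * e₁ * ρ t e₁ = ρ t e₁ * (e₁ * ρ t e₁) := by group
        _ = ρ t e₁ * (ρ t e₁ * e₁) := by rw [hci e₁ _ he2]
        _ = (ρ t e₁ * ρ t e₁) * e₁ := by group
        _ = e₁ := by rw [ha2, one_mul]
    have hcancel : t * u * (t⁻¹ * u⁻¹) = 1 := by
      rw [← mul_inv_rev, mul_comm u t, mul_inv_cancel]
    have hA : ρ t⁻¹ e₁ * ρ u⁻¹ e₁ = ρ (t⁻¹ * u⁻¹) e₁ := by
      apply (ρ (t * u)).injective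
      rw [map_mul (ρ (t * u)), hρc, hρc, hρc, mul_inv_cancel_comm, mul_inv_cancel_right, hsum,
        hcancel, map_one, MulAut.one_apply]
    have h1 := hGc t⁻¹ u⁻¹ (t⁻¹ * u⁻¹) hA
    rw [hGinv t, hGinv u] at h1
    have h2 : B y₁ (ρ (t⁻¹ * u⁻¹) y₁) = ρ (t⁻¹ * u⁻¹) (B y₁ (ρ (t * u) y₁)) := by
      have := hGb (t⁻¹ * u⁻¹)
      rwa [show (t⁻¹ * u⁻¹)⁻¹ = t * u by rw [mul_inv_rev, inv_inv, inv_inv, mul_comm]] at this
    rw [h2] at h1
    have h3 := congrArg (ρ (t * u)) h1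
    rw [map_mul (ρ (t * u)), hρc, hρc, hρc, mul_inv_cancel_comm, mul_inv_cancel_right,
      hcancel, map_one, MulAut.one_apply] at h3
    have hGu : B y₁ (ρ u y₁) = B y₁ (ρ t y₁) := by
      have := hGc t 1 u (by rw [map_one, MulAut.one_apply, hu])
      rw [hG1, mul_one] at this
      exact this.symm
    have hC : ∀ w : P, w * w = 1 → ρ u w * ρ t w = w := by
      intro w hw
      by_cases hw1 : w = 1
      · rw [hw1, map_one, map_one, one_mul]
      · obtain ⟨k, hk⟩ := hsurj w hw1 hw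
        rw [← hk, hρc, hρc, mul_comm u k, mul_comm t k, ← hρc, ← hρc, ← map_mul, hsum]
    have h4 : B y₁ (ρ (t * u) y₁) = B y₁ (ρ t y₁) := by
      rw [← h3, hGu]
      exact hC _ (hB2 _ _)
    have h5 := hGc (t * t) t (t * u) (by
      rw [← hρc t t e₁, ← hρc t u e₁, ← map_mul, hu])
    rw [h4] at h5
    exact mul_right_cancel (h5.trans (one_mul _).symm)
  have hG : ∀ k : K, B y₁ (ρ k y₁) = 1 := by
    intro k
    obtain ⟨t, rfl⟩ := hsqsurj k
    exact hGsq t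
  intro y u
  by_cases hy : μ y = 1
  · exact hBker y u hy
  by_cases hu : μ u = 1
  · exact hBker' y u hu
  obtain ⟨ka, hka⟩ := hsurj (μ y) hy (hμ2 y)
  obtain ⟨kb, hkb⟩ := hsurj (μ u) hu (hμ2 u)
  have h1 : B y u = B (ρ ka y₁) u := hwd1 _ _ _ (by rw [hμρ, ← hedef, hka])
  have h2 : B (ρ ka y₁) u = B (ρ ka y₁) (ρ kb y₁) := hwd2 _ _ _ (by rw [hμρ, ← hedef, hkb])
  have h3 : ρ kb y₁ = ρ ka (ρ (ka⁻¹ * kb) y₁) := by rw [hρc, mul_inv_cancel_left]
  rw [h1, h2, h3, hBρ, hG, map_one]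

theorem abelian_of_class_two (hP2 : IsPGroup 2 P) {ρ : K →* MulAut P} (hreg : Reg ρ)
    (hz : ∃ z ∈ Subgroup.center P, z * z ≠ 1)
    (hcomm : ∀ y u : P, (y⁻¹ * u⁻¹ * y * u) * (y⁻¹ * u⁻¹ * y * u) = 1) :
    ∀ a b : P, a * b = b * a := by
  classical
  have hc := inv_central hP2 hreg
  have hS : ∃ e : ℕ, ∀ z ∈ Subgroup.center P, z ^ (2 ^ e) = 1 := by
    obtain ⟨n, hn⟩ := IsPGroup.iff_card.mp hP2
    exact ⟨n, fun z _ => by rw [← hn]; exact pow_card_eq_one'⟩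
  obtain ⟨e, hedef⟩ : ∃ e, e = Nat.find hS := ⟨_, rfl⟩
  have he : ∀ z ∈ Subgroup.center P, z ^ (2 ^ e) = 1 := by
    rw [hedef]; exact Nat.find_spec hS
  have hmin : ∀ m, m < e → ¬ ∀ z ∈ Subgroup.center P, z ^ (2 ^ m) = 1 := fun m hm =>
    Nat.find_min hS (by rw [← hedef]; exact hm)
  obtain ⟨z₀, hz₀, hz₀2⟩ := hz
  have he2 : 2 ≤ e := by
    by_contra hlt
    push Not at hlt
    have h := he z₀ hz₀
    apply hz₀2
    interval_cases e
    · rw [pow_zero, pow_one] at h; rw [h, one_mul]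
    · rw [pow_one, pow_two] at h; exact h
  have hmin' := hmin (e - 1) (by omega)
  push Not at hmin'
  obtain ⟨w₀, hw₀, hw₀1⟩ := hmin'
  have hw₀2 : w₀ ^ (2 ^ (e - 1)) * w₀ ^ (2 ^ (e - 1)) = 1 := by
    rw [← pow_add, ← two_mul, ← pow_succ', Nat.sub_add_cancel (by omega)]
    exact he w₀ hw₀
  have H1 : ∀ x : P, x * x = 1 → ∃ t ∈ Subgroup.center P, x = t ^ (2 ^ (e - 1)) := by
    intro x hx
    by_cases hx1 : x = 1
    · exact ⟨1, Subgroup.one_mem _, by rw [hx1, one_pow]⟩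
    · obtain ⟨k, hk, -⟩ := hreg _ _ hw₀1 hw₀2 hx1 hx
      exact ⟨ρ k w₀, aut_center _ hw₀, by rw [← map_pow, hk]⟩
  have H : ∀ i : ℕ, i ≤ e → ∀ x : P, x ^ (2 ^ i) = 1 →
      ∃ w ∈ Subgroup.center P, x = w ^ (2 ^ (e - i)) := by
    intro i
    induction i with
    | zero =>
      intro _ x hx
      rw [pow_zero, pow_one] at hx
      exact ⟨1, Subgroup.one_mem _, by rw [hx, one_pow]⟩
    | succ i ih =>
      intro hi x hx
      have h2 : (x * x) ^ (2 ^ i) = 1 := by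
        rw [← pow_two, ← pow_mul, ← pow_succ']; exact hx
      obtain ⟨w, hw, hxw⟩ := ih (by omega) (x * x) h2
      have hs : w ^ (2 ^ (e - (i + 1))) ∈ Subgroup.center P := Subgroup.pow_mem _ hw _
      have hss : w ^ (2 ^ (e - (i + 1))) * w ^ (2 ^ (e - (i + 1))) = x * x := by
        rw [← pow_add, ← two_mul, ← pow_succ', hxw]
        congr 2
        omega
      obtain ⟨t, ht, hyt⟩ := H1 _ (sq_div hs hss)
      refine ⟨t ^ (2 ^ i) * w, Subgroup.mul_mem _ (Subgroup.pow_mem _ ht _) hw, ?_⟩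
      have hcm : Commute (t ^ (2 ^ i)) w := Subgroup.mem_center_iff.mp hw (t ^ (2 ^ i))
      have hexp : 2 ^ i * 2 ^ (e - (i + 1)) = 2 ^ (e - 1) := by
        rw [← pow_add]; congr 1; omega
      rw [hcm.mul_pow, ← pow_mul, hexp, ← hyt]
      group
  have C1 : ∀ x : P, x ^ (2 ^ e) = 1 → x ∈ Subgroup.center P := by
    intro x hx
    obtain ⟨w, hw, hxw⟩ := H e le_rfl x hx
    rw [Nat.sub_self, pow_zero, pow_one] at hxw
    rw [hxw]; exact hw
  have hcent : ∀ y u : P, y⁻¹ * u⁻¹ * y * u ∈ Subgroup.center P := fun y u => hc _ (hcomm y u)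
  have m0 : ∀ y : P, y * y ∈ Subgroup.center P := by
    intro y
    rw [Subgroup.mem_center_iff]
    intro u
    obtain ⟨c, hcdef⟩ : ∃ c, c = y⁻¹ * u⁻¹ * y * u := ⟨_, rfl⟩
    have hc2 : c * c = 1 := by rw [hcdef]; exact hcomm y u
    have hcc := Subgroup.mem_center_iff.mp (hc c hc2)
    have hyu : y * u = u * y * c := by rw [hcdef]; group
    symm
    calc (y * y) * u = y * (y * u) := by group
      _ = y * (u * y * c) := by rw [hyu]
      _ = (y * u) * y * c := by group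
      _ = (u * y * c) * y * c := by rw [hyu]
      _ = u * y * (c * y) * c := by group
      _ = u * y * (y * c) * c := by rw [← hcc y]
      _ = u * (y * y) * (c * c) := by group
      _ = u * (y * y) := by rw [hc2, mul_one]
  have m1 : ∀ y : P, y ^ (2 ^ e) * y ^ (2 ^ e) = 1 := by
    intro y
    rw [← (Commute.refl y).mul_pow (2 ^ e)]
    exact he _ (m0 y)
  have p4 : ∀ x : P, x ^ 4 = (x * x) * (x * x) := by
    intro x; rw [show (4 : ℕ) = 2 * 2 from rfl, pow_mul, pow_two, pow_two]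
  have m2 : ∀ y u : P, (y * u) ^ (2 ^ e) = y ^ (2 ^ e) * u ^ (2 ^ e) := by
    intro y u
    obtain ⟨c, hcdef⟩ : ∃ c, c = y⁻¹ * u⁻¹ * y * u := ⟨_, rfl⟩
    have hc2 : c * c = 1 := by rw [hcdef]; exact hcomm y u
    have hcc := Subgroup.mem_center_iff.mp (hc c hc2)
    have hci : c⁻¹ = c := inv_eq_of_mul_eq_one_left hc2
    have huy : u * y = y * u * c := by
      calc u * y = y * u * c⁻¹ := by rw [hcdef]; group
        _ = y * u * c := by rw [hci]
    have hYc := Subgroup.mem_center_iff.mp (m0 y)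
    have hA : (y * u) * (y * u) = (y * y) * (u * u) * c := by
      calc (y * u) * (y * u) = y * (u * y) * u := by group
        _ = y * (y * u * c) * u := by rw [huy]
        _ = y * y * u * (c * u) := by group
        _ = y * y * u * (u * c) := by rw [← hcc u]
        _ = (y * y) * (u * u) * c := by group
    have hB' : ((y * u) * (y * u)) * ((y * u) * (y * u)) =
        ((y * y) * (y * y)) * ((u * u) * (u * u)) := by
      rw [hA]
      calc ((y * y) * (u * u) * c) * ((y * y) * (u * u) * c)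
          = (y * y) * ((u * u) * c * (y * y)) * ((u * u) * c) := by group
        _ = (y * y) * ((y * y) * ((u * u) * c)) * ((u * u) * c) := by rw [hYc ((u * u) * c)]
        _ = (y * y) * (y * y) * ((u * u) * (c * (u * u)) * c) := by group
        _ = (y * y) * (y * y) * ((u * u) * ((u * u) * c) * c) := by rw [← hcc (u * u)]
        _ = (y * y) * (y * y) * ((u * u) * (u * u)) * (c * c) := by group
        _ = ((y * y) * (y * y)) * ((u * u) * (u * u)) := by rw [hc2, mul_one]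
    have h4 : (y * u) ^ 4 = y ^ 4 * u ^ 4 := by rw [p4, p4, p4]; exact hB'
    have h2e : 2 ^ e = 4 * 2 ^ (e - 2) := by
      rw [show (4 : ℕ) = 2 ^ 2 from rfl, ← pow_add]; congr 1; omega
    have hcm : Commute (y ^ 4) (u ^ 4) := by
      have := Subgroup.mem_center_iff.mp (Subgroup.mul_mem _ (m0 y) (m0 y)) (u ^ 4)
      rw [p4 y]
      exact this.symm
    calc (y * u) ^ (2 ^ e) = ((y * u) ^ 4) ^ (2 ^ (e - 2)) := by rw [h2e, pow_mul]
      _ = (y ^ 4 * u ^ 4) ^ (2 ^ (e - 2)) := by rw [h4]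
      _ = (y ^ 4) ^ (2 ^ (e - 2)) * (u ^ 4) ^ (2 ^ (e - 2)) := hcm.mul_pow _
      _ = y ^ (2 ^ e) * u ^ (2 ^ e) := by rw [← pow_mul, ← pow_mul, ← h2e]
  have hBl : ∀ y y' u : P, (y * y')⁻¹ * u⁻¹ * (y * y') * u =
      (y⁻¹ * u⁻¹ * y * u) * (y'⁻¹ * u⁻¹ * y' * u) := by
    intro y y' u
    have hB := Subgroup.mem_center_iff.mp (hcent y u)
    calc (y * y')⁻¹ * u⁻¹ * (y * y') * u
        = y'⁻¹ * (y⁻¹ * u⁻¹ * y * u) * (u⁻¹ * y' * u) := by group
      _ = (y⁻¹ * u⁻¹ * y * u) * y'⁻¹ * (u⁻¹ * y' * u) := by rw [hB y'⁻¹]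
      _ = (y⁻¹ * u⁻¹ * y * u) * (y'⁻¹ * u⁻¹ * y' * u) := by group
  have hBr : ∀ y u u' : P, y⁻¹ * (u * u')⁻¹ * y * (u * u') =
      (y⁻¹ * u⁻¹ * y * u) * (y⁻¹ * u'⁻¹ * y * u') := by
    intro y u u'
    have hB := Subgroup.mem_center_iff.mp (hcent y u)
    calc y⁻¹ * (u * u')⁻¹ * y * (u * u')
        = y⁻¹ * u'⁻¹ * y * ((y⁻¹ * u⁻¹ * y * u) * u') := by group
      _ = y⁻¹ * u'⁻¹ * y * (u' * (y⁻¹ * u⁻¹ * y * u)) := by rw [← hB u']
      _ = (y⁻¹ * u'⁻¹ * y * u') * (y⁻¹ * u⁻¹ * y * u) := by group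
      _ = (y⁻¹ * u⁻¹ * y * u) * (y⁻¹ * u'⁻¹ * y * u') := hB _
  have hBalt : ∀ y : P, y⁻¹ * y⁻¹ * y * y = 1 := by intro y; group
  have hBρ : ∀ (k : K) (y u : P), (ρ k y)⁻¹ * (ρ k u)⁻¹ * ρ k y * ρ k u =
      ρ k (y⁻¹ * u⁻¹ * y * u) := by
    intro k y u; simp only [map_mul, map_inv]
  have hBker : ∀ y u : P, y ^ (2 ^ e) = 1 → y⁻¹ * u⁻¹ * y * u = 1 := by
    intro y u hy
    have hyc := Subgroup.mem_center_iff.mp (C1 y hy)
    calc y⁻¹ * u⁻¹ * y * u = y⁻¹ * (u⁻¹ * y) * u := by group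
      _ = y⁻¹ * (y * u⁻¹) * u := by rw [hyc u⁻¹]
      _ = 1 := by group
  have hBall := hua hreg hc (fun y => y ^ (2 ^ e)) m1 m2
    (fun k y => (map_pow (ρ k) y (2 ^ e)).symm)
    (fun y u => y⁻¹ * u⁻¹ * y * u) hcomm hBl hBr hBalt hBρ hBker
  intro a b
  have h : a⁻¹ * b⁻¹ * a * b = 1 := hBall a b
  calc a * b = b * a * (a⁻¹ * b⁻¹ * a * b) := by group
    _ = b * a := by rw [h, mul_one]

end main

theorem abelian_of_center_sq (K : Type v) [CommGroup K] :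
    ∀ (n : ℕ) (P : Type u) [Group P] [Finite P], Nat.card P = n → IsPGroup 2 P →
      ∀ ρ : K →* MulAut P, Reg ρ → (∃ z ∈ Subgroup.center P, z * z ≠ 1) →
      ∀ a b : P, a * b = b * a := by
  intro n
  induction n using Nat.strong_induction_on with
  | _ n ih =>
    intro P _ _ hn hP2 ρ hreg hz
    have hc := inv_central hP2 hreg
    have hsq := exists_sq hP2 hreg hz
    have hfour := central_of_four hc hsq
    by_cases hQ : ∀ a b : P ⧸ sqOne hc, a * b = b * a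
    · apply abelian_of_class_two hP2 hreg hz
      intro y u
      have h2 : ((u * y : P) : P ⧸ sqOne hc) = ((y * u : P) : P ⧸ sqOne hc) :=
        hQ (QuotientGroup.mk u) (QuotientGroup.mk y)
      rw [QuotientGroup.eq] at h2
      have h3 : ((u * y)⁻¹ * (y * u)) * ((u * y)⁻¹ * (y * u)) = 1 := h2
      have e : (u * y)⁻¹ * (y * u) = y⁻¹ * u⁻¹ * y * u := by group
      rw [e] at h3; exact h3
    · by_contra hab
      push Not at hab
      obtain ⟨a, b, hab⟩ := hab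
      have ha : a ∉ Subgroup.center P := fun h =>
        hab ((Subgroup.mem_center_iff.mp h b).symm)
      obtain ⟨j, hj⟩ := hP2 a
      obtain ⟨x, hx, hxx⟩ := exists_noncentral_sq j a hj ha
      have hlt : Nat.card (P ⧸ sqOne hc) < n := by
        obtain ⟨z₀, hz₀, hz₀2⟩ := hz
        obtain ⟨j', hj'⟩ := hP2 (z₀ * z₀)
        obtain ⟨m, hm1, hm2⟩ := exists_invol_pow hz₀2 j' hj'
        have hV : sqOne hc ≠ ⊥ := by
          intro h
          have hmem : (z₀ * z₀) ^ m ∈ sqOne hc := hm2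
          rw [h, Subgroup.mem_bot] at hmem
          exact hm1 hmem
        have h1 : 1 < Nat.card (sqOne hc) := (Subgroup.one_lt_card_iff_ne_bot (sqOne hc)).mpr hV
        have h0 : 0 < Nat.card (P ⧸ sqOne hc) := Nat.card_pos
        rw [← hn, Subgroup.card_eq_card_quotient_mul_card_subgroup (sqOne hc)]
        exact lt_mul_of_one_lt_right h0 h1
      have hQc : ∀ zb ∈ Subgroup.center (P ⧸ sqOne hc), zb * zb = 1 := by
        intro zb hzb
        by_contra hne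
        exact hQ (ih _ hlt (P ⧸ sqOne hc) rfl (hP2.to_quotient _) (rhoBar hc ρ)
          (reg_quot hc hfour hreg) ⟨zb, hzb, hne⟩)
      have hxc : (QuotientGroup.mk x : P ⧸ sqOne hc) ∈ Subgroup.center (P ⧸ sqOne hc) := by
        rw [Subgroup.mem_center_iff]
        intro g
        obtain ⟨y, rfl⟩ := QuotientGroup.mk_surjective g
        apply Eq.symm
        show ((x * y : P) : P ⧸ sqOne hc) = ((y * x : P) : P ⧸ sqOne hc)
        rw [QuotientGroup.eq]
        show ((x * y)⁻¹ * (y * x)) * ((x * y)⁻¹ * (y * x)) = 1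
        have e : (x * y)⁻¹ * (y * x) = y⁻¹ * x⁻¹ * y * x := by group
        rw [e]
        exact comm_sq hfour hP2 hxx y
      have h1 := hQc _ hxc
      have h2 : (x * x) * (x * x) = 1 := (QuotientGroup.eq_one_iff (x * x)).mp h1
      exact hx (hfour x h2)

theorem suzuki_main {P : Type u} [Group P] (hP : Cfsg.IsSuzukiTwoGroup P) :
    (∀ x : P, (x ≠ 1 ∧ x * x = 1) ↔ (x ∈ Subgroup.center P ∧ x ≠ 1)) ∧
      ∀ z ∈ Subgroup.center P, z * z = 1 := by
  obtain ⟨hfin, hP2, ⟨x₀, y₀, hxy⟩, -, K, hKc, hreg⟩ := hP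
  letI : CommGroup K := IsCyclic.commGroup
  have hreg' : Reg (K.subtype) := hreg
  have h2 : ∀ z ∈ Subgroup.center P, z * z = 1 := by
    intro z hz
    by_contra hne
    exact hxy (abelian_of_center_sq K (Nat.card P) P rfl hP2 K.subtype hreg' ⟨z, hz, hne⟩ x₀ y₀)
  exact ⟨fun x => ⟨fun ⟨hx1, hx2⟩ => ⟨inv_central hP2 hreg' x hx2, hx1⟩,
    fun ⟨hxc, hx1⟩ => ⟨hx1, h2 x hxc⟩⟩, h2⟩

end Suz2
end Cfsg.Agent.Helper6
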