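import Mathlib
import Cfsg.Agent.Helper6.SzOut
import Cfsg.Agent.Helper17.J1.Schur2

/-!
# Central extensions of the Suzuki groups: the Sylow 2-subgroup

For a central extension `σ : Γ → Sz(q)`, `q ≥ 32`, the commutators of the preimage of the Sylow
2-subgroup lie in a subgroup meeting the kernel trivially.  The argument uses the invariance of
the commutator forms under the torus.
-/

set_option autoImplicit false

namespace Cfsg.Agent.Helper6.SzSchur

open Cfsg Cfsg.Agent.Helper6.Sz Cfsg.Agent.Helper6.SzOut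

variable {F : Type*} [Field F] [Fintype F] {s : ℕ}

section generic

variable {Γ : Type*} [Group Γ]

/-- the commutator `x y x⁻¹ y⁻¹` -/
def cm (x y : Γ) : Γ := x * y * x⁻¹ * y⁻¹

theorem cm_mul_left (x x' y : Γ) : cm (x * x') y = x * cm x' y * x⁻¹ * cm x y := by
  unfold cm; group

theorem cm_mul_right (x y y' : Γ) : cm x (y * y') = cm x y * (y * cm x y' * y⁻¹) := by
  unfold cm; group

theorem cm_conj (t x y : Γ) : t * cm x y * t⁻¹ = cm (t * x * t⁻¹) (t * y * t⁻¹) := by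
  unfold cm; group

theorem cm_swap (x y : Γ) : cm x y * cm y x = 1 := by
  unfold cm; group

theorem cm_central_left {k : Γ} (hk : ∀ g, g * k = k * g) (y : Γ) : cm k y = 1 := by
  unfold cm; rw [← hk y]; group

theorem cm_central_right {k : Γ} (hk : ∀ g, g * k = k * g) (x : Γ) : cm x k = 1 := by
  unfold cm; rw [hk x]; group

theorem cm_eq_one_of_comm {x y : Γ} (h : x * y = y * x) : cm x y = 1 := by
  unfold cm; rw [h]; group

theorem comm_of_cm_eq_one {x y : Γ} (h : cm x y = 1) : x * y = y * x := by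
  unfold cm at h
  calc x * y = (x * y * x⁻¹ * y⁻¹) * y * x := by group
    _ = y * x := by rw [h, one_mul]

theorem map_cm {G : Type*} [Group G] (σ : Γ →* G) (x y : Γ) : σ (cm x y) = cm (σ x) (σ y) := by
  unfold cm; simp only [map_mul, map_inv]

theorem mul4_comm {P Q R S : Γ} (h : Q * R = R * Q) : P * Q * (R * S) = P * R * (Q * S) := by
  calc P * Q * (R * S) = P * (Q * R) * S := by group
    _ = P * (R * Q) * S := by rw [h]
    _ = P * R * (Q * S) := by group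

end generic

/-- a biadditive form with values in a group, invariant under a twisted scaling, vanishes -/
theorem form_trivial (two : (2 : F) = 0) {M : Type*} [Group M] (φ : F → F → M) (g : F → F)
    (h1 : ∀ a a' b, φ (a + a') b = φ a b * φ a' b)
    (h2 : ∀ a b b', φ a (b + b') = φ a b * φ a b')
    (h3 : ∀ x a b, x ≠ 0 → φ (x * a) b = φ a (g x * b))
    {x : F} (hx0 : x ≠ 0) (hx1 : x + 1 ≠ 0) (hδ : g (x + 1) + g x + g 1 ≠ 0) (a b : F) :
    φ a b = 1 := by
  have h0 : ∀ a, φ a 0 = 1 := by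
    intro a
    have h := h2 a 0 0
    rw [add_zero] at h
    have h' : φ a 0 * 1 = φ a 0 * φ a 0 := by rw [mul_one]; exact h
    exact (mul_left_cancel h').symm
  have hsq : ∀ a u, φ a u * φ a u = 1 := by
    intro a u
    rw [← h2, show u + u = 0 by linear_combination u * two, h0]
  have key : ∀ a b, φ a ((g (x + 1) + g x + g 1) * b) = 1 := by
    intro a b
    have e1 : φ ((x + 1) * a) b = φ a (g (x + 1) * b) := h3 _ a b hx1
    have e2 : φ ((x + 1) * a) b = φ a (g x * b) * φ a (g 1 * b) := by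
      rw [add_mul, h1, h3 x a b hx0, h3 1 a b one_ne_zero]
    have e3 : φ a (g (x + 1) * b) = φ a (g x * b + g 1 * b) := by rw [h2, ← e2, e1]
    have e4 : (g (x + 1) + g x + g 1) * b = g (x + 1) * b + (g x * b + g 1 * b) := by ring
    rw [e4, h2, ← e3, hsq]
  have e : b = (g (x + 1) + g x + g 1) * ((g (x + 1) + g x + g 1)⁻¹ * b) := by
    rw [← mul_assoc, mul_inv_cancel₀ hδ, one_mul]
  rw [e]; exact key a _

theorem delta_ne {P Q : F} (hP : P ≠ 0) (hQ : Q ≠ 0) (hN : P + Q + P * Q ≠ 0) :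
    Q⁻¹ + P⁻¹ + (1 : F)⁻¹ ≠ 0 := by
  intro h
  have e : (Q⁻¹ + P⁻¹ + (1 : F)⁻¹) * (P * Q) = Q⁻¹ * Q * P + P⁻¹ * P * Q + (1 : F)⁻¹ * (P * Q) := by
    ring
  rw [h, zero_mul, inv_mul_cancel₀ hQ, inv_mul_cancel₀ hP, inv_one] at e
  exact hN (by linear_combination -e)

theorem no_cube (D : SzData F s) (x : F) : x ^ 2 + x + 1 ≠ 0 := by
  intro h
  have two := D.two
  have hy : (x ^ s) ^ 2 + x ^ s + 1 = 0 := by
    have h' := congrArg (fun z => z ^ s) h
    simp only [D.add, one_pow, zero_pow D.s_ne] at h'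
    rw [D.pow2] at h'
    exact h'
  have hprod : (x ^ s + x) * (x ^ s + x + 1) = 0 := by
    linear_combination hy + h + (x ^ s * x - 1) * two
  have hx2 : x ^ 2 = x := by
    rcases mul_eq_zero.mp hprod with h1 | h1
    · have h2 : x ^ s = x := by linear_combination h1 - x * two
      have h3 := D.sq x
      rw [h2, h2] at h3
      exact h3.symm
    · have h2 : x ^ s = x + 1 := by linear_combination h1 - (x + 1) * two
      have h3 := D.sq x
      rw [h2, D.add, h2, one_pow] at h3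
      linear_combination -h3 + two
  have h1 : (1 : F) = 0 := by linear_combination h - hx2 - x * two
  exact one_ne_zero h1

theorem exists_N (D : SzData F s) (hbig : 2 * s + 4 < Fintype.card F) :
    ∃ x : F, x ≠ 0 ∧ x + 1 ≠ 0 ∧
      x ^ (s + 1) + (x + 1) ^ (s + 1) + x ^ (s + 1) * (x + 1) ^ (s + 1) ≠ 0 := by
  by_contra hno
  push_neg at hno
  have h4 := D.four
  have two := D.two
  have hall : ∀ x : F,
      x ^ (2 * s + 4) + x ^ (2 * s + 2) + x ^ (s + 4) + x ^ (s + 1) + x ^ 3 + x = 0 := by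
    intro x
    have hexp : (x + 1) ^ (s + 1) = (x ^ s + 1) * (x + 1) := by rw [pow_succ, D.add, one_pow]
    by_cases hx0 : x = 0
    · rw [hx0]; simp
    by_cases hx1 : x + 1 = 0
    · have hx : x = 1 := by linear_combination hx1 - two
      rw [hx]
      simp only [one_pow]
      linear_combination 3 * two
    · have hN := hno x hx0 hx1
      rw [hexp] at hN
      linear_combination (x ^ 2 + x) * hN -
        (x ^ (2 * s + 3) + 2 * x ^ (s + 3) + 2 * x ^ (s + 2) + x ^ 2) * two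
  have key := sparse_zero (![1, 1, 1, 1, 1, 1] : Fin 6 → F)
    ![2 * s + 4, 2 * s + 2, s + 4, s + 1, 3, 1] ?_ ?_ ?_
  · exact one_ne_zero (key 0)
  · intro i j hij
    fin_cases i <;> fin_cases j <;> simp at hij ⊢ <;> omega
  · intro i
    fin_cases i <;> simp <;> omega
  · intro x
    simpa [Fin.sum_univ_six] using hall x

/-- The commutators of the preimage of the Sylow 2-subgroup lie in a subgroup meeting the
kernel trivially. -/
theorem two_part (D : SzData F s) (hbig : 2 * s + 4 < Fintype.card F) {Γ : Type*} [Group Γ]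
    (σ : Γ →* SzG F s) (hs : Function.Surjective σ) (hc : σ.ker ≤ Subgroup.center Γ) :
    ∃ W : Subgroup Γ, (∀ g h : Γ, σ g ∈ Usub D → σ h ∈ Usub D → g * h * g⁻¹ * h⁻¹ ∈ W) ∧
      ∀ w ∈ W, σ w = 1 → w = 1 := by
  have two := D.two
  have hcen : ∀ k : Γ, σ k = 1 → ∀ g : Γ, g * k = k * g := fun k hk g =>
    Subgroup.mem_center_iff.mp (hc (MonoidHom.mem_ker.mpr hk)) g
  have hcong : ∀ {x x' y y' : Γ}, σ x = σ x' → σ y = σ y' → cm x y = cm x' y' := by
    intro x x' y y' hx hy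
    have hk : σ (x⁻¹ * x') = 1 := by rw [map_mul, map_inv, hx, inv_mul_cancel]
    have hl : σ (y⁻¹ * y') = 1 := by rw [map_mul, map_inv, hy, inv_mul_cancel]
    have ex : x' = x * (x⁻¹ * x') := by group
    have ey : y' = y * (y⁻¹ * y') := by group
    rw [ex, ey, cm_mul_left, cm_central_left (hcen _ hk), cm_mul_right,
      cm_central_right (hcen _ hl)]
    group
  have hmulL : ∀ {w x x' y : Γ}, σ w = σ (x * x') → x * cm x' y = cm x' y * x →
      cm w y = cm x' y * cm x y := by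
    intro w x x' y hw hcomm
    rw [hcong hw (rfl : σ y = σ y), cm_mul_left, hcomm, mul_inv_cancel_right]
  have hmulR : ∀ {w x y y' : Γ}, σ w = σ (y * y') → y * cm x y' = cm x y' * y →
      cm x w = cm x y * cm x y' := by
    intro w x y y' hw hcomm
    rw [hcong (rfl : σ x = σ x) hw, cm_mul_right, hcomm, mul_inv_cancel_right]
  choose T hT using fun a b : F => hs (tG D a b)
  choose H hH using fun c : Fˣ => hs (hG D c)
  -- relations in the group
  have gsplit : ∀ a b : F, tG D a 0 * tG D 0 b = tG D a b := by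
    intro a b
    rw [tG_mul]
    have e1 : a + 0 = a := add_zero a
    have e2 : (0 : F) + b + a ^ s * 0 = b := by ring
    rw [e1, e2]
  have gzc : ∀ a b b' : F, tG D a b * tG D 0 b' = tG D 0 b' * tG D a b := by
    intro a b b'
    rw [tG_mul, tG_mul]
    have e1 : a + 0 = 0 + a := by ring
    have e2 : b + b' + a ^ s * 0 = b' + b + (0 : F) ^ s * a := by
      rw [zero_pow D.s_ne]; ring
    rw [e1, e2]
  have gprod : ∀ a a' : F, σ (T a 0 * T a' 0) = tG D (a + a') (a ^ s * a') := by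
    intro a a'
    rw [map_mul, hT, hT, tG_mul]
    have e2 : (0 : F) + 0 + a ^ s * a' = a ^ s * a' := by ring
    rw [e2]
  have gcm : ∀ a a' : F, cm (tG D a 0) (tG D a' 0) = tG D 0 (a' ^ s * a + a ^ s * a') := by
    intro a a'
    have e : tG D a 0 * tG D a' 0 =
        tG D 0 (a' ^ s * a + a ^ s * a') * (tG D a' 0 * tG D a 0) := by
      rw [tG_mul, tG_mul, tG_mul]
      have e1 : a + a' = 0 + (a' + a) := by ring
      have e2 : (0 : F) + 0 + a ^ s * a' =
          a' ^ s * a + a ^ s * a' + (0 + 0 + a' ^ s * a) + (0 : F) ^ s * (a' + a) := by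
        rw [zero_pow D.s_ne]; linear_combination (-(a' ^ s * a)) * two
      rw [e1, e2]
    unfold cm
    rw [e]; group
  have hsqr : ∀ x : F, x ≠ 0 → ∃ c : Fˣ, (c : F) ^ 2 = x := by
    intro x hx
    obtain ⟨y, hy⟩ := D.sqrt x
    have hy0 : y ≠ 0 := by
      rintro rfl
      apply hx; rw [← hy]; simp
    exact ⟨Units.mk0 y hy0, by rw [Units.val_mk0]; exact hy⟩
  have hv : ∀ v : F, v ≠ 0 → ∃ c : Fˣ, (c : F) ^ (2 * s + 2) = v := by
    intro v hv0
    obtain ⟨y, hy⟩ := D.sqrt v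
    have hy0 : y ≠ 0 := by
      rintro rfl
      apply hv0; rw [← hy]; simp
    obtain ⟨c, hc'⟩ := D.exists_root hy0
    have hc0 : c ≠ 0 := by
      rintro rfl
      apply hy0; rw [← hc']; simp
    exact ⟨Units.mk0 c hc0, by rw [Units.val_mk0, ← hy, ← hc']; ring⟩
  have hσconj : ∀ (c : Fˣ) (a b : F), σ (H c * T a b * (H c)⁻¹) =
      tG D ((c : F) ^ 2 * a) ((c : F) ^ (2 * s + 2) * b) := by
    intro c a b
    rw [map_mul, map_mul, map_inv, hH, hT, hG_conj_tG]
  -- the centre of the Sylow subgroup lifts to a commutative subgroup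
  have hσE : ∀ b b' : F, σ (cm (T 0 b) (T 0 b')) = 1 := by
    intro b b'
    rw [map_cm, hT, hT]
    exact cm_eq_one_of_comm (gzc 0 b b')
  have E1 : ∀ b b'' b' : F, cm (T 0 (b + b'')) (T 0 b') =
      cm (T 0 b) (T 0 b') * cm (T 0 b'') (T 0 b') := by
    intro b b'' b'
    have h := hmulL (w := T 0 (b + b'')) (x := T 0 b) (x' := T 0 b'') (y := T 0 b')
      (by rw [map_mul, hT, hT, hT, tG_zero_mul]) (hcen _ (hσE b'' b') _)
    rw [h]
    exact hcen _ (hσE b b') _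
  have E2 : ∀ b b' b'' : F, cm (T 0 b) (T 0 (b' + b'')) =
      cm (T 0 b) (T 0 b') * cm (T 0 b) (T 0 b'') := by
    intro b b' b''
    exact hmulR (by rw [map_mul, hT, hT, hT, tG_zero_mul]) (hcen _ (hσE b b'') _)
  have Einv : ∀ v : F, v ≠ 0 → ∀ b b' : F,
      cm (T 0 (v * b)) (T 0 (v * b')) = cm (T 0 b) (T 0 b') := by
    intro v hv0 b b'
    obtain ⟨c, hcv⟩ := hv v hv0
    have h1 : H c * cm (T 0 b) (T 0 b') * (H c)⁻¹ = cm (T 0 b) (T 0 b') := by
      rw [hcen _ (hσE b b') (H c), mul_inv_cancel_right]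
    rw [cm_conj] at h1
    rw [← h1]
    apply hcong
    · rw [hT, hσconj, mul_zero, hcv]
    · rw [hT, hσconj, mul_zero, hcv]
  have E3 : ∀ x b b' : F, x ≠ 0 →
      cm (T 0 (x * b)) (T 0 b') = cm (T 0 b) (T 0 (x⁻¹ * b')) := by
    intro x b b' hx
    have h := Einv x hx b (x⁻¹ * b')
    rw [mul_inv_cancel_left₀ hx] at h
    exact h
  obtain ⟨x₀, hx0, hx1'⟩ := D.exists_ne
  have hx1 : x₀ + 1 ≠ 0 := by
    intro h
    apply hx1'
    linear_combination h - two
  have hδ : (x₀ + 1)⁻¹ + x₀⁻¹ + (1 : F)⁻¹ ≠ 0 :=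
    delta_ne hx0 hx1 (fun h => no_cube D x₀ (by linear_combination h - x₀ * two))
  have hE1 : ∀ b b' : F, cm (T 0 b) (T 0 b') = 1 := fun b b' =>
    form_trivial two (fun b b' => cm (T 0 b) (T 0 b')) (fun x => x⁻¹) E1 E2 E3 hx0 hx1 hδ b b'
  -- the centre of the Sylow subgroup lifts to the centre of its preimage
  have hσB : ∀ a b' : F, σ (cm (T a 0) (T 0 b')) = 1 := by
    intro a b'
    rw [map_cm, hT, hT]
    exact cm_eq_one_of_comm (gzc a 0 b')
  have B2 : ∀ a b' b'' : F, cm (T a 0) (T 0 (b' + b'')) =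
      cm (T a 0) (T 0 b') * cm (T a 0) (T 0 b'') := by
    intro a b' b''
    exact hmulR (by rw [map_mul, hT, hT, hT, tG_zero_mul]) (hcen _ (hσB a b'') _)
  have B1 : ∀ a a' b' : F, cm (T (a + a') 0) (T 0 b') =
      cm (T a 0) (T 0 b') * cm (T a' 0) (T 0 b') := by
    intro a a' b'
    have hL : cm (T (a + a') 0 * T 0 (a ^ s * a')) (T 0 b') = cm (T (a + a') 0) (T 0 b') := by
      rw [cm_mul_left, hE1]; group
    have h := hmulL (w := T (a + a') 0 * T 0 (a ^ s * a')) (x := T a 0) (x' := T a' 0)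
      (y := T 0 b') (by rw [gprod, map_mul, hT, hT, gsplit]) (hcen _ (hσB a' b') _)
    rw [← hL, h]
    exact hcen _ (hσB a b') _
  have Binv : ∀ (c : Fˣ) (a b' : F),
      cm (T ((c : F) ^ 2 * a) 0) (T 0 ((c : F) ^ (2 * s + 2) * b')) = cm (T a 0) (T 0 b') := by
    intro c a b'
    have h1 : H c * cm (T a 0) (T 0 b') * (H c)⁻¹ = cm (T a 0) (T 0 b') := by
      rw [hcen _ (hσB a b') (H c), mul_inv_cancel_right]
    rw [cm_conj] at h1
    rw [← h1]
    apply hcong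
    · rw [hT, hσconj, mul_zero]
    · rw [hT, hσconj, mul_zero]
  have B3 : ∀ x a b' : F, x ≠ 0 →
      cm (T (x * a) 0) (T 0 b') = cm (T a 0) (T 0 ((x ^ (s + 1))⁻¹ * b')) := by
    intro x a b' hx
    obtain ⟨c, hcx⟩ := hsqr x hx
    have hcv : (c : F) ^ (2 * s + 2) = x ^ (s + 1) := by rw [← hcx]; ring
    have h := Binv c a ((x ^ (s + 1))⁻¹ * b')
    rw [hcx, hcv, mul_inv_cancel_left₀ (pow_ne_zero _ hx)] at h
    exact h
  obtain ⟨x₁, hx10, hx11, hN⟩ := exists_N D hbig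
  have hδB : ((x₁ + 1) ^ (s + 1))⁻¹ + (x₁ ^ (s + 1))⁻¹ + ((1 : F) ^ (s + 1))⁻¹ ≠ 0 := by
    rw [one_pow]
    exact delta_ne (pow_ne_zero _ hx10) (pow_ne_zero _ hx11) hN
  have hB1 : ∀ a b' : F, cm (T a 0) (T 0 b') = 1 := fun a b' =>
    form_trivial two (fun a b' => cm (T a 0) (T 0 b')) (fun x => (x ^ (s + 1))⁻¹) B1 B2 B3
      hx10 hx11 hδB a b'
  -- reduction of all commutators
  have hZc : ∀ {g z : Γ} {a b b' : F}, σ g = tG D a b → σ z = tG D 0 b' → cm g z = 1 := by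
    intro g z a b b' hg hz
    rw [hcong (x' := T a 0 * T 0 b) (y' := T 0 b') (by rw [hg, map_mul, hT, hT, gsplit])
      (by rw [hz, hT]), cm_mul_left, hE1, hB1]
    group
  have hZc' : ∀ {g z : Γ} {a b b' : F}, σ g = tG D a b → σ z = tG D 0 b' → cm z g = 1 := by
    intro g z a b b' hg hz
    have h := cm_swap g z
    rw [hZc hg hz, one_mul] at h
    exact h
  have hZZ : ∀ {z z' : Γ} {b b' : F}, σ z = tG D 0 b → σ z' = tG D 0 b' → z * z' = z' * z := by
    intro z z' b b' hz hz'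
    exact comm_of_cm_eq_one (hZc hz hz')
  have hred : ∀ {g h : Γ} {a b a' b' : F}, σ g = tG D a b → σ h = tG D a' b' →
      cm g h = cm (T a 0) (T a' 0) := by
    intro g h a b a' b' hg hh
    have hh' : σ (T a' 0 * T 0 b') = tG D a' b' := by rw [map_mul, hT, hT, gsplit]
    rw [hcong (x' := T a 0 * T 0 b) (y' := T a' 0 * T 0 b')
      (by rw [hg, map_mul, hT, hT, gsplit]) (by rw [hh, hh']), cm_mul_left,
      hZc' hh' (hT 0 b), cm_mul_right, hB1]
    group
  have hσC : ∀ a a' : F, σ (cm (T a 0) (T a' 0)) = tG D 0 (a' ^ s * a + a ^ s * a') := by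
    intro a a'
    rw [map_cm, hT, hT, gcm]
  have hCc : ∀ (a a' : F) (g : Γ) {a'' b'' : F}, σ g = tG D a'' b'' →
      g * cm (T a 0) (T a' 0) = cm (T a 0) (T a' 0) * g := by
    intro a a' g a'' b'' hg
    exact comm_of_cm_eq_one (hZc hg (hσC a a'))
  have C1 : ∀ a a'' a' : F, cm (T (a + a'') 0) (T a' 0) =
      cm (T a 0) (T a' 0) * cm (T a'' 0) (T a' 0) := by
    intro a a'' a'
    have h1 : cm (T a 0 * T a'' 0) (T a' 0) = cm (T (a + a'') 0) (T a' 0) :=
      hred (gprod a a'') (hT a' 0)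
    rw [← h1, cm_mul_left, hCc a'' a' (T a 0) (hT a 0), mul_inv_cancel_right]
    exact hCc a a' _ (hσC a'' a')
  have C2 : ∀ a a' a'' : F, cm (T a 0) (T (a' + a'') 0) =
      cm (T a 0) (T a' 0) * cm (T a 0) (T a'' 0) := by
    intro a a' a''
    have h1 : cm (T a 0) (T a' 0 * T a'' 0) = cm (T a 0) (T (a' + a'') 0) :=
      hred (hT a 0) (gprod a' a'')
    rw [← h1, cm_mul_right, hCc a a'' (T a' 0) (hT a' 0), mul_inv_cancel_right]
  have Cinv : ∀ (c : Fˣ) (a a' : F), H c * cm (T a 0) (T a' 0) * (H c)⁻¹ =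
      cm (T ((c : F) ^ 2 * a) 0) (T ((c : F) ^ 2 * a') 0) := by
    intro c a a'
    rw [cm_conj]
    exact hred (hσconj c a 0) (hσconj c a' 0)
  -- a complement to the kernel
  obtain ⟨c₀, hc₀⟩ := hv x₀ hx0
  obtain ⟨κ, hκ⟩ : ∃ κ : F, κ = (x₀ + 1)⁻¹ := ⟨_, rfl⟩
  have hκ1 : ∀ y : F, (x₀ + 1) * (κ * y) = y := by
    intro y; rw [hκ, mul_inv_cancel_left₀ hx1]
  have hσΘ : ∀ b : F, σ (cm (H c₀) (T 0 b)) = tG D 0 ((x₀ + 1) * b) := by
    intro b
    rw [map_cm, hH, hT]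
    unfold cm
    rw [hG_conj_tG, mul_zero, hc₀, mul_inv_eq_iff_eq_mul, tG_zero_mul]
    congr 1
    linear_combination (-b) * two
  have hΘadd : ∀ b b' : F, cm (H c₀) (T 0 (b + b')) =
      cm (H c₀) (T 0 b) * cm (H c₀) (T 0 b') := by
    intro b b'
    exact hmulR (by rw [map_mul, hT, hT, hT, tG_zero_mul]) (hZZ (hT 0 b) (hσΘ b'))
  have hΘ0 : cm (H c₀) (T 0 0) = 1 := by
    have h := hΘadd 0 0
    rw [add_zero] at h
    have h' : cm (H c₀) (T 0 0) * 1 = cm (H c₀) (T 0 0) * cm (H c₀) (T 0 0) := by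
      rw [mul_one]; exact h
    exact (mul_left_cancel h').symm
  have hΘsq : ∀ b : F, cm (H c₀) (T 0 b) * cm (H c₀) (T 0 b) = 1 := by
    intro b
    rw [← hΘadd, D.add_self, hΘ0]
  have hΘinv : ∀ b : F, (cm (H c₀) (T 0 b))⁻¹ = cm (H c₀) (T 0 b) := fun b =>
    inv_eq_of_mul_eq_one_right (hΘsq b)
  have hΘconj : ∀ (c : Fˣ) (b : F), H c * cm (H c₀) (T 0 b) * (H c)⁻¹ =
      cm (H c₀) (T 0 ((c : F) ^ (2 * s + 2) * b)) := by
    intro c b
    rw [cm_conj]
    apply hcong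
    · have hcomm : hG D c * hG D c₀ = hG D c₀ * hG D c := by
        rw [← map_mul, ← map_mul, mul_comm]
      rw [map_mul, map_mul, map_inv, hH, hH, hcomm, mul_inv_cancel_right]
    · rw [hσconj, hT, mul_zero]
  have hσD : ∀ a a' : F, σ (cm (T a 0) (T a' 0) *
      cm (H c₀) (T 0 (κ * (a' ^ s * a + a ^ s * a')))) = 1 := by
    intro a a'
    rw [map_mul, hσC, hσΘ, hκ1, tG_zero_mul, D.add_self, tG_zero_zero]
  have hfadd1 : ∀ a a'' a' : F, κ * (a' ^ s * (a + a'') + (a + a'') ^ s * a') =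
      κ * (a' ^ s * a + a ^ s * a') + κ * (a' ^ s * a'' + a'' ^ s * a') := by
    intro a a'' a'; rw [D.add]; ring
  have hfadd2 : ∀ a a' a'' : F, κ * ((a' + a'') ^ s * a + a ^ s * (a' + a'')) =
      κ * (a' ^ s * a + a ^ s * a') + κ * (a'' ^ s * a + a ^ s * a'') := by
    intro a a' a''; rw [D.add]; ring
  have D1 : ∀ a a'' a' : F, cm (T (a + a'') 0) (T a' 0) *
        cm (H c₀) (T 0 (κ * (a' ^ s * (a + a'') + (a + a'') ^ s * a'))) =
      (cm (T a 0) (T a' 0) * cm (H c₀) (T 0 (κ * (a' ^ s * a + a ^ s * a')))) *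
      (cm (T a'' 0) (T a' 0) * cm (H c₀) (T 0 (κ * (a' ^ s * a'' + a'' ^ s * a')))) := by
    intro a a'' a'
    rw [C1, hfadd1, hΘadd]
    exact mul4_comm (hZZ (hσC a'' a') (hσΘ _))
  have D2 : ∀ a a' a'' : F, cm (T a 0) (T (a' + a'') 0) *
        cm (H c₀) (T 0 (κ * ((a' + a'') ^ s * a + a ^ s * (a' + a'')))) =
      (cm (T a 0) (T a' 0) * cm (H c₀) (T 0 (κ * (a' ^ s * a + a ^ s * a')))) *
      (cm (T a 0) (T a'' 0) * cm (H c₀) (T 0 (κ * (a'' ^ s * a + a ^ s * a'')))) := by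
    intro a a' a''
    rw [C2, hfadd2, hΘadd]
    exact mul4_comm (hZZ (hσC a a'') (hσΘ _))
  have hfsc : ∀ (c : Fˣ) (a a' : F), (c : F) ^ (2 * s + 2) * (κ * (a' ^ s * a + a ^ s * a')) =
      κ * (((c : F) ^ 2 * a') ^ s * ((c : F) ^ 2 * a) +
        ((c : F) ^ 2 * a) ^ s * ((c : F) ^ 2 * a')) := by
    intro c a a'; rw [mul_pow, mul_pow]; ring
  have Dinv : ∀ (c : Fˣ) (a a' : F),
      cm (T ((c : F) ^ 2 * a) 0) (T ((c : F) ^ 2 * a') 0) *
        cm (H c₀) (T 0 (κ * (((c : F) ^ 2 * a') ^ s * ((c : F) ^ 2 * a) +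
          ((c : F) ^ 2 * a) ^ s * ((c : F) ^ 2 * a')))) =
      cm (T a 0) (T a' 0) * cm (H c₀) (T 0 (κ * (a' ^ s * a + a ^ s * a'))) := by
    intro c a a'
    have h1 : H c * (cm (T a 0) (T a' 0) *
        cm (H c₀) (T 0 (κ * (a' ^ s * a + a ^ s * a')))) * (H c)⁻¹ =
        cm (T a 0) (T a' 0) * cm (H c₀) (T 0 (κ * (a' ^ s * a + a ^ s * a'))) := by
      rw [hcen _ (hσD a a') (H c), mul_inv_cancel_right]
    have h2 : H c * (cm (T a 0) (T a' 0) *
        cm (H c₀) (T 0 (κ * (a' ^ s * a + a ^ s * a')))) * (H c)⁻¹ =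
        (H c * cm (T a 0) (T a' 0) * (H c)⁻¹) *
          (H c * cm (H c₀) (T 0 (κ * (a' ^ s * a + a ^ s * a'))) * (H c)⁻¹) := by
      group
    rw [← h1, h2, Cinv, hΘconj, hfsc]
  have D3 : ∀ x a a' : F, x ≠ 0 → cm (T (x * a) 0) (T a' 0) *
        cm (H c₀) (T 0 (κ * (a' ^ s * (x * a) + (x * a) ^ s * a'))) =
      cm (T a 0) (T (x⁻¹ * a') 0) *
        cm (H c₀) (T 0 (κ * ((x⁻¹ * a') ^ s * a + a ^ s * (x⁻¹ * a')))) := by
    intro x a a' hx
    obtain ⟨c, hcx⟩ := hsqr x hx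
    have h := Dinv c a (x⁻¹ * a')
    rw [hcx, mul_inv_cancel_left₀ hx] at h
    exact h
  have hD1 : ∀ a a' : F, cm (T a 0) (T a' 0) *
      cm (H c₀) (T 0 (κ * (a' ^ s * a + a ^ s * a'))) = 1 := fun a a' =>
    form_trivial two
      (fun a a' => cm (T a 0) (T a' 0) * cm (H c₀) (T 0 (κ * (a' ^ s * a + a ^ s * a'))))
      (fun x => x⁻¹) D1 D2 D3 hx0 hx1 hδ a a'
  obtain ⟨W, hWmem⟩ : ∃ W : Subgroup Γ, ∀ w, w ∈ W ↔ ∃ b : F, w = cm (H c₀) (T 0 b) :=
    ⟨{ carrier := {w | ∃ b : F, w = cm (H c₀) (T 0 b)}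
       mul_mem' := by
        rintro _ _ ⟨b, rfl⟩ ⟨b', rfl⟩
        exact ⟨b + b', (hΘadd b b').symm⟩
       one_mem' := ⟨0, hΘ0.symm⟩
       inv_mem' := by
        rintro _ ⟨b, rfl⟩
        exact ⟨b, hΘinv b⟩ }, fun w => Iff.rfl⟩
  refine ⟨W, ?_, ?_⟩
  · intro g h hg hh
    obtain ⟨a, b, hab⟩ := hg
    obtain ⟨a', b', hab'⟩ := hh
    have hg' : σ g = tG D a b := Subtype.ext hab
    have hh' : σ h = tG D a' b' := Subtype.ext hab'
    rw [hWmem]
    refine ⟨κ * (a' ^ s * a + a ^ s * a'), ?_⟩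
    have e : g * h * g⁻¹ * h⁻¹ = cm (T a 0) (T a' 0) := hred hg' hh'
    rw [e, ← hΘinv]
    exact eq_inv_of_mul_eq_one_left (hD1 a a')
  · intro w hw hσw
    rw [hWmem] at hw
    obtain ⟨b, rfl⟩ := hw
    rw [hσΘ, ← tG_zero_zero D] at hσw
    have hb := tG_zero_inj D hσw
    rcases mul_eq_zero.mp hb with h | h
    · exact absurd h hx1
    · rw [h]; exact hΘ0

end Cfsg.Agent.Helper6.SzSchur
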