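import Mathlib
import Cfsg.Agent.Helper6.SzSchur1
import Cfsg.Agent.Helper6.SzPart
import Cfsg.Agent.Helper6.SzLie

/-!
# The Schur multiplier of the Suzuki groups `Sz(q)`, `q ≥ 32`, is trivial
-/

set_option autoImplicit false

namespace Cfsg.Agent.Helper6.SzSchur

open Cfsg Cfsg.Agent.Helper6.Sz Cfsg.Agent.Helper17.J1

variable {F : Type*} [Field F] [Fintype F] {s : ℕ}

/-- central commutators are killed by the index of a cyclic subgroup -/
theorem cyc_kill {G : Type*} [Group G] {Γ : Type*} [Group Γ] [Finite Γ] (σ : Γ →* G)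
    (hσ : Cfsg.IsStemExtension σ) (T : Subgroup G) (hT : IsCyclic T) {z : Γ} (hz : z ∈ σ.ker) :
    z ^ T.index = 1 := by
  obtain ⟨hs, hc, hd⟩ := hσ
  obtain ⟨g, hg⟩ := IsCyclic.exists_generator (α := T)
  have hmem : ∀ y : G, y ∈ T → y ∈ Subgroup.zpowers (g : G) := by
    intro y hy
    obtain ⟨k, hk⟩ := Subgroup.mem_zpowers_iff.mp (hg ⟨y, hy⟩)
    exact Subgroup.mem_zpowers_iff.mpr ⟨k, by
      have h := congrArg Subtype.val hk
      simpa using h⟩
  exact pow_index_eq_one σ hs T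
    (fun x y hx hy => comm_of_zpowers σ hs hc (g : G) (hmem _ hx) (hmem _ hy)) (hc hz) (hd hz)

/-- every finite stem extension of `Sz(q)`, `q ≥ 32`, is an isomorphism -/
theorem stem_trivial (D : SzData F s) {r : ℕ} (hqr : Fintype.card F = 2 * r ^ 2)
    (hbig : 2 * s + 4 < Fintype.card F) {Γ : Type*} [Group Γ] [Finite Γ]
    (σ : Γ →* SzG F s) (hσ : Cfsg.IsStemExtension σ) : σ.ker = ⊥ := by
  classical
  apply ker_eq_bot_of_pow σ hσ
  intro p hp hpdvd z hz
  obtain ⟨hs, hc, hd⟩ := hσ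
  have hq8 := D.eight_le
  have hcardG := card_SzG D
  have h2q : 2 ∣ Fintype.card F := ⟨r ^ 2, hqr⟩
  by_cases hp2 : p = 2
  · obtain ⟨W, hW1, hW2⟩ := two_part D hbig σ hs hc
    refine ⟨(Usub D).index, ?_, ?_⟩
    · have hidx := Subgroup.card_mul_index (Usub D)
      rw [card_U D, hcardG] at hidx
      have hidx' : (Usub D).index = (Fintype.card F ^ 2 + 1) * (Fintype.card F - 1) := by
        have hq2 : 0 < Fintype.card F ^ 2 := by positivity
        apply Nat.eq_of_mul_eq_mul_left hq2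
        rw [hidx]; ring
      rw [hp2, hidx']
      intro h
      rcases (Nat.Prime.dvd_mul Nat.prime_two).mp h with h1 | h1
      · exact D.not_two_dvd h1
      · omega
    · have h1 := pow_index_mem σ hs (Usub D) W hW1 (hc hz) (hd hz)
      apply hW2 _ h1
      rw [map_pow, MonoidHom.mem_ker.mp hz, one_pow]
  · have hpodd : ¬ p ∣ 2 := fun h => hp2 ((Nat.prime_dvd_prime_iff_eq hp Nat.prime_two).mp h)
    obtain ⟨n, hn⟩ := D.card_pow
    have hpq : ¬ p ∣ Fintype.card F := by
      intro h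
      rw [hn] at h
      exact hpodd (hp.dvd_of_dvd_pow h)
    have hfin : ∀ (T : Subgroup (SzG F s)) (_ : IsCyclic T) (N : ℕ),
        Nat.card T * N = Nat.card (SzG F s) → ¬ p ∣ N → ∃ m, ¬ p ∣ m ∧ z ^ m = 1 := by
      intro T hT N hN hpN
      have hidx := Subgroup.card_mul_index T
      have hTpos : 0 < Nat.card T := Nat.card_pos
      have hi : T.index = N := Nat.eq_of_mul_eq_mul_left hTpos (by rw [hidx, hN])
      exact ⟨T.index, by rw [hi]; exact hpN, cyc_kill σ ⟨hs, hc, hd⟩ T hT hz⟩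
    have hcases : p ∣ Fintype.card F - 1 ∨ p ∣ Fintype.card F ^ 2 + 1 := by
      rw [hcardG] at hpdvd
      rcases (Nat.Prime.dvd_mul hp).mp hpdvd with h | h
      · rcases (Nat.Prime.dvd_mul hp).mp h with h' | h'
        · exact absurd (hp.dvd_of_dvd_pow h') hpq
        · exact Or.inr h'
      · exact Or.inl h
    obtain ⟨A₁, A₂, hA₁, hA₂, hc₁, hc₂, -, -, -⟩ := tori D hqr
    have hprod : Nat.card A₁ * Nat.card A₂ = Fintype.card F ^ 2 + 1 := by
      have h1' : (Nat.card A₁ : ℤ) = Fintype.card F + 2 * r + 1 := by exact_mod_cast hc₁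
      have h2' : (Nat.card A₂ : ℤ) + 2 * r = (Fintype.card F : ℤ) + 1 := by exact_mod_cast hc₂
      have hq' : (Fintype.card F : ℤ) = 2 * (r : ℤ) ^ 2 := by exact_mod_cast hqr
      have ha2 : (Nat.card A₂ : ℤ) = Fintype.card F + 1 - 2 * r := by linarith
      have h3 : ((Nat.card A₁ * Nat.card A₂ : ℕ) : ℤ) = ((Fintype.card F ^ 2 + 1 : ℕ) : ℤ) := by
        push_cast
        rw [h1', ha2, hq']; ring
      exact_mod_cast h3
    have hdiff : Nat.card A₁ = Nat.card A₂ + 4 * r := by omega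
    have hpr : ¬ p ∣ r := fun h => hpq (by
      rw [hqr]; exact dvd_mul_of_dvd_right (dvd_pow h two_ne_zero) 2)
    have hnot12 : ¬ (p ∣ Nat.card A₁ ∧ p ∣ Nat.card A₂) := by
      rintro ⟨h1, h2⟩
      rw [hdiff] at h1
      have h3 : p ∣ 4 * r := (Nat.dvd_add_right h2).mp h1
      rcases (Nat.Prime.dvd_mul hp).mp h3 with h4 | h4
      · have h4' : p ∣ 2 ^ 2 := by
          rw [show (2 : ℕ) ^ 2 = 4 by norm_num]; exact h4
        exact hpodd (hp.dvd_of_dvd_pow h4')
      · exact hpr h4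
    have hnotq : ¬ (p ∣ Fintype.card F - 1 ∧ p ∣ Fintype.card F ^ 2 + 1) := fun h =>
      hpodd (dvd_two_of (by omega) h.1 h.2)
    rcases hcases with hc1 | hc2
    · have hcyc : IsCyclic (hG D).range :=
        isCyclic_of_surjective (hG D).rangeRestrict (hG D).rangeRestrict_surjective
      have hcardH : Nat.card (hG D).range = Fintype.card F - 1 := by
        rw [← Nat.card_congr (MonoidHom.ofInjective (SzOut.hG_inj D)).toEquiv, Nat.card_units,
          Nat.card_eq_fintype_card]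
      apply hfin (hG D).range hcyc (Fintype.card F ^ 2 * (Fintype.card F ^ 2 + 1))
        (by rw [hcardH, hcardG]; ring)
      intro h
      rcases (Nat.Prime.dvd_mul hp).mp h with h' | h'
      · exact hpq (hp.dvd_of_dvd_pow h')
      · exact hnotq ⟨hc1, h'⟩
    · rw [← hprod] at hc2
      rcases (Nat.Prime.dvd_mul hp).mp hc2 with h1 | h1
      · apply hfin A₁ (tor_cyclic D hA₁) (Fintype.card F ^ 2 * Nat.card A₂ * (Fintype.card F - 1))
          (by rw [hcardG, ← hprod]; ring)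
        intro h
        rcases (Nat.Prime.dvd_mul hp).mp h with h' | h'
        · rcases (Nat.Prime.dvd_mul hp).mp h' with h'' | h''
          · exact hpq (hp.dvd_of_dvd_pow h'')
          · exact hnot12 ⟨h1, h''⟩
        · exact hnotq ⟨h', by rw [← hprod]; exact h1.mul_right _⟩
      · apply hfin A₂ (tor_cyclic D hA₂) (Fintype.card F ^ 2 * Nat.card A₁ * (Fintype.card F - 1))
          (by rw [hcardG, ← hprod]; ring)
        intro h
        rcases (Nat.Prime.dvd_mul hp).mp h with h' | h'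
        · rcases (Nat.Prime.dvd_mul hp).mp h' with h'' | h''
          · exact hpq (hp.dvd_of_dvd_pow h'')
          · exact hnot12 ⟨h'', h1⟩
        · exact hnotq ⟨h', by rw [← hprod]; exact h1.mul_left _⟩

/-- `S2111`: the Schur multiplier of `Sz(q)` is trivial for `q ≥ 32`. -/
theorem schur_sz {m : ℕ} (hm : 2 ≤ m) (hF : Fintype.card F = 2 ^ (2 * m + 1)) :
    Cfsg.HasCyclicSchurMultiplier ↥(Cfsg.Lie.Sz F (2 ^ (m + 1))) 1 := by
  have D := szData (by omega : 1 ≤ m) hF
  have e := lieEquiv D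
  have hqr : Fintype.card F = 2 * (2 ^ m) ^ 2 := by rw [hF]; ring
  have hbig : 2 * 2 ^ (m + 1) + 4 < Fintype.card F := by
    rw [hF]
    have h1 : 4 ≤ 2 ^ m := by
      calc 4 = 2 ^ 2 := by norm_num
        _ ≤ 2 ^ m := Nat.pow_le_pow_right (by norm_num) hm
    have h2 : 2 ^ (2 * m + 1) = 2 * 2 ^ m * 2 ^ m := by ring
    have h3 : 2 ^ (m + 1) = 2 * 2 ^ m := by ring
    rw [h2, h3]
    nlinarith [Nat.mul_le_mul_right (2 ^ m) h1, h1]
  apply hasCyclicSchurMultiplier_one
  intro Γ _ _ σ hσ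
  obtain ⟨hs, hc, hd⟩ := hσ
  have hker : (e.symm.toMonoidHom.comp σ).ker = σ.ker := by
    ext x
    rw [MonoidHom.mem_ker, MonoidHom.mem_ker]
    exact MulEquiv.map_eq_one_iff e.symm
  have hσ' : Cfsg.IsStemExtension (e.symm.toMonoidHom.comp σ) := by
    refine ⟨e.symm.surjective.comp hs, ?_, ?_⟩
    · rw [hker]; exact hc
    · rw [hker]; exact hd
  rw [← hker]
  exact stem_trivial D hqr hbig (e.symm.toMonoidHom.comp σ) hσ'

end Cfsg.Agent.Helper6.SzSchur
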